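import Mathlib

/-! Pattern subgroups of `GL_n(q)` and the restriction of cuspidal representations to them. -/

set_option autoImplicit false

namespace Cfsg.Agent.Spc.Cu
open Matrix Module

variable {F : Type*} [Field F] [Fintype F] [DecidableEq F] {n : ℕ}

/-- Matrices agreeing with the identity outside a transitive pattern. -/
def pat (F : Type*) [Field F] [Fintype F] [DecidableEq F] (P : Fin n → Fin n → Prop)
    (hP : ∀ i j k, P i j → P j k → P i k) : Subgroup (GL (Fin n) F) :=
  let S : Submonoid (GL (Fin n) F) :=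
    { carrier := {g | ∀ i j, ¬ P i j → g.1 i j = (1 : Matrix (Fin n) (Fin n) F) i j}
      one_mem' := fun _ _ _ => rfl
      mul_mem' := fun {g h} hg hh i j hij => by
        rw [Units.val_mul, Matrix.mul_apply, Finset.sum_eq_single i]
        · by_cases hii : P i i
          · by_cases e : i = j
            · exact absurd (e ▸ hii) hij
            · rw [hh i j hij, one_apply_ne e, mul_zero]
          · rw [hg i i hii, one_apply_eq, one_mul, hh i j hij]
        · intro k _ hk
          by_cases h1 : P i k
          · have h2 : ¬ P k j := fun h2 => hij (hP _ _ _ h1 h2)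
            rw [hh k j h2, one_apply_ne (by rintro rfl; exact hij h1), mul_zero]
          · rw [hg i k h1, one_apply_ne hk.symm, zero_mul]
        · simp }
  { S with
    inv_mem' := fun {g} hg => by
      have : g⁻¹ = g ^ (orderOf g - 1) := by
        rw [inv_eq_iff_mul_eq_one, ← pow_succ', Nat.sub_add_cancel (orderOf_pos g), pow_orderOf_eq_one]
      rw [this]; exact S.pow_mem hg _ }

theorem mem_pat {P : Fin n → Fin n → Prop} {hP : ∀ i j k, P i j → P j k → P i k} {g : GL (Fin n) F} :
    g ∈ pat F P hP ↔ ∀ i j, ¬ P i j → g.1 i j = (1 : Matrix (Fin n) (Fin n) F) i j := Iff.rfl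

variable (F n) in
/-- unitriangular matrices trivial in the first `k` columns -/
def Nk (k : ℕ) : Subgroup (GL (Fin n) F) :=
  pat F (fun i j => i < j ∧ k ≤ j.val) fun _ _ _ h h' => ⟨h.1.trans h'.1, h'.2⟩

variable (F n) in
/-- unipotent radicals -/
def Um (m : ℕ) : Subgroup (GL (Fin n) F) :=
  pat F (fun i j => i.val < m ∧ m ≤ j.val) fun _ _ _ h h' => ⟨h.1, h'.2⟩

variable (F n) in
/-- the top left block -/
def Bk (k : ℕ) : Subgroup (GL (Fin n) F) :=
  pat F (fun i j => i.val < k ∧ j.val < k) fun _ _ _ h h' => ⟨h.1, h'.2⟩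

theorem Nk_le {k l : ℕ} (h : k ≤ l) : Nk F n l ≤ Nk F n k :=
  fun _ hg i j hij => hg i j fun h' => hij ⟨h'.1, h.trans h'.2⟩

theorem Um_le (k : ℕ) : Um F n k ≤ Nk F n k :=
  fun _ hg i j hij => hg i j fun h' => hij ⟨Fin.lt_def.2 (h'.1.trans_le h'.2), h'.2⟩

/-- sum of the superdiagonal entries -/
def sd (A : Matrix (Fin n) (Fin n) F) : F := ∑ i, ∑ j, if j.val = i.val + 1 then A i j else 0

theorem sd_mul {u v : GL (Fin n) F} (hu : u ∈ Nk F n 0) (hv : v ∈ Nk F n 0) :
    sd (u * v).1 = sd u.1 + sd v.1 := by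
  simp only [sd, ← Finset.sum_add_distrib]
  refine Finset.sum_congr rfl fun i _ => Finset.sum_congr rfl fun j _ => ?_
  split_ifs with h
  · have hij : i ≠ j := by rintro rfl; omega
    rw [Units.val_mul, Matrix.mul_apply, Finset.sum_eq_add i j hij, hu i i (by simp), hv j j (by simp)]
    · simp [add_comm]
    · intro k _ hk
      by_cases h1 : i < k
      · rw [hv k j (fun h2 => by have := h2.1; have := hk.2; omega), one_apply_ne hk.2, mul_zero]
      · rw [hu i k (fun h2 => h1 h2.1), one_apply_ne hk.1.symm, zero_mul]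
    · simp
    · simp
  · simp

theorem sd_congr {A B : Matrix (Fin n) (Fin n) F} (h : ∀ i j : Fin n, j.val = i.val + 1 → A i j = B i j) :
    sd A = sd B :=
  Finset.sum_congr rfl fun i _ => Finset.sum_congr rfl fun j _ => by
    split_ifs with e
    · exact h i j e
    · rfl

theorem sd_one : sd (1 : Matrix (Fin n) (Fin n) F) = 0 :=
  Finset.sum_eq_zero fun i _ => Finset.sum_eq_zero fun j _ => by
    split_ifs with e
    · exact one_apply_ne (by rintro rfl; omega)
    · rfl

/-- the nilpotent part of a column matrix -/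
def colN (k : Fin n) (c : Fin n → F) : Matrix (Fin n) (Fin n) F :=
  of fun i j => if i < k ∧ j = k then c i else 0

theorem colN_mul (k : Fin n) (c c' : Fin n → F) : colN k c * colN k c' = 0 := by
  ext i j
  rw [Matrix.mul_apply, Finset.sum_eq_zero, Matrix.zero_apply]
  intro l _
  by_cases h : l = k
  · simp [colN, h]
  · simp [colN, h]

theorem colN_add (k : Fin n) (c c' : Fin n → F) : colN k (c + c') = colN k c + colN k c' := by
  ext i j; simp only [colN, of_apply, Matrix.add_apply, Pi.add_apply]; split_ifs <;> simp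

theorem colN_zero (k : Fin n) : colN k (0 : Fin n → F) = 0 := by
  ext i j; simp [colN]

theorem col_aux (k : Fin n) (c c' : Fin n → F) :
    (1 + colN k c) * (1 + colN k c') = 1 + colN k (c + c') := by
  rw [add_mul, mul_add, mul_add, colN_mul, colN_add]; simp only [one_mul, mul_one]; abel

/-- column matrices -/
def col (k : Fin n) (c : Fin n → F) : GL (Fin n) F :=
  ⟨1 + colN k c, 1 + colN k (-c), by rw [col_aux, add_neg_cancel, colN_zero, add_zero],
    by rw [col_aux, neg_add_cancel, colN_zero, add_zero]⟩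

theorem col_add (k : Fin n) (c c' : Fin n → F) : col k (c + c') = col k c * col k c' :=
  Units.ext (col_aux k c c').symm

theorem col_zero (k : Fin n) : col k (0 : Fin n → F) = 1 :=
  Units.ext (by show 1 + colN k 0 = 1; rw [colN_zero, add_zero])

theorem col_mem (k : Fin n) (c : Fin n → F) : col k c ∈ Nk F n k := fun i j h => by
  show (1 + colN k c) i j = _
  rw [Matrix.add_apply, colN, of_apply, if_neg, add_zero]
  rintro ⟨h1, rfl⟩; exact h ⟨h1, le_rfl⟩

theorem sd_col {k k' : Fin n} (hk : k.val = k'.val + 1) (c : Fin n → F) : sd (col k c).1 = c k' := by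
  rw [sd, Finset.sum_eq_single k', Finset.sum_eq_single k, if_pos hk]
  · show (1 + colN k c) k' k = _
    rw [Matrix.add_apply, one_apply_ne (by rintro rfl; omega), colN, of_apply, if_pos ⟨by omega, rfl⟩, zero_add]
  · intro j _ hj; rw [if_neg]; omega
  · simp
  · intro i _ hi
    refine Finset.sum_eq_zero fun j _ => ?_
    split_ifs with e
    · show (1 + colN k c) i j = _
      rw [Matrix.add_apply, one_apply_ne (by rintro rfl; omega), colN, of_apply, if_neg, add_zero]
      omega
    · rfl
  · simp

theorem split_col {k : Fin n} {u : GL (Fin n) F} (hu : u ∈ Nk F n k) :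
    ∃ u' ∈ Nk F n (k + 1), u = u' * col k (fun i => u.1 i k) ∧
      ∀ i j, j ≠ k → u'.1 i j = u.1 i j := by
  have key : ∀ i j, (u * col k (-fun i => u.1 i k)).1 i j =
      u.1 i j - if i < k ∧ j = k then u.1 i k else 0 := fun i j => by
    show (u.1 * (1 + colN k (-fun i => u.1 i k)) : Matrix _ _ F) i j = _
    rw [mul_add, mul_one, Matrix.add_apply, Matrix.mul_apply, Finset.sum_eq_single i, sub_eq_add_neg]
    · simp only [colN, of_apply, Pi.neg_apply]
      rw [hu i i (by simp), one_apply_eq]; split_ifs <;> simp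
    · intro l _ hl
      by_cases h : l < k
      · rw [hu i l (fun h' => by have := h'.2; omega), one_apply_ne hl.symm, zero_mul]
      · simp [colN, h]
    · simp
  refine ⟨u * col k (-fun i => u.1 i k), fun i j h => ?_, ?_, fun i j h => ?_⟩
  · rw [key]
    split_ifs with e
    · obtain ⟨e1, rfl⟩ := e
      rw [sub_self, one_apply_ne e1.ne]
    · rw [sub_zero]
      exact hu i j fun h' => h ⟨h'.1, by
        have h2 := h'.2
        have h3 : j ≠ k := fun h3 => e ⟨h3 ▸ h'.1, h3⟩
        omega⟩
  · rw [mul_assoc, ← col_add, neg_add_cancel, col_zero, mul_one]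
  · rw [key, if_neg (fun e => h e.2), sub_zero]

theorem conj_val {k : ℕ} {g u : GL (Fin n) F} (hg : g ∈ Bk F n k) (hu : u ∈ Nk F n k) :
    (g * u * g⁻¹).1 = 1 + g.1 * (u.1 - 1) := by
  have h1 : (u.1 - 1) * (g⁻¹).1 = u.1 - 1 := by
    ext i j
    have hg' := (Bk F n k).inv_mem hg
    rw [Matrix.mul_apply, Finset.sum_eq_single j]
    · by_cases h : j.val < k
      · rw [Matrix.sub_apply, hu i j (fun h' => by have := h'.2; omega), sub_self, zero_mul]
      · rw [hg' j j (fun h' => h h'.1), one_apply_eq, mul_one]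
    · intro l _ hl
      by_cases h : l.val < k
      · rw [Matrix.sub_apply, hu i l (fun h' => by have := h'.2; omega), sub_self, zero_mul]
      · rw [hg' l j (fun h' => h h'.1), one_apply_ne hl, mul_zero]
    · simp
  rw [Units.val_mul, Units.val_mul, ← h1, ← mul_assoc, mul_sub, mul_one, sub_mul, ← Units.val_mul g g⁻¹,
    mul_inv_cancel, Units.val_one]
  abel

theorem conj_row {k : ℕ} {g : GL (Fin n) F} (hg : g ∈ Bk F n k) (A : Matrix (Fin n) (Fin n) F)
    {i : Fin n} (hi : k ≤ i.val) (j : Fin n) : (g.1 * A) i j = A i j := by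
  rw [Matrix.mul_apply, Finset.sum_eq_single i, hg i i (fun h => by omega), one_apply_eq, one_mul]
  · intro l _ hl
    rw [hg i l (fun h => by omega), one_apply_ne hl.symm, zero_mul]
  · simp

theorem conj_mem {k : ℕ} {g u : GL (Fin n) F} (hg : g ∈ Bk F n k) (hu : u ∈ Nk F n (k + 1)) :
    g * u * g⁻¹ ∈ Nk F n (k + 1) ∧ sd (g * u * g⁻¹).1 = sd u.1 := by
  have h0 : ∀ i j : Fin n, j.val ≤ k → (g.1 * (u.1 - 1)) i j = 0 := fun i j hj => by
    rw [Matrix.mul_apply]
    exact Finset.sum_eq_zero fun l _ => by
      rw [Matrix.sub_apply, hu l j (fun h => by have := h.2; omega), sub_self, mul_zero]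
  constructor
  · intro i j h
    rw [conj_val hg (Nk_le (Nat.le_succ k) hu), Matrix.add_apply]
    by_cases hi : k ≤ i.val
    · rw [conj_row hg _ hi, Matrix.sub_apply, hu i j h, sub_self, add_zero]
    · rw [h0 i j (by
        by_contra hj
        exact h ⟨by omega, by omega⟩), add_zero]
  · refine sd_congr fun i j e => ?_
    rw [conj_val hg (Nk_le (Nat.le_succ k) hu), Matrix.add_apply]
    by_cases hi : k ≤ i.val
    · rw [conj_row hg _ hi, Matrix.sub_apply]; ring
    · rw [h0 i j (by omega), add_zero, hu i j (fun h => by have := h.2; omega)]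

theorem conj_col {k : Fin n} {g : GL (Fin n) F} (hg : g ∈ Bk F n k) (c : Fin n → F) :
    g * col k c * g⁻¹ = col k (g.1 *ᵥ fun i => if i < k then c i else 0) := by
  refine Units.ext ((conj_val hg (col_mem k c)).trans ?_)
  show 1 + g.1 * (1 + colN k c - 1) = 1 + colN k _
  rw [add_sub_cancel_left]
  congr 1
  ext i j
  by_cases hi : i < k
  · by_cases hj : j = k
    · simp [colN, Matrix.mul_apply, hi, hj, mulVec, dotProduct]
    · simp [colN, Matrix.mul_apply, hj]
  · rw [conj_row hg _ (by omega)]; simp [colN, hi]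

theorem exists_row {k k' : Fin n} (hk : k.val = k'.val + 1) {l : Fin n → F} (hl : l ≠ 0)
    (hl' : ∀ i, ¬ i < k → l i = 0) : ∃ g ∈ Bk F n k, ∀ j, g.1 k' j = l j := by
  obtain ⟨i, hi⟩ := Function.ne_iff.1 hl
  have hik : i < k := by_contra fun h => hi (hl' i h)
  have hd : ((1 : Matrix (Fin n) (Fin n) F).updateRow i l).det ≠ 0 := by
    have := det_updateRow_sum (1 : Matrix (Fin n) (Fin n) F) i l
    have e : ∑ k, l k • (1 : Matrix (Fin n) (Fin n) F) k = l := by
      ext j; simp [Finset.sum_apply, one_apply]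
    rw [e, det_one, smul_eq_mul, mul_one] at this
    rw [this]; exact hi
  refine ⟨GeneralLinearGroup.mkOfDetNeZero
    (((1 : Matrix (Fin n) (Fin n) F).updateRow i l).submatrix (Equiv.swap i k') id) ?_, ?_, ?_⟩
  · rw [det_permute]
    exact mul_ne_zero (by rcases Int.units_eq_one_or (Equiv.Perm.sign (Equiv.swap i k')) with h | h <;> simp [h]) hd
  · intro a b h
    show ((1 : Matrix (Fin n) (Fin n) F).updateRow i l) (Equiv.swap i k' a) b = _
    by_cases ha : a < k
    · have hb : ¬ b < k := fun hb => h ⟨ha, hb⟩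
      have h1 : Equiv.swap i k' a < k := by
        rw [Equiv.swap_apply_def]; split_ifs <;> omega
      rw [one_apply_ne (by rintro rfl; exact hb ha), updateRow_apply]
      split_ifs
      · exact hl' b hb
      · exact one_apply_ne (by rintro rfl; exact hb h1)
    · rw [Equiv.swap_apply_of_ne_of_ne (by rintro rfl; exact ha hik) (by rintro rfl; omega),
        updateRow_ne (by rintro rfl; exact ha hik)]
  · intro j
    show ((1 : Matrix (Fin n) (Fin n) F).updateRow i l) (Equiv.swap i k' k') j = _
    rw [Equiv.swap_apply_right, updateRow_self]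

end Cfsg.Agent.Spc.Cu
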