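import Mathlib
import Cfsg.Agent.Spc.CuA
import Cfsg.Agent.UGL.Dbl

/-! The degree of a cuspidal representation in terms of its Whittaker vectors. -/

set_option autoImplicit false

namespace Cfsg.Agent.Spc.Cu
open Matrix Module

variable {F : Type*} [Field F] [Fintype F] [DecidableEq F] {n : ℕ} {ψ : AddChar F ℂ}
variable {V : Type*} [AddCommGroup V] [Module ℂ V] [FiniteDimensional ℂ V]

omit [Fintype F] [DecidableEq F] in
theorem exists_ne_one (hψ : ψ.IsPrimitive) {a : F} (ha : a ≠ 0) : ∃ x, ψ (a * x) ≠ 1 := by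
  by_contra h
  push Not at h
  exact hψ ha (AddChar.ext _ _ h)

theorem sum_dot (hψ : ψ.IsPrimitive) {c : Fin n → F} (hc : c ≠ 0) : ∑ l : Fin n → F, ψ (l ⬝ᵥ c) = 0 := by
  obtain ⟨i, hi⟩ := Function.ne_iff.1 hc
  obtain ⟨x, hx⟩ := exists_ne_one hψ hi
  have : ∑ l : Fin n → F, ψ (l ⬝ᵥ c) = ψ (c i * x) * ∑ l : Fin n → F, ψ (l ⬝ᵥ c) := by
    rw [Finset.mul_sum, ← Equiv.sum_comp (Equiv.addRight (Pi.single i x))]
    refine Finset.sum_congr rfl fun l _ => ?_
    rw [Equiv.coe_addRight, add_dotProduct, single_dotProduct, AddChar.map_add_eq_mul, mul_comm, mul_comm x]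
  by_contra h
  exact hx (mul_right_cancel₀ h (this.symm.trans (one_mul _).symm))

variable (ψ) in
/-- eigenspaces of an action of a vector group -/
def eig (a : (Fin n → F) → End ℂ V) (l : Fin n → F) : Submodule ℂ V where
  carrier := {v | ∀ c, a c v = ψ (l ⬝ᵥ c) • v}
  add_mem' := fun {x y} hx hy c => by rw [map_add, hx c, hy c, smul_add]
  zero_mem' := fun c => by simp
  smul_mem' := fun r x hx c => by rw [map_smul, hx c, smul_comm]

theorem finrank_eq_sum (hψ : ψ.IsPrimitive) (a : (Fin n → F) → End ℂ V) (h0 : a 0 = 1)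
    (ha : ∀ c c', a (c + c') = a c * a c') : finrank ℂ V = ∑ l, finrank ℂ (eig ψ a l) := by
  let N : ℂ := Fintype.card (Fin n → F)
  have hN : N ≠ 0 := Nat.cast_ne_zero.2 Fintype.card_ne_zero
  let P : (Fin n → F) → End ℂ V := fun l => N⁻¹ • ∑ c, ψ (l ⬝ᵥ (-c)) • a c
  have hP : ∀ l, LinearMap.IsProj (eig ψ a l) (P l) := fun l => ⟨fun v c => by
      simp only [P, LinearMap.smul_apply, LinearMap.sum_apply, map_smul, map_sum]
      rw [smul_comm (ψ _)]
      congr 1
      rw [Finset.smul_sum, ← Equiv.sum_comp (Equiv.addLeft c) (fun x => ψ _ • ψ (l ⬝ᵥ -x) • a x v)]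
      refine Finset.sum_congr rfl fun x _ => ?_
      rw [Equiv.coe_addLeft, ha, smul_smul, ← AddChar.map_add_eq_mul, ← dotProduct_add]
      simp, fun v hv => by
      simp only [P, LinearMap.smul_apply, LinearMap.sum_apply]
      rw [Finset.sum_congr rfl fun c _ => show ψ (l ⬝ᵥ (-c)) • a c v = v by
        rw [hv c, smul_smul, ← AddChar.map_add_eq_mul, ← dotProduct_add]; simp]
      rw [Finset.sum_const, Finset.card_univ, ← Nat.cast_smul_eq_nsmul ℂ, smul_smul,
        inv_mul_cancel₀ hN, one_smul]⟩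
  have hs : ∑ l, P l = 1 := by
    simp only [P]
    rw [← Finset.smul_sum, Finset.sum_comm, Finset.sum_eq_single 0]
    · simp only [neg_zero, dotProduct_zero, AddChar.map_zero_eq_one, one_smul, h0]
      rw [Finset.sum_const, Finset.card_univ, ← Nat.cast_smul_eq_nsmul ℂ, smul_smul,
        inv_mul_cancel₀ hN, one_smul]
    · intro c _ hc
      rw [← Finset.sum_smul, sum_dot hψ (neg_ne_zero.2 hc), zero_smul]
    · simp
  have := congrArg (LinearMap.trace ℂ V) hs
  rw [map_sum, LinearMap.trace_one, Finset.sum_congr rfl fun l _ => (hP l).trace] at this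
  exact_mod_cast this.symm

theorem finrank_eq_sum' (hψ : ψ.IsPrimitive) (a : (Fin n → F) → End ℂ V) (h0 : a 0 = 1)
    (ha : ∀ c c', a (c + c') = a c * a c') (W : Submodule ℂ V) (hW : ∀ c, ∀ v ∈ W, a c v ∈ W) :
    finrank ℂ W = ∑ l, finrank ℂ ↥(W ⊓ eig ψ a l) := by
  rw [finrank_eq_sum hψ (fun c => (a c).restrict (hW c)) (by ext; simp [h0])
    (fun c c' => by ext; simp [ha])]
  refine Finset.sum_congr rfl fun l _ => ?_
  rw [← (Submodule.comapSubtypeEquivOfLe (inf_le_left : W ⊓ eig ψ a l ≤ W)).finrank_eq]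
  have : eig ψ (fun c => (a c).restrict (hW c)) l = (W ⊓ eig ψ a l).comap W.subtype := by
    ext v
    exact ⟨fun h => ⟨v.2, fun c => congrArg Subtype.val (h c)⟩, fun h c => Subtype.ext (h.2 c)⟩
  rw [this]

variable (ψ) in
/-- partial Whittaker vectors -/
def Wh (ρ : Representation ℂ (GL (Fin n) F) V) (k : ℕ) : Submodule ℂ V where
  carrier := {v | ∀ u ∈ Nk F n k, ρ u v = ψ (sd u.1) • v}
  add_mem' := fun {x y} hx hy c hc => by rw [map_add, hx c hc, hy c hc, smul_add]
  zero_mem' := fun c _ => by simp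
  smul_mem' := fun r x hx c hc => by rw [map_smul, hx c hc, smul_comm]

omit [FiniteDimensional ℂ V] in
theorem rho_mul (ρ : Representation ℂ (GL (Fin n) F) V) (g h : GL (Fin n) F) (v : V) :
    ρ (g * h) v = ρ g (ρ h v) := by rw [map_mul]; rfl

theorem step (hψ : ψ.IsPrimitive) (ρ : Representation ℂ (GL (Fin n) F) V) {k k' : Fin n}
    (hk : k.val = k'.val + 1) (hc : ∀ v, (∀ u ∈ Um F n k, ρ u v = v) → v = 0) :
    finrank ℂ (Wh ψ ρ (k + 1)) = (Fintype.card F ^ k.val - 1) * finrank ℂ (Wh ψ ρ k) := by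
  classical
  let a : (Fin n → F) → End ℂ V := fun c => ρ (col k c)
  have hU : ∀ {m : ℕ} {u : GL (Fin n) F}, u ∈ Nk F n m → u ∈ Nk F n 0 := fun h => Nk_le (Nat.zero_le _) h
  have hW : ∀ c, ∀ v ∈ Wh ψ ρ (k + 1), a c v ∈ Wh ψ ρ (k + 1) := fun c v hv u hu => by
    have h1 : (col k c)⁻¹ * u * col k c ∈ Nk F n k := mul_mem (mul_mem (inv_mem (col_mem k c))
      (Nk_le (Nat.le_succ _) hu)) (col_mem k c)
    obtain ⟨u', hu', e, h2⟩ := split_col h1
    have h3 : ∀ i, ((col k c)⁻¹ * u * col k c).1 i k = (1 : Matrix _ _ F) i k := fun i => by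
      have h4 : ∀ j, (u * col k c).1 j k = (col k c).1 j k := fun j => by
        rw [Units.val_mul, Matrix.mul_apply, Finset.sum_eq_single j, hu j j (by simp), one_apply_eq, one_mul]
        · intro l _ hl
          by_cases h : l ≤ k
          · rw [hu j l (fun h' => by have := h'.2; omega), one_apply_ne hl.symm, zero_mul]
          · rw [col_mem k c l k (fun h' => h h'.1.le), one_apply_ne (by rintro rfl; exact h le_rfl), mul_zero]
        · simp
      rw [mul_assoc, Units.val_mul, Matrix.mul_apply, Finset.sum_congr rfl fun j _ => by rw [h4],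
        ← Matrix.mul_apply, ← Units.val_mul, inv_mul_cancel, Units.val_one]
    have h5 : col k (fun i => ((col k c)⁻¹ * u * col k c).1 i k) = 1 := by
      refine Units.ext ?_
      show 1 + colN k _ = 1
      rw [add_eq_left]
      ext i j
      simp only [colN, of_apply, Matrix.zero_apply, h3]
      split_ifs with h
      · exact one_apply_ne h.1.ne
      · rfl
    rw [h5, mul_one] at e
    have h6 : sd u'.1 = sd u.1 := by
      have h7 := sd_mul (hU (col_mem k c)) (hU hu')
      have h8 := sd_mul (hU hu) (hU (col_mem k c))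
      rw [← e, ← mul_assoc, ← mul_assoc, mul_inv_cancel, one_mul, h8, e] at h7
      linear_combination -h7
    show ρ u (ρ (col k c) v) = _ • ρ (col k c) v
    rw [← rho_mul, show u * col k c = col k c * u' by rw [← e]; group, rho_mul, hv u' hu', map_smul, h6]
  have hval : ∀ l, ∀ v ∈ Wh ψ ρ (k + 1) ⊓ eig ψ a l, ∀ u ∈ Nk F n k,
      ρ u v = ψ (sd u.1 - u.1 k' k + l ⬝ᵥ fun i => u.1 i k) • v := fun l v hv u hu => by
    obtain ⟨u', hu', e, -⟩ := split_col hu
    have h1 := sd_mul (hU hu') (hU (col_mem k fun i => u.1 i k))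
    rw [← e, sd_col hk] at h1
    conv_lhs => rw [e]
    rw [rho_mul, show ρ (col k _) v = _ from hv.2 _, map_smul, hv.1 u' hu', smul_smul,
      ← AddChar.map_add_eq_mul, h1]
    congr 2; ring
  have h0 : Wh ψ ρ (k + 1) ⊓ eig ψ a 0 = ⊥ := by
    rw [eq_bot_iff]
    intro v hv
    refine hc v fun u hu => ?_
    have : sd u.1 = u.1 k' k := by
      rw [← sd_col hk fun i => u.1 i k]
      refine sd_congr fun i j e => ?_
      show _ = (1 + colN k (fun i => u.1 i k) : Matrix _ _ F) i j
      rw [Matrix.add_apply, colN, of_apply]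
      split_ifs with h
      · rw [one_apply_ne (by rintro rfl; omega), zero_add, h.2]
      · rw [add_zero]
        exact hu i j fun h' => h ⟨h'.1, by have := h'.1; have := h'.2; omega⟩
    rw [hval 0 v hv u (Um_le _ hu), this]; simp
  have h1 : Wh ψ ρ (k + 1) ⊓ eig ψ a (Pi.single k' 1) = Wh ψ ρ k := by
    refine le_antisymm (fun v hv u hu => ?_) fun v hv => ⟨fun u hu => hv u (Nk_le (Nat.le_succ _) hu),
      fun c => ?_⟩
    · rw [hval _ v hv u hu]; simp
    · show ρ (col k c) v = _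
      rw [hv _ (col_mem k c), sd_col hk]; simp
  have h2 : ∀ l : Fin n → F, (¬ ∀ i, ¬ i < k → l i = 0) → Wh ψ ρ (k + 1) ⊓ eig ψ a l = ⊥ :=
    fun l hl => by
    push Not at hl
    obtain ⟨i, hi, hl⟩ := hl
    obtain ⟨x, hx⟩ := exists_ne_one hψ hl
    rw [eq_bot_iff]
    intro v hv
    have e : col k (Pi.single i x) = 1 := by
      refine Units.ext ?_
      show 1 + colN k _ = 1
      rw [add_eq_left]
      ext i' j
      simp only [colN, of_apply, Matrix.zero_apply]
      split_ifs with h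
      · exact Pi.single_eq_of_ne (by rintro rfl; omega) _
      · rfl
    have := hv.2 (Pi.single i x)
    simp only [a, e, map_one, End.one_apply, dotProduct_single] at this
    by_contra h
    exact hx (smul_left_injective ℂ h (this.symm.trans (one_smul _ _).symm))
  have h3 : ∀ g ∈ Bk F n k, ∀ l : Fin n → F, (∀ i, ¬ i < k → l i = 0) →
      finrank ℂ ↥(Wh ψ ρ (k + 1) ⊓ eig ψ a l) ≤ finrank ℂ ↥(Wh ψ ρ (k + 1) ⊓ eig ψ a (l ᵥ* g.1)) :=
    fun g hg l hl => by
    have key : ∀ x v, ρ x (ρ g⁻¹ v) = ρ g⁻¹ (ρ (g * x * g⁻¹) v) := fun x v => by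
      rw [← rho_mul, ← rho_mul]; congr 2; group
    refine LinearMap.finrank_le_finrank_of_injective (f := (ρ g⁻¹).restrict fun v hv => ⟨?_, ?_⟩) ?_
    · intro u hu
      rw [key, hv.1 _ (conj_mem hg hu).1, (conj_mem hg hu).2, map_smul]
    · intro c
      show ρ (col k c) _ = _
      rw [key, conj_col hg, show ρ (col k _) v = _ from hv.2 _, map_smul, dotProduct_mulVec]
      congr 2
      refine Finset.sum_congr rfl fun i _ => ?_
      beta_reduce
      split_ifs with h
      · rfl
      · have : (l ᵥ* g.1) i = 0 := by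
          show ∑ j, l j * g.1 j i = 0
          refine Finset.sum_eq_zero fun j _ => ?_
          by_cases hj : j < k
          · rw [show g.1 j i = _ from hg j i (fun h' => h h'.2), one_apply_ne (by rintro rfl; exact h hj),
              mul_zero]
          · rw [hl j hj, zero_mul]
        rw [this, zero_mul, zero_mul]
    · intro x y e
      have : ρ g (ρ g⁻¹ x.1) = ρ g (ρ g⁻¹ y.1) := congrArg (fun z => ρ g z.1) e
      simp only [← rho_mul, mul_inv_cancel, map_one, End.one_apply] at this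
      exact Subtype.ext this
  have h4 : ∀ l : Fin n → F, (∀ i, ¬ i < k → l i = 0) → l ≠ 0 →
      finrank ℂ ↥(Wh ψ ρ (k + 1) ⊓ eig ψ a l) = finrank ℂ (Wh ψ ρ k) := fun l hl hl0 => by
    obtain ⟨g, hg, e⟩ := exists_row hk hl0 hl
    have e' : Pi.single k' 1 ᵥ* g.1 = l := by ext j; simp [e]
    rw [← h1]
    refine le_antisymm ?_ ?_
    · have := h3 g⁻¹ (inv_mem hg) l hl
      rwa [← e', vecMul_vecMul, ← Units.val_mul, mul_inv_cancel, Units.val_one, vecMul_one, e'] at this
    · have := h3 g hg (Pi.single k' 1) fun i hi => Pi.single_eq_of_ne (by rintro rfl; omega) _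
      rwa [e'] at this
  rw [finrank_eq_sum' hψ a (by simp [a, col_zero]) (fun c c' => by simp [a, col_add]) _ hW]
  let S := (Finset.univ.filter fun l : Fin n → F => ∀ i, ¬ i < k → l i = 0).erase 0
  rw [← Finset.sum_subset (Finset.subset_univ S), Finset.sum_congr rfl (g := fun _ => finrank ℂ (Wh ψ ρ k)),
    Finset.sum_const, smul_eq_mul, Finset.card_erase_of_mem (by simp)]
  · congr 2
    have := UGL.card_vanish (F := F) (fun i : Fin n => i < k)
    rw [Nat.card_eq_fintype_card, Fintype.card_subtype] at this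
    rw [this]; congr 1
    rw [← Fin.card_Iio k]; congr 1; ext; simp
  · intro l hl
    simp only [S, Finset.mem_erase, Finset.mem_filter, Finset.mem_univ, true_and] at hl
    exact h4 l hl.2 hl.1
  · intro l _ hl
    simp only [S, Finset.mem_erase, Finset.mem_filter, Finset.mem_univ, true_and, not_and] at hl
    by_cases e : l = 0
    · rw [e, h0, finrank_bot]
    · rw [h2 l (hl e), finrank_bot]

theorem finrank_Wh (hψ : ψ.IsPrimitive) (ρ : Representation ℂ (GL (Fin n) F) V)
    (hc : ∀ m, 0 < m → m < n → ∀ v, (∀ u ∈ Um F n m, ρ u v = v) → v = 0) (k : ℕ) (hk : k + 1 ≤ n) :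
    finrank ℂ (Wh ψ ρ (k + 1)) =
      (∏ i ∈ Finset.Ico 1 (k + 1), (Fintype.card F ^ i - 1)) * finrank ℂ (Wh ψ ρ 1) := by
  induction k with
  | zero => simp
  | succ k ih =>
    rw [Finset.prod_Ico_succ_top (by omega), step hψ ρ (k := ⟨k + 1, hk⟩) (k' := ⟨k, by omega⟩) rfl
      (hc _ (Nat.succ_pos k) hk), ih (by omega)]
    ring

omit [FiniteDimensional ℂ V] in
theorem Wh_top (ρ : Representation ℂ (GL (Fin n) F) V) : Wh ψ ρ n = ⊤ := by
  rw [eq_top_iff]
  intro v _ u hu
  have : u = 1 := Units.ext (Matrix.ext fun i j => hu i j fun h => by have := h.2; omega)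
  rw [this, Units.val_one, sd_one]; simp

omit [FiniteDimensional ℂ V] in
theorem Wh_one (ρ : Representation ℂ (GL (Fin n) F) V) : Wh ψ ρ 1 = Wh ψ ρ 0 := by
  have : Nk F n 1 = Nk F n 0 := le_antisymm (Nk_le (Nat.zero_le _)) fun g hg i j h =>
    hg i j fun h' => h ⟨h'.1, by have := h'.1; omega⟩
  ext v
  show (∀ u ∈ Nk F n 1, _) ↔ ∀ u ∈ Nk F n 0, _
  rw [this]

end Cfsg.Agent.Spc.Cu
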