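import Mathlib
import Cfsg.Agent.Spc.CuB

/-! Uniqueness of Whittaker vectors for `GL_n(q)` (Gelfand's trick). -/

set_option autoImplicit false

namespace Cfsg.Agent.Spc.Cu
open Matrix Module

variable {F : Type*} [Field F] [Fintype F] [DecidableEq F] {n : ℕ} {ψ : AddChar F ℂ}
variable {V : Type*} [AddCommGroup V] [Module ℂ V] [FiniteDimensional ℂ V]

theorem run_aux {α : Type*} (π : Equiv.Perm (Fin n)) (d : Fin n → α)
    (h : ∀ i j : Fin n, j.val = i.val + 1 → π j < π i → (π i).val = (π j).val + 1 ∧ d i = d j)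
    (i : Fin n) (t : ℕ) : ∀ j : Fin n, j.val = i.val + t → π j ≤ π i →
      ∀ k : Fin n, i ≤ k → k ≤ j → (π k).val + k.val = (π i).val + i.val ∧ d k = d i := by
  induction t with
  | zero =>
    intro j hj _ k h1 h2
    obtain rfl : k = i := Fin.ext (by omega)
    exact ⟨rfl, rfl⟩
  | succ t ih =>
    intro j hj hπ k h1 h2
    let j' : Fin n := ⟨i.val + t, by omega⟩
    have hj' : j'.val = i.val + t := rfl
    have hne : (π j).val ≠ (π i).val := fun e => by
      have := π.injective (Fin.ext e); omega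
    have hne' : (π j).val ≠ (π j').val := fun e => by
      have := π.injective (Fin.ext e); omega
    by_cases hc : π j < π j'
    · obtain ⟨e1, e2⟩ := h j' j (by omega) hc
      have := ih j' hj' (by omega)
      by_cases hk : k = j
      · obtain ⟨e3, e4⟩ := this j' (by omega) le_rfl
        exact ⟨by rw [hk]; omega, by rw [hk, ← e2, e4]⟩
      · exact this k h1 (by omega)
    · exfalso
      have h3 := ih j' hj' (by omega)
      obtain ⟨e3, -⟩ := h3 j' (by omega) le_rfl
      obtain ⟨e4, -⟩ := h3 ⟨i.val + ((π i).val - (π j).val), by omega⟩ (Fin.le_def.2 (by simp))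
        (Fin.le_def.2 (by simp only; omega))
      have := π.injective (Fin.ext (show (π ⟨i.val + ((π i).val - (π j).val), by omega⟩).val = (π j).val by
        simp only at e4; omega))
      have := congrArg Fin.val this
      simp only at this
      omega

theorem run_invol {α : Type*} (π : Equiv.Perm (Fin n)) (d : Fin n → α)
    (h : ∀ i j : Fin n, j.val = i.val + 1 → π j < π i → (π i).val = (π j).val + 1 ∧ d i = d j)
    (j : Fin n) : π (π j) = j ∧ d (π j) = d j := by
  classical
  have key : ∀ i j : Fin n, i ≤ j → π j ≤ π i →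
      ∀ k : Fin n, i ≤ k → k ≤ j → (π k).val + k.val = (π i).val + i.val ∧ d k = d i :=
    fun i j hij => run_aux π d h i (j.val - i.val) j (by omega)
  obtain ⟨a, ha, ha'⟩ := Finset.exists_min_image (Finset.univ.filter fun i => i ≤ j ∧ π j ≤ π i) id
    ⟨j, by simp⟩
  obtain ⟨b, hb, hb'⟩ := Finset.exists_max_image (Finset.univ.filter fun i => j ≤ i ∧ π i ≤ π j) id
    ⟨j, by simp⟩
  simp only [Finset.mem_filter, Finset.mem_univ, true_and, id] at ha ha' hb hb'
  have k1 := key a j ha.1 ha.2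
  have k2 := key j b hb.1 hb.2
  have k3 := k1 j ha.1 le_rfl
  have hc : (π j).val = a.val + (b.val - j.val) := by
    have e1 : (Finset.univ.filter fun i => π i < π j).card = (π j).val := by
      rw [← Fin.card_Iio]
      exact Finset.card_equiv π (by simp)
    have e2 : (Finset.univ.filter fun i => π i < π j) = Finset.Iio a ∪ Finset.Ioc j b := by
      ext i
      simp only [Finset.mem_filter, Finset.mem_univ, true_and, Finset.mem_union, Finset.mem_Iio,
        Finset.mem_Ioc]
      constructor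
      · intro hi
        rcases lt_trichotomy i j with h1 | h1 | h1
        · left
          by_contra h2
          have := (k1 i (by omega) h1.le).1
          have := k3.1
          omega
        · rw [h1] at hi; omega
        · exact Or.inr ⟨h1, hb' i ⟨h1.le, hi.le⟩⟩
      · rintro (h1 | h1)
        · by_contra h2
          have := ha' i ⟨by have := ha.1; omega, by omega⟩
          omega
        · have := (k2 i h1.1.le h1.2).1
          have := h1.1
          omega
    rw [← e1, e2, Finset.card_union_of_disjoint, Fin.card_Iio, Fin.card_Ioc]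
    rw [Finset.disjoint_left]
    intro i h1 h2
    simp only [Finset.mem_Iio, Finset.mem_Ioc] at h1 h2
    have := ha.1
    omega
  have := ha.1
  have := hb.1
  rcases le_total (π j) j with h1 | h1
  · obtain ⟨e1, e2⟩ := k1 (π j) (by omega) h1
    exact ⟨Fin.ext (by have := k3.1; omega), e2.trans k3.2.symm⟩
  · obtain ⟨e1, e2⟩ := k2 (π j) h1 (by omega)
    exact ⟨Fin.ext (by omega), e2⟩

/-- reflection in the antidiagonal -/
def fl (A : Matrix (Fin n) (Fin n) F) : Matrix (Fin n) (Fin n) F := of fun i j => A j.rev i.rev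

omit [Fintype F] [DecidableEq F] in
theorem fl_mul (A B : Matrix (Fin n) (Fin n) F) : fl (A * B) = fl B * fl A := by
  ext i j
  simp only [fl, of_apply, Matrix.mul_apply]
  rw [← Equiv.sum_comp Fin.revPerm]
  exact Finset.sum_congr rfl fun k _ => mul_comm _ _

omit [Fintype F] [DecidableEq F] in
theorem fl_one : fl (1 : Matrix (Fin n) (Fin n) F) = 1 := by
  ext i j
  simp [fl, one_apply, eq_comm]

/-- the anti-involution -/
def io (g : GL (Fin n) F) : GL (Fin n) F :=
  ⟨fl g.1, fl (g⁻¹).1, by rw [← fl_mul, ← Units.val_mul, inv_mul_cancel, Units.val_one, fl_one],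
    by rw [← fl_mul, ← Units.val_mul, mul_inv_cancel, Units.val_one, fl_one]⟩

omit [Fintype F] [DecidableEq F] in
theorem io_mul (g h : GL (Fin n) F) : io (g * h) = io h * io g := Units.ext (fl_mul _ _)

omit [Fintype F] [DecidableEq F] in
theorem io_io (g : GL (Fin n) F) : io (io g) = g := Units.ext (by ext i j; simp [io, fl])

theorem io_mem {u : GL (Fin n) F} (hu : u ∈ Nk F n 0) : io u ∈ Nk F n 0 := fun i j h => by
  show u.1 j.rev i.rev = _
  rw [hu _ _ fun h' => h ⟨Fin.rev_lt_rev.1 h'.1, Nat.zero_le _⟩]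
  simp [one_apply, eq_comm]

omit [Fintype F] [DecidableEq F] in
theorem sd_fl (A : Matrix (Fin n) (Fin n) F) : sd (fl A) = sd A := by
  rw [sd, sd, Finset.sum_comm, ← Equiv.sum_comp Fin.revPerm]
  refine Finset.sum_congr rfl fun i _ => ?_
  rw [← Equiv.sum_comp Fin.revPerm]
  refine Finset.sum_congr rfl fun j _ => ?_
  simp only [fl, of_apply, Fin.revPerm_apply, Fin.rev_rev, Fin.val_rev]
  exact if_congr (by omega) rfl rfl

theorem tri_split {h : GL (Fin n) F} (hh : h ∈ upperTriangularGL n F) :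
    ∃ (d : Fin n → F) (t : GL (Fin n) F), (∀ i, d i ≠ 0) ∧ t.1 = diagonal d ∧
      h * t⁻¹ ∈ Nk F n 0 ∧ t⁻¹ * h ∈ Nk F n 0 := by
  have hh' : h.1.BlockTriangular id := hh
  have hd : ∀ i, h.1 i i ≠ 0 := fun i => by
    have := h.det_ne_zero
    rw [det_of_isUpperTriangular hh'] at this
    exact Finset.prod_ne_zero_iff.1 this i (Finset.mem_univ _)
  let t : GL (Fin n) F := ⟨diagonal fun i => h.1 i i, diagonal fun i => (h.1 i i)⁻¹,
    by rw [diagonal_mul_diagonal, ← diagonal_one]; congr 1; ext i; exact mul_inv_cancel₀ (hd i),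
    by rw [diagonal_mul_diagonal, ← diagonal_one]; congr 1; ext i; exact inv_mul_cancel₀ (hd i)⟩
  refine ⟨_, t, hd, rfl, fun i j hij => ?_, fun i j hij => ?_⟩
  · show (h.1 * diagonal (fun i => (h.1 i i)⁻¹) : Matrix _ _ F) i j = _
    rw [mul_diagonal]
    by_cases e : i = j
    · rw [e, one_apply_eq, mul_inv_cancel₀ (hd j)]
    · rw [hh' (show j < i by have : ¬ i < j := fun h' => hij ⟨h', Nat.zero_le _⟩; omega), zero_mul,
        one_apply_ne e]
  · show (diagonal (fun i => (h.1 i i)⁻¹) * h.1 : Matrix _ _ F) i j = _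
    rw [diagonal_mul]
    by_cases e : i = j
    · rw [e, one_apply_eq, inv_mul_cancel₀ (hd j)]
    · rw [hh' (show j < i by have : ¬ i < j := fun h' => hij ⟨h', Nat.zero_le _⟩; omega), mul_zero,
        one_apply_ne e]

theorem bruhat' (g : GL (Fin n) F) : ∃ u ∈ Nk F n 0, ∃ u' ∈ Nk F n 0,
    ∃ (m : GL (Fin n) F) (w : Equiv.Perm (Fin n)) (d : Fin n → F), (∀ j, d j ≠ 0) ∧
      (∀ i j, m.1 i j = if i = w j then d j else 0) ∧ g = u * m * u' := by
  obtain ⟨w, h, hh, k, hk, e⟩ := UGL.bruhat g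
  obtain ⟨d, t, hd, ht, h1, -⟩ := tri_split hh
  obtain ⟨d', t', hd', ht', -, h2⟩ := tri_split hk
  refine ⟨_, h1, _, h2, t * UGL.pm F n w * t', w, fun j => d (w j) * d' j,
    fun j => mul_ne_zero (hd _) (hd' _), fun i j => ?_, by rw [e]; group⟩
  rw [Units.val_mul, Units.val_mul, ht, ht', mul_diagonal, diagonal_mul, UGL.pm_val]
  by_cases e : i = w j
  · simp [e, Equiv.Perm.permMatrix, PEquiv.toMatrix_apply]
  · simp [e, Equiv.Perm.permMatrix, PEquiv.toMatrix_apply, Equiv.Perm.inv_eq_iff_eq, Equiv.symm_apply_eq]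

omit [Fintype F] [DecidableEq F] in
theorem colN_single {i j : Fin n} (h : i < j) (c : F) : colN j (Pi.single i c) = single i j c := by
  ext a b
  by_cases ha : a = i
  · subst ha; simp [colN, single_apply, h, eq_comm]
  · simp [colN, single_apply, ha, Ne.symm ha]

theorem sd_col' {i j : Fin n} (h : i < j) (c : F) :
    sd (col j (Pi.single i c)).1 = if j.val = i.val + 1 then c else 0 := by
  split_ifs with e
  · rw [sd_col e, Pi.single_eq_same]
  · rw [← sd_one (n := n)]
    refine sd_congr fun a b e' => ?_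
    show (1 + colN j (Pi.single i c) : Matrix _ _ F) a b = _
    rw [colN_single h, Matrix.add_apply, single_apply_of_ne _ _ _ _ _ (by omega), add_zero]

noncomputable instance instFintypeNk (k : ℕ) : Fintype (Nk F n k) := Fintype.ofFinite _

variable (ψ) in
/-- the Whittaker projector -/
noncomputable def ee (ρ : Representation ℂ (GL (Fin n) F) V) : End ℂ V :=
  ∑ u : Nk F n 0, ψ (-sd u.1.1) • ρ u.1

omit [FiniteDimensional ℂ V] in
theorem mul_ee (ρ : Representation ℂ (GL (Fin n) F) V) {u : GL (Fin n) F} (hu : u ∈ Nk F n 0) :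
    ρ u * ee ψ ρ = ψ (sd u.1) • ee ψ ρ := by
  rw [ee, Finset.mul_sum, Finset.smul_sum,
    ← Equiv.sum_comp (Equiv.mulLeft (⟨u, hu⟩ : Nk F n 0)) (fun x => ψ _ • ψ (-sd x.1.1) • ρ x.1)]
  refine Finset.sum_congr rfl fun x _ => ?_
  simp only [Equiv.coe_mulLeft, Subgroup.coe_mul]
  rw [sd_mul hu x.2, smul_smul, ← AddChar.map_add_eq_mul, map_mul, mul_smul_comm]
  congr 2; ring

omit [FiniteDimensional ℂ V] in
theorem ee_mul (ρ : Representation ℂ (GL (Fin n) F) V) {u : GL (Fin n) F} (hu : u ∈ Nk F n 0) :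
    ee ψ ρ * ρ u = ψ (sd u.1) • ee ψ ρ := by
  rw [ee, Finset.sum_mul, Finset.smul_sum,
    ← Equiv.sum_comp (Equiv.mulRight (⟨u, hu⟩ : Nk F n 0)) (fun x => ψ _ • ψ (-sd x.1.1) • ρ x.1)]
  refine Finset.sum_congr rfl fun x _ => ?_
  simp only [Equiv.coe_mulRight, Subgroup.coe_mul]
  rw [sd_mul x.2 hu, smul_smul, ← AddChar.map_add_eq_mul, map_mul, smul_mul_assoc]
  congr 2; ring

omit [FiniteDimensional ℂ V] in
theorem H_mul (ρ : Representation ℂ (GL (Fin n) F) V) {u u' : GL (Fin n) F} (hu : u ∈ Nk F n 0)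
    (hu' : u' ∈ Nk F n 0) (g : GL (Fin n) F) : ee ψ ρ * ρ (u * g * u') * ee ψ ρ =
      (ψ (sd u.1) * ψ (sd u'.1)) • (ee ψ ρ * ρ g * ee ψ ρ) := by
  rw [map_mul, map_mul, ← mul_assoc, ← mul_assoc, ee_mul ρ hu, mul_assoc, mul_ee ρ hu']
  simp only [smul_mul_assoc, mul_smul_comm, smul_smul, mul_comm]

omit [FiniteDimensional ℂ V] in
theorem H_io (hψ : ψ.IsPrimitive) (ρ : Representation ℂ (GL (Fin n) F) V) (g : GL (Fin n) F) :
    ee ψ ρ * ρ (io g) * ee ψ ρ = ee ψ ρ * ρ g * ee ψ ρ := by
  have key : ∀ (m : GL (Fin n) F) (w : Equiv.Perm (Fin n)) (d : Fin n → F), (∀ j, d j ≠ 0) →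
      (∀ i j, m.1 i j = if i = w j then d j else 0) → ee ψ ρ * ρ m * ee ψ ρ ≠ 0 → io m = m := by
    intro m w d hd hm h0
    have h1 : ∀ i j : Fin n, j.val = i.val + 1 → w i < w j → (w j).val = (w i).val + 1 ∧ d i = d j := by
      intro i j hij hw
      have h2 : ∀ c, ψ c = ψ (if (w j).val = (w i).val + 1 then c * d i / d j else 0) := fun c => by
        have hlt : i < j := by omega
        have e : m * col j (Pi.single i c) = col (w j) (Pi.single (w i) (c * d i / d j)) * m := by
          refine Units.ext ?_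
          show m.1 * (1 + colN j _) = (1 + colN (w j) _) * m.1
          rw [colN_single hlt, colN_single hw, mul_add, add_mul, mul_one, one_mul]
          congr 1
          ext a b
          by_cases hb : b = j
          · subst hb
            rw [mul_single_apply_same, hm]
            by_cases ha : a = w i
            · subst ha
              rw [single_mul_apply_same, hm, if_pos rfl, if_pos rfl, div_mul_cancel₀ _ (hd _), mul_comm]
            · rw [single_mul_apply_of_ne _ _ _ _ _ ha, if_neg ha, zero_mul]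
          · rw [mul_single_apply_of_ne _ _ _ _ _ hb]
            by_cases ha : a = w i
            · subst ha
              rw [single_mul_apply_same, hm, if_neg (fun e => hb (w.injective e).symm), mul_zero]
            · rw [single_mul_apply_of_ne _ _ _ _ _ ha]
        have e1 := H_mul (ψ := ψ) ρ (one_mem _) (Nk_le (Nat.zero_le _) (col_mem j (Pi.single i c))) m
        have e2 := H_mul (ψ := ψ) ρ (Nk_le (Nat.zero_le _)
          (col_mem (w j) (Pi.single (w i) (c * d i / d j)))) (one_mem _) m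
        rw [one_mul, e] at e1
        rw [mul_one, e1, sd_col' hlt, sd_col' hw, if_pos hij, Units.val_one, sd_one] at e2
        simpa using smul_left_injective ℂ h0 e2
      by_cases e : (w j).val = (w i).val + 1
      · refine ⟨e, ?_⟩
        by_contra hne
        obtain ⟨x, hx⟩ := exists_ne_one hψ (sub_ne_zero.2 hne)
        apply hx
        have := h2 (x * d j)
        rw [if_pos e, mul_right_comm, mul_div_cancel_right₀ _ (hd j)] at this
        rw [sub_mul, AddChar.map_sub_eq_div, mul_comm, mul_comm (d j), this, div_self]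
        intro h3
        have := ψ.map_add_eq_mul (x * d i) (-(x * d i))
        rw [h3, zero_mul, add_neg_cancel, AddChar.map_zero_eq_one] at this
        exact one_ne_zero this
      · obtain ⟨x, hx⟩ := exists_ne_one hψ one_ne_zero
        rw [h2, if_neg e, AddChar.map_zero_eq_one] at hx
        exact absurd rfl hx
    have h2 := run_invol (w.trans Fin.revPerm) d fun i j hij hw => by
      simp only [Equiv.trans_apply, Fin.revPerm_apply, Fin.rev_lt_rev, Fin.val_rev] at hw ⊢
      obtain ⟨e1, e2⟩ := h1 i j hij hw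
      exact ⟨by omega, e2⟩
    simp only [Equiv.trans_apply, Fin.revPerm_apply] at h2
    refine Units.ext (Matrix.ext fun i j => ?_)
    show m.1 j.rev i.rev = _
    rw [hm, hm]
    by_cases e : i = w j
    · rw [if_pos e, e, if_pos (Fin.rev_eq_iff.2 (h2 j).1.symm), (h2 j).2]
    · rw [if_neg e, if_neg fun e' => e ?_]
      have := (h2 i.rev).1
      rw [← e', Fin.rev_rev] at this
      exact (Fin.rev_injective this).symm
  obtain ⟨u, hu, u', hu', m, w, d, hd, hm, rfl⟩ := bruhat' g
  rw [io_mul, io_mul, ← mul_assoc (io u'), H_mul ρ hu hu', H_mul ρ (io_mem hu') (io_mem hu), mul_comm]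
  have e1 : sd (io u).1 = sd u.1 := sd_fl _
  have e2 : sd (io u').1 = sd u'.1 := sd_fl _
  rw [e1, e2]
  by_cases h0 : ee ψ ρ * ρ m * ee ψ ρ = 0
  · by_cases h1 : ee ψ ρ * ρ (io m) * ee ψ ρ = 0
    · rw [h0, h1]
    · have := key (io m) (Fin.revPerm.trans (w.symm.trans Fin.revPerm)) (fun j => d (w.symm j.rev))
        (fun j => hd _) (fun i j => by
          show m.1 j.rev i.rev = _
          rw [hm]
          simp only [Equiv.trans_apply, Fin.revPerm_apply]
          by_cases e : j.rev = w i.rev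
          · rw [if_pos e, e, Equiv.symm_apply_apply, Fin.rev_rev, if_pos rfl]
          · rw [if_neg e, if_neg fun e' => e (by rw [e']; simp)]) h1
      rw [io_io] at this
      rw [← this]
  · rw [key m w d hd hm h0]

omit [FiniteDimensional ℂ V] in
theorem H_comm (hψ : ψ.IsPrimitive) (ρ : Representation ℂ (GL (Fin n) F) V) (g h : GL (Fin n) F) :
    ee ψ ρ * ρ g * ee ψ ρ * ρ h * ee ψ ρ = ee ψ ρ * ρ h * ee ψ ρ * ρ g * ee ψ ρ := by
  classical
  have e1 : ∀ g h, ee ψ ρ * ρ g * ee ψ ρ * ρ h * ee ψ ρ =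
      ∑ u : Nk F n 0, ψ (-sd u.1.1) • (ee ψ ρ * ρ (g * u.1 * h) * ee ψ ρ) := fun g h => by
    conv_lhs => rw [mul_assoc (ee ψ ρ), mul_assoc (ee ψ ρ)]; arg 1; arg 2; rw [ee]
    simp only [Finset.mul_sum, Finset.sum_mul, map_mul, mul_smul_comm, smul_mul_assoc]
  let τ : Nk F n 0 ≃ Nk F n 0 := ⟨fun u => ⟨io u.1, io_mem u.2⟩, fun u => ⟨io u.1, io_mem u.2⟩,
    fun u => Subtype.ext (io_io _), fun u => Subtype.ext (io_io _)⟩
  have e2 : ee ψ ρ * ρ g * ee ψ ρ * ρ h * ee ψ ρ = ee ψ ρ * ρ (io h) * ee ψ ρ * ρ (io g) * ee ψ ρ := by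
    rw [e1, e1, ← Equiv.sum_comp τ]
    refine Finset.sum_congr rfl fun u _ => ?_
    rw [← H_io hψ, io_mul, io_mul]
    show ψ (-sd (fl u.1.1)) • (_ * ρ (_ * (io (io u.1) * _)) * _) = _
    rw [sd_fl, io_io, mul_assoc (io h)]
  have hN : (Fintype.card (Nk F n 0) : ℂ) ≠ 0 := Nat.cast_ne_zero.2 Fintype.card_ne_zero
  have e3 : ee ψ ρ * ee ψ ρ = (Fintype.card (Nk F n 0) : ℂ) • ee ψ ρ := by
    conv_lhs => arg 1; rw [ee]
    rw [Finset.sum_mul, Finset.sum_congr rfl fun u _ => show _ = ee ψ ρ by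
      rw [smul_mul_assoc, mul_ee ρ u.2, smul_smul, ← AddChar.map_add_eq_mul]; simp]
    rw [Finset.sum_const, Nat.cast_smul_eq_nsmul]; congr!
  apply smul_right_injective _ hN
  calc _ = ee ψ ρ * ρ (io h) * ((Fintype.card (Nk F n 0) : ℂ) • ee ψ ρ) * ρ (io g) * ee ψ ρ := by
        beta_reduce; rw [e2]; simp only [mul_smul_comm, smul_mul_assoc]
    _ = (ee ψ ρ * ρ (io h) * ee ψ ρ) * (ee ψ ρ * ρ (io g) * ee ψ ρ) := by
        rw [← e3]; simp only [mul_assoc]
    _ = ee ψ ρ * ρ h * (ee ψ ρ * ee ψ ρ) * ρ g * ee ψ ρ := by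
        rw [H_io hψ, H_io hψ]; simp only [mul_assoc]
    _ = _ := by rw [e3]; simp only [mul_smul_comm, smul_mul_assoc]

theorem finrank_Wh_le (hψ : ψ.IsPrimitive) (ρ : Representation ℂ (GL (Fin n) F) V) [ρ.IsIrreducible] :
    finrank ℂ (Wh ψ ρ 0) ≤ 1 := by
  classical
  have hN : (Fintype.card (Nk F n 0) : ℂ) ≠ 0 := Nat.cast_ne_zero.2 Fintype.card_ne_zero
  have e1 : ∀ v, ee ψ ρ v ∈ Wh ψ ρ 0 := fun v u hu => LinearMap.congr_fun (mul_ee ρ hu) v
  have e2 : ∀ v ∈ Wh ψ ρ 0, ee ψ ρ v = (Fintype.card (Nk F n 0) : ℂ) • v := fun v hv => by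
    rw [ee, LinearMap.sum_apply, Finset.sum_congr rfl fun u _ => show _ = v by
      rw [LinearMap.smul_apply, hv _ u.2, smul_smul, ← AddChar.map_add_eq_mul]; simp]
    rw [Finset.sum_const, Nat.cast_smul_eq_nsmul]; congr!
  have key : ∀ Y : Submodule ℂ V, Y ≠ ⊥ → (∀ g, ∀ y ∈ Y, ee ψ ρ (ρ g y) ∈ Y) → Wh ψ ρ 0 ≤ Y := by
    intro Y hY h v hv
    let Z : Subrepresentation ρ :=
      { toSubmodule :=
          { carrier := {v | ∀ g, ee ψ ρ (ρ g v) ∈ Y}
            add_mem' := fun {x y} hx hy g => by rw [map_add, map_add]; exact Y.add_mem (hx g) (hy g)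
            zero_mem' := fun g => by simp
            smul_mem' := fun c x hx g => by rw [map_smul, map_smul]; exact Y.smul_mem c (hx g) }
        apply_mem_toSubmodule := fun g v hv g' => by rw [← rho_mul]; exact hv _ }
    rcases eq_bot_or_eq_top Z with hZ | hZ
    · refine absurd (eq_bot_iff.2 fun y hy => ?_) hY
      have : y ∈ Z.toSubmodule := fun g => h g y hy
      rw [hZ] at this; exact this
    · have : v ∈ Z.toSubmodule := by rw [hZ]; trivial
      have := this 1
      rw [map_one, End.one_apply, e2 v hv] at this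
      exact (Y.smul_mem_iff hN).1 this
  by_cases h0 : Wh ψ ρ 0 = ⊥
  · rw [h0, finrank_bot]; exact Nat.zero_le _
  haveI : Nontrivial (Wh ψ ρ 0) := Submodule.nontrivial_iff_ne_bot.2 h0
  have hs : ∀ h, ∃ μ : ℂ, ∀ v ∈ Wh ψ ρ 0, ee ψ ρ (ρ h v) = μ • v := fun h => by
    obtain ⟨μ, hμ⟩ := End.exists_eigenvalue
      ((ee ψ ρ * ρ h).restrict (p := Wh ψ ρ 0) (q := Wh ψ ρ 0) fun v _ => e1 _)
    obtain ⟨v, hv⟩ := hμ.exists_hasEigenvector
    refine ⟨μ, fun x hx => ?_⟩
    have := key (Wh ψ ρ 0 ⊓ End.eigenspace (ee ψ ρ * ρ h) μ) (fun hb => hv.2 (Subtype.ext ?_))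
      (fun g y hy => ⟨e1 _, ?_⟩) hx
    · exact End.mem_eigenspace_iff.1 this.2
    · have : v.1 ∈ Wh ψ ρ 0 ⊓ End.eigenspace (ee ψ ρ * ρ h) μ :=
        ⟨v.2, End.mem_eigenspace_iff.2 (congrArg Subtype.val hv.apply_eq_smul)⟩
      rw [hb] at this; exact this
    · have h1 := LinearMap.congr_fun (H_comm hψ ρ g h) y
      have h2 : ee ψ ρ (ρ h y) = μ • y := End.mem_eigenspace_iff.1 hy.2
      simp only [End.mul_apply, e2 y hy.1, map_smul, h2] at h1
      exact End.mem_eigenspace_iff.2 (smul_right_injective _ hN h1).symm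
  obtain ⟨v, hv, hv0⟩ := Submodule.exists_mem_ne_zero_of_ne_bot h0
  have := key (ℂ ∙ v) (by simpa using hv0) fun g y hy => by
    obtain ⟨c, rfl⟩ := Submodule.mem_span_singleton.1 hy
    obtain ⟨μ, hμ⟩ := hs g
    rw [hμ _ (Submodule.smul_mem _ c hv)]
    exact Submodule.smul_mem _ _ hy
  exact (Submodule.finrank_mono this).trans (finrank_span_singleton hv0).le

end Cfsg.Agent.Spc.Cu
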