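import Mathlib
import Cfsg.Agent.Spc.CuC
import Cfsg.Agent.Coh.VChar
import Cfsg.Agent.Char.Virtual

/-! Degrees of cuspidal characters, Gauss sums and counting lemmas. -/

set_option autoImplicit false

namespace Cfsg.Agent.Spc.Cu
open Matrix Module Cfsg.Agent.Char

section
variable {F : Type*} [Field F] [Fintype F] [DecidableEq F] {n : ℕ}

open scoped _root_.Classical in
/-- sum over a unipotent radical -/
noncomputable def uSum (χ : GL (Fin n) F → ℂ) (m : ℕ) : ℂ := ∑ g, if g ∈ Um F n m then χ g else 0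

open scoped _root_.Classical in
theorem uSum_eq (χ : GL (Fin n) F → ℂ) (m : ℕ) : uSum χ m = ∑ u : Um F n m, χ u := by
  rw [uSum, ← Finset.sum_filter]
  exact Finset.sum_subtype _ (by simp) _

theorem degree (hn : 1 ≤ n) {χ : GL (Fin n) F → ℂ} (hχ : IsIrrCharacter _ χ)
    (hc : ∀ m, 0 < m → m < n → uSum χ m = 0) :
    χ 1 = ∏ i ∈ Finset.Ico 1 n, ((Fintype.card F : ℂ) ^ i - 1) := by
  classical
  obtain ⟨d, ρ, hρ, rfl⟩ := hχ
  have hψ := AddChar.FiniteField.primitiveChar_to_Complex_isPrimitive F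
  have h1 : ∀ m, 0 < m → m < n → ∀ v, (∀ u ∈ Um F n m, ρ u v = v) → v = 0 := fun m h0 hm v hv => by
    haveI : Invertible (Nat.card (Um F n m) : ℂ) := invertibleOfNonzero (card_ne_zero)
    have := Representation.card_inv_mul_sum_char_eq_finrank (ρ.comp (Um F n m).subtype)
    have e : ∑ g : Um F n m, Representation.character (ρ.comp (Um F n m).subtype) g = 0 :=
      (uSum_eq _ m).symm.trans (hc m h0 hm)
    rw [e, mul_zero, eq_comm, Nat.cast_eq_zero, Submodule.finrank_eq_zero] at this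
    have h2 : v ∈ Representation.invariants (ρ.comp (Um F n m).subtype) := fun u => hv u u.2
    rwa [this] at h2
  obtain ⟨k, rfl⟩ : ∃ k, n = k + 1 := ⟨n - 1, by omega⟩
  have h2 := finrank_Wh hψ ρ h1 k le_rfl
  have h3 := finrank_Wh_le hψ ρ
  haveI := nontrivial_of_isIrreducible ρ
  rw [Wh_top, Wh_one, finrank_top] at h2
  have h4 : finrank ℂ (Wh (AddChar.FiniteField.primitiveChar_to_Complex F) ρ 0) = 1 := by
    by_contra h
    rw [show finrank ℂ (Wh (AddChar.FiniteField.primitiveChar_to_Complex F) ρ 0) = 0 by omega,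
      mul_zero] at h2
    exact finrank_pos.ne' h2
  rw [Representation.char_one, h2, h4, mul_one, Nat.cast_prod]
  refine Finset.prod_congr rfl fun i _ => ?_
  rw [Nat.cast_sub (Nat.one_le_pow _ _ Fintype.card_pos)]; simp

/-- Kondo's argument: characters agreeing on a parabolic subgroup but with different Gauss sums. -/
theorem uSum_eq_zero {ψ : AddChar F ℂ} (hψ : ψ.IsPrimitive) {χ χ' : GL (Fin n) F → ℂ}
    (hχ : IsIrrCharacter _ χ) (hχ' : IsIrrCharacter _ χ') {m : ℕ}
    (h : ∀ g : GL (Fin n) F, (∀ i j : Fin n, m ≤ i.val → j.val < m → g.1 i j = 0) → χ g = χ' g)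
    (hG : ∑ g : GL (Fin n) F, ψ g.1.trace * χ g ≠ ∑ g : GL (Fin n) F, ψ g.1.trace * χ' g) :
    uSum χ m = 0 ∧ uSum χ' m = 0 := by
  classical
  have hf : IsClassFunction (GL (Fin n) F) fun g => ψ g.1.trace := fun g x => by
    show ψ _ = ψ _
    rw [Units.val_mul, Units.val_mul, trace_mul_cycle, ← Units.val_mul, inv_mul_cancel, Units.val_one,
      one_mul]
  have hU : ∀ u ∈ Um F n m, χ u = χ' u := fun u hu => h u fun i j hi hj => by
    rw [hu i j (fun h' => by omega), one_apply_ne (by rintro rfl; omega)]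
  have h1 : χ 1 = χ' 1 := hU 1 (one_mem _)
  have hS : uSum χ m = uSum χ' m := by
    rw [uSum_eq, uSum_eq]; exact Finset.sum_congr rfl fun u _ => hU u u.2
  have key : ∀ χ : GL (Fin n) F → ℂ, IsIrrCharacter _ χ →
      (∑ g : GL (Fin n) F, ψ g.1.trace * χ g) / χ 1 * uSum χ m =
        ∑ g : GL (Fin n) F, χ g * ∑ u : Um F n m, ψ (g * u.1).1.trace := fun χ hχ => by
    rw [uSum_eq, ← Equiv.sum_comp (Equiv.inv (Um F n m)), Finset.mul_sum]
    simp only [Finset.mul_sum]
    rw [Finset.sum_comm]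
    refine Finset.sum_congr rfl fun u _ => ?_
    rw [← isIrr_sum_mul_mul hχ hf, ← Equiv.sum_comp (Equiv.mulRight u.1)]
    refine Finset.sum_congr rfl fun g _ => ?_
    simp [mul_comm]
  have hw : ∀ g : GL (Fin n) F, χ g * ∑ u : Um F n m, ψ (g * u.1).1.trace =
      χ' g * ∑ u : Um F n m, ψ (g * u.1).1.trace := fun g => by
    by_cases hg : ∀ i j : Fin n, m ≤ i.val → j.val < m → g.1 i j = 0
    · rw [h g hg]
    push Not at hg
    obtain ⟨i, j, hi, hj, hg⟩ := hg
    obtain ⟨c, hc⟩ := exists_ne_one hψ hg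
    have hji : j < i := by omega
    have hu : col i (Pi.single j c) ∈ Um F n m := fun a b hab => by
      show (1 + colN i (Pi.single j c) : Matrix _ _ F) a b = _
      rw [colN_single hji, Matrix.add_apply, single_apply_of_ne _ _ _ _ _ (by
        rintro ⟨rfl, rfl⟩; exact hab ⟨hj, hi⟩), add_zero]
    have : ∑ u : Um F n m, ψ (g * u.1).1.trace = ψ (g.1 i j * c) * ∑ u : Um F n m, ψ (g * u.1).1.trace := by
      rw [Finset.mul_sum, ← Equiv.sum_comp (Equiv.mulRight (⟨_, hu⟩ : Um F n m))]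
      refine Finset.sum_congr rfl fun u _ => ?_
      rw [← AddChar.map_add_eq_mul]
      congr 1
      show (g.1 * (u.1.1 * (1 + colN i (Pi.single j c)))).trace = _
      rw [colN_single hji, ← mul_assoc, mul_add, mul_one, trace_add, trace_mul_single, add_comm,
        Matrix.mul_apply, Finset.sum_eq_single j, u.2 j j (fun h' => by omega), one_apply_eq, mul_one]
      · simp
      · intro l _ hl
        rw [u.2 l j (fun h' => by omega), one_apply_ne hl, mul_zero]
      · simp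
    have h0 : ∑ u : Um F n m, ψ (g * u.1).1.trace = 0 := by
      by_contra h0
      exact hc (mul_right_cancel₀ h0 (this.symm.trans (one_mul _).symm))
    rw [h0, mul_zero, mul_zero]
  have e := (key χ hχ).trans ((Finset.sum_congr rfl fun g _ => hw g).trans (key χ' hχ').symm)
  rw [← hS, ← h1] at e
  rw [← hS, and_self]
  by_contra h0
  exact hG ((div_left_inj' (isIrr_one_ne_zero hχ)).1 (mul_right_cancel₀ h0 e))

end

theorem arith {q n : ℕ} (hq : 2 ≤ q) (hn : 2 ≤ n) (h22 : ¬ (q = 2 ∧ n = 2)) :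
    ∃ a : ℕ, (∀ j, 0 < j → j < n → ∀ m, m ∣ q ^ j - 1 → m ∣ q ^ n - 1 → a ≡ 1 [MOD m]) ∧
      (∀ j, j < n → ¬ a ≡ q ^ j [MOD q ^ n - 1]) ∧
      ∀ j, 0 < j → j < n → ¬ a * q ^ j ≡ a [MOD q ^ n - 1] := by
  obtain ⟨L, Φ, hN, hΦ, hL⟩ : ∃ L Φ : ℕ, q ^ n - 1 = L * Φ ∧ q - 1 < Φ ∧
      ∀ d, d ∣ n → d ≠ n → q ^ d - 1 ∣ L := by
    have e : ∀ d : ℕ, ((q ^ d - 1 : ℕ) : ℤ) = (Polynomial.X ^ d - 1 : Polynomial ℤ).eval (q : ℤ) :=
      fun d => by rw [Nat.cast_sub (Nat.one_le_pow _ _ (by omega))]; simp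
    refine ⟨((∏ i ∈ n.properDivisors, Polynomial.cyclotomic i ℤ).eval (q : ℤ)).natAbs,
      ((Polynomial.cyclotomic n ℤ).eval (q : ℤ)).natAbs, ?_,
      Polynomial.sub_one_lt_natAbs_cyclotomic_eval (by omega) (by omega), fun d hd hd' => ?_⟩
    · rw [← Int.natAbs_mul, ← Polynomial.eval_mul, ← Int.natAbs_natCast (q ^ n - 1), e,
        ← Polynomial.prod_cyclotomic_eq_X_pow_sub_one (by omega), ← Nat.cons_self_properDivisors (by omega),
        Finset.prod_cons, mul_comm]
    · rw [← Int.natAbs_natCast (q ^ d - 1), e, Int.natAbs_dvd_natAbs]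
      exact Polynomial.eval_dvd (Polynomial.X_pow_sub_one_dvd_prod_cyclotomic ℤ (by omega) hd hd')
  have hpos : ∀ j, 0 < j → 1 < q ^ j := fun j hj => Nat.one_lt_pow hj.ne' hq
  have hN0 : 0 < q ^ n - 1 := by have := hpos n (by omega); omega
  have hL0 : 0 < L := Nat.pos_of_mul_pos_right (hN ▸ hN0)
  have hΦ3 : 3 ≤ Φ := by
    by_contra h
    obtain rfl : q = 2 := by omega
    obtain rfl : Φ = 2 := by omega
    have : 2 ∣ 2 ^ n := dvd_pow_self 2 (by omega)
    omega
  have hgcd : ∀ j, 0 < j → j < n → n.gcd j ∣ n ∧ n.gcd j ≠ n ∧ 0 < n.gcd j := fun j h0 hj =>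
    ⟨Nat.gcd_dvd_left _ _, (lt_of_le_of_lt (Nat.gcd_le_right _ h0) hj).ne, Nat.gcd_pos_of_pos_right _ h0⟩
  have hJ : ∀ j, 0 < j → j < n → L ∣ q ^ j - 1 → L = q ^ n.gcd j - 1 := fun j h0 hj h => by
    refine Nat.dvd_antisymm ?_ (hL _ (hgcd j h0 hj).1 (hgcd j h0 hj).2.1)
    rw [← Nat.pow_sub_one_gcd_pow_sub_one]
    exact Nat.dvd_gcd (hN ▸ dvd_mul_right _ _) h
  have ha : 1 + 2 * L ≡ 1 [MOD L] := by
    rw [Nat.ModEq, Nat.add_mul_mod_self_right]
  refine ⟨1 + 2 * L, fun j h0 hj m h1 h2 => ?_, fun j hj h => ?_, fun j h0 hj h => ?_⟩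
  · refine ha.of_dvd (dvd_trans ?_ (hL _ (hgcd j h0 hj).1 (hgcd j h0 hj).2.1))
    rw [← Nat.pow_sub_one_gcd_pow_sub_one]
    exact Nat.dvd_gcd h2 h1
  · have h1 : 1 + 2 * L ≤ q ^ n - 1 := by rw [hN]; nlinarith
    have h2 : q ^ j ≤ q ^ n - 1 := by
      have := Nat.pow_lt_pow_right (show 1 < q by omega) hj; omega
    have h3 : 1 + 2 * L = q ^ j := by
      have := Nat.ModEq.eq_of_lt_of_lt (a := 2 * L) (b := q ^ j - 1) (m := q ^ n - 1) ?_ (by omega)
        (by have := Nat.one_le_pow j q (by omega); omega)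
      · have := Nat.one_le_pow j q (by omega); omega
      · refine Nat.ModEq.add_left_cancel' 1 ?_
        rwa [Nat.add_sub_cancel' (Nat.one_le_pow j q (by omega))]
    rcases Nat.eq_zero_or_pos j with rfl | h0
    · simp at h3; omega
    have h4 := hJ j h0 hj ⟨2, by omega⟩
    have h5 : q ^ n.gcd j ∣ q ^ j := pow_dvd_pow _ (Nat.gcd_le_right _ h0)
    have h6 := hpos _ (hgcd j h0 hj).2.2
    generalize q ^ n.gcd j = Q at h4 h5 h6
    have : Q ∣ 1 := by
      rw [← h3, h4, show 1 + 2 * (Q - 1) = 2 * Q - 1 by omega] at h5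
      exact (Nat.dvd_sub_iff_right (by omega) (dvd_mul_left Q 2)).1 h5
    exact absurd (Nat.le_of_dvd one_pos this) (by omega)
  · have h1 : q ^ n - 1 ∣ (1 + 2 * L) * (q ^ j - 1) := by
      rw [Nat.mul_sub, mul_one]
      exact (Nat.modEq_iff_dvd' (Nat.le_mul_of_pos_right _ (by positivity))).1 h.symm
    have h2 : L ∣ q ^ j - 1 := by
      have := (hN ▸ dvd_mul_right L Φ : L ∣ q ^ n - 1).trans h1
      rw [add_mul, one_mul, mul_right_comm] at this
      exact (Nat.dvd_add_left (dvd_mul_left _ _)).1 this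
    have h4 := hJ j h0 hj h2
    have h3 : q ^ n - 1 ∣ (1 + 2 * L) * L := by
      conv_rhs => arg 2; rw [h4, ← Nat.pow_sub_one_gcd_pow_sub_one]
      rw [← Nat.gcd_mul_left]
      exact Nat.dvd_gcd (dvd_mul_left _ _) h1
    have h5 : Φ ∣ 1 + 2 * L := by
      rw [hN, mul_comm L] at h3
      exact Nat.dvd_of_mul_dvd_mul_right hL0 h3
    obtain ⟨⟨r, hr⟩, hne, hd0⟩ := hgcd j h0 hj
    have h6 := hpos _ hd0
    have h7 : q ^ n = (L + 1) ^ r := by
      rw [h4, Nat.sub_add_cancel h6.le, ← pow_mul, ← hr]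
    have hr2 : 2 ≤ r := by
      rcases r with _ | _ | r <;> omega
    rcases hr2.eq_or_lt with rfl | hr3
    · have h8 : Φ = L + 2 := by
        apply Nat.eq_of_mul_eq_mul_left hL0
        rw [← hN, h7]; ring_nf; omega
      have h9 : L + 2 ∣ 3 := by
        rw [h8] at h5
        have := (Nat.dvd_sub_iff_right (by omega) (dvd_mul_left (L + 2) 2)).2 h5
        rwa [show 2 * (L + 2) - (1 + 2 * L) = 3 by omega] at this
      have := Nat.le_of_dvd (by norm_num) h9
      obtain rfl : L = 1 := by omega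
      have h10 : q ^ 2 ≤ q ^ n := Nat.pow_le_pow_right (by omega) hn
      obtain rfl : q = 2 := by nlinarith
      exact h22 ⟨rfl, Nat.pow_right_injective le_rfl h7⟩
    · have h8 : (L + 1) ^ 3 ≤ (L + 1) ^ r := Nat.pow_le_pow_right (by omega) hr3
      have h9 := Nat.le_of_dvd (by positivity) h3
      rw [h7] at h9
      have : (L + 1) ^ 3 ≤ (1 + 2 * L) * L + 1 := by omega
      nlinarith

theorem transfer {K : Type*} [Field K] [Fintype K] (θ : Kˣ →* ℂˣ) (hθ : Function.Injective θ)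
    {ι : Type*} (s : Finset ι) (x y : ι → Kˣ) (h : ∑ i ∈ s, (θ (x i) : ℂ) = ∑ i ∈ s, (θ (y i) : ℂ)) :
    ∑ i ∈ s, ((x i)⁻¹ : Kˣ).1 = ∑ i ∈ s, ((y i)⁻¹ : Kˣ).1 := by
  obtain ⟨g, hg⟩ := IsCyclic.exists_monoid_generator (α := Kˣ)
  choose lg hlg using hg
  have hlg' : ∀ t, g ^ lg t = t := hlg
  have h1 : IsPrimitiveRoot g (orderOf g) := IsPrimitiveRoot.orderOf g
  have h2 : IsPrimitiveRoot (θ g : ℂ) (orderOf g) :=
    IsPrimitiveRoot.coe_units_iff.2 (h1.map_of_injective hθ)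
  have h3 : IsPrimitiveRoot ((g⁻¹ : Kˣ) : K) (orderOf g) := IsPrimitiveRoot.coe_units_iff.2 h1.inv
  let P : Polynomial ℤ := ∑ i ∈ s, Polynomial.X ^ lg (x i) - ∑ i ∈ s, Polynomial.X ^ lg (y i)
  have h4 : Polynomial.aeval (θ g : ℂ) P = 0 := by
    simp only [P, map_sub, map_sum, map_pow, Polynomial.aeval_X, ← Units.val_pow_eq_pow_val]
    simp only [← map_pow, hlg', h, sub_self]
  have h5 := minpoly.isIntegrallyClosed_dvd (h2.isIntegral (orderOf_pos g)) h4
  rw [← Polynomial.cyclotomic_eq_minpoly h2 (orderOf_pos g)] at h5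
  have h6 : Polynomial.aeval ((g⁻¹ : Kˣ) : K) P = 0 := by
    refine Polynomial.aeval_eq_zero_of_dvd_aeval_eq_zero h5 ?_
    rw [Polynomial.aeval_def, Polynomial.eval₂_eq_eval_map, Polynomial.map_cyclotomic]
    exact h3.isRoot_cyclotomic (orderOf_pos g)
  simp only [P, map_sub, map_sum, map_pow, Polynomial.aeval_X, ← Units.val_pow_eq_pow_val, inv_pow,
    hlg'] at h6
  exact sub_eq_zero.1 h6

/-- A weak form of Stickelberger's congruence. -/
theorem stick {F K : Type*} [Field F] [Fintype F] [Field K] [Fintype K] [DecidableEq K] [Algebra F K]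
    {ψ : AddChar F ℂ} (hψ : ψ.IsPrimitive) (θ : Kˣ →* ℂˣ) (hθ : Function.Injective θ) (κ : Kˣ →* Kˣ)
    (h1 : ∃ t : Kˣ, t ≠ 1) (h2 : κ ≠ 1) (h3 : ∀ c : Fˣ, κ (Units.map (algebraMap F K) c) =
      Units.map (algebraMap F K) c)
    (h : ∑ t : Kˣ, ψ (Algebra.trace F K t) * θ t = ∑ t : Kˣ, ψ (Algebra.trace F K t) * θ (κ t)) :
    ∃ σ : K ≃ₐ[F] K, ∀ t : Kˣ, (κ t : K) = σ t := by
  classical
  have s0 : ∀ η : Kˣ →* Kˣ, η ≠ 1 → ∑ t : Kˣ, (θ (η t) : ℂ) = 0 := fun η hη =>
    sum_hom_units_eq_zero ((Units.coeHom ℂ).comp (θ.comp η)) fun e => hη (MonoidHom.ext fun t =>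
      hθ (Units.ext ((DFunLike.congr_fun e t).trans (by simp))))
  have s1 : ∀ c : F, ∑ t : Kˣ, ψ (c * Algebra.trace F K t) * (θ t - θ (κ t)) = 0 := fun c => by
    by_cases hc : c = 0
    · simp only [hc, zero_mul, AddChar.map_zero_eq_one, one_mul, Finset.sum_sub_distrib]
      obtain ⟨t, ht⟩ := h1
      rw [s0 κ h2, sub_zero]
      exact s0 (MonoidHom.id _) fun e => ht (DFunLike.congr_fun e t)
    · let u : Kˣ := Units.map (algebraMap F K) (Units.mk0 c hc)
      have : (θ u : ℂ) * ∑ t : Kˣ, ψ (c * Algebra.trace F K t) * (θ t - θ (κ t)) = 0 := by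
        rw [← sub_eq_zero, ← Finset.sum_sub_distrib, ← Equiv.sum_comp (Equiv.mulLeft u)] at h
        rw [← h, Finset.mul_sum]
        refine Finset.sum_congr rfl fun t _ => ?_
        have e : Algebra.trace F K ((u * t : Kˣ) : K) = c * Algebra.trace F K t := by
          rw [← smul_eq_mul c, ← map_smul, Algebra.smul_def]; rfl
        have e' : κ u = u := h3 _
        simp only [Equiv.coe_mulLeft]
        rw [e]
        simp only [map_mul, e', Units.val_mul]
        ring
      exact (mul_eq_zero.1 this).resolve_left (θ u).ne_zero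
  have s2 : ∀ b : F, ∑ t ∈ Finset.univ.filter (fun t : Kˣ => Algebra.trace F K t = b), (θ t : ℂ) =
      ∑ t ∈ Finset.univ.filter (fun t : Kˣ => Algebra.trace F K t = b), (θ (κ t) : ℂ) := fun b => by
    have e : ∑ c : F, ψ (c * -b) * ∑ t : Kˣ, ψ (c * Algebra.trace F K t) * (θ t - θ (κ t)) = 0 := by
      simp only [s1, mul_zero, Finset.sum_const_zero]
    simp only [Finset.mul_sum, ← mul_assoc, ← AddChar.map_add_eq_mul, ← mul_add] at e
    rw [Finset.sum_comm] at e
    simp only [← Finset.sum_mul, AddChar.sum_mulShift _ hψ, neg_add_eq_zero] at e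
    rw [← sub_eq_zero, ← Finset.sum_sub_distrib, Finset.sum_filter]
    apply mul_left_cancel₀ (show (Fintype.card F : ℂ) ≠ 0 from Nat.cast_ne_zero.2 Fintype.card_ne_zero)
    rw [mul_zero, Finset.mul_sum]
    refine (Finset.sum_congr rfl fun t _ => ?_).trans e
    by_cases ht : Algebra.trace F K t = b
    · simp [ht]
    · simp [ht, Ne.symm ht]
  have s3 : ∑ t : Kˣ, algebraMap F K (Algebra.trace F K t) * (t⁻¹ : Kˣ).1 =
      ∑ t : Kˣ, algebraMap F K (Algebra.trace F K t) * ((κ t)⁻¹ : Kˣ).1 := by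
    rw [← Finset.sum_fiberwise (g := fun t : Kˣ => Algebra.trace F K t),
      ← Finset.sum_fiberwise (g := fun t : Kˣ => Algebra.trace F K t)]
    refine Finset.sum_congr rfl fun b _ => ?_
    rw [Finset.sum_congr rfl fun t ht => by rw [(Finset.mem_filter.1 ht).2], ← Finset.mul_sum,
      transfer θ hθ _ (fun t => t) κ (s2 b), Finset.mul_sum]
    exact Finset.sum_congr rfl fun t ht => by rw [(Finset.mem_filter.1 ht).2]
  have s4 : ∀ η : Kˣ →* Kˣ, ∑ t : Kˣ, algebraMap F K (Algebra.trace F K t) * ((η t)⁻¹ : Kˣ).1 =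
      ∑ σ : K ≃ₐ[F] K, if ∀ t : Kˣ, (η t : K) = σ t then (Fintype.card Kˣ : K) else 0 := fun η => by
    simp only [trace_eq_sum_automorphisms, Finset.sum_mul]
    rw [Finset.sum_comm]
    refine Finset.sum_congr rfl fun σ _ => ?_
    let f : Kˣ →* K := ((σ : K →* K).comp (Units.coeHom K)) * ((Units.coeHom K).comp η⁻¹)
    have e : ∀ t, f t = σ t * ((η t)⁻¹ : Kˣ).1 := fun t => rfl
    have := sum_hom_units f
    simp only [e, Nat.cast_ite, Nat.cast_zero] at this
    rw [this]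
    refine if_congr ⟨fun h t => ?_, fun h => MonoidHom.ext fun t => ?_⟩ rfl rfl
    · have := DFunLike.congr_fun h t
      rw [e, MonoidHom.one_apply, Units.mul_inv_eq_one] at this
      exact this.symm
    · rw [e, ← h, MonoidHom.one_apply, Units.mul_inv]
  by_contra hcon
  push Not at hcon
  have s5 := (s4 (MonoidHom.id _)).symm.trans (s3.trans (s4 κ))
  rw [Finset.sum_eq_single 1, if_pos (fun t => by rfl), Finset.sum_eq_zero] at s5
  · rw [Fintype.card_units, Nat.cast_sub Fintype.card_pos, FiniteField.cast_card_eq_zero] at s5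
    simp at s5
  · intro σ _
    rw [if_neg]
    push Not
    exact hcon σ
  · intro σ _ hσ
    rw [if_neg fun h => hσ (AlgEquiv.ext fun x => ?_)]
    by_cases hx : x = 0
    · simp [hx]
    · exact (h (Units.mk0 x hx)).symm
  · simp

theorem count {G : Type*} [Group G] [Fintype G] {Y Φ : Type*} [DecidableEq Y] (I : Y → G → ℂ)
    (hI : ∀ y, IsCharacter G (I y)) (lab : Y → Φ)
    (h1 : ∀ x y, lab x = lab y → ∀ z, classInner (I x - I y) (I z) =
      (if x = z then 1 else 0) - if y = z then 1 else 0)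
    (h2 : ∀ x y, I x 1 = I y 1) (X : Finset Y) (h3 : ∀ x ∈ X, ∃ y, y ≠ x ∧ lab x = lab y)
    (P : IrrCharacter G → Prop)
    (h4 : ∀ x ∈ X, ∀ y, y ≠ x → lab x = lab y → ∀ χ χ' : IrrCharacter G,
      I x - I y = χ.1 - χ'.1 → P χ ∧ P χ') : X.card ≤ Nat.card {χ // P χ} := by
  classical
  have hp : ∀ x y, y ≠ x → lab x = lab y → ∃ χ χ' : IrrCharacter G, χ ≠ χ' ∧ I x - I y = χ.1 - χ'.1 :=
    fun x y hne hl => by
      obtain ⟨χ, χ', h, h', e, e'⟩ := Coh.vc_norm_two_sub (α := I x - I y)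
        (isGenChar_sub (isChar_isGenChar (hI x)) (isChar_isGenChar (hI y)))
        (by rw [Coh.rin_apply, classInner_sub_right, h1 x y hl, h1 x y hl]; simp [hne, hne.symm]; norm_num)
        (by rw [Pi.sub_apply, h2 x y, sub_self])
      exact ⟨⟨χ, h⟩, ⟨χ', h'⟩, fun h => e (congrArg Subtype.val h), e'⟩
  let S : Φ → Finset (IrrCharacter G) := fun φ => Finset.univ.filter fun χ => ∃ x ∈ X, ∃ y, y ≠ x ∧
    lab x = φ ∧ lab y = φ ∧ ∃ χ' : IrrCharacter G, χ ≠ χ' ∧ (I x - I y = χ.1 - χ'.1 ∨ I x - I y = χ'.1 - χ.1)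
  have hS : ∀ φ, (X.filter fun x => lab x = φ).card ≤ (S φ).card := fun φ => by
    rcases (X.filter fun x => lab x = φ).eq_empty_or_nonempty with h | ⟨x0, hx0⟩
    · rw [h]; exact Nat.zero_le _
    rw [Finset.mem_filter] at hx0
    obtain ⟨y0, hy0, hl0⟩ := h3 x0 hx0.1
    obtain ⟨p, p', hne, e⟩ := hp x0 y0 hy0 hl0
    let v : (X.filter fun x => lab x = φ) → G → ℂ := fun x => if x.1 = x0 then p.1 else I x.1 - I x0
    have hv : LinearIndependent ℂ v := by
      rw [Fintype.linearIndependent_iff]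
      intro c hc
      have c0 : c ⟨x0, Finset.mem_filter.2 hx0⟩ = 0 := by
        have := congrFun hc 1
        rw [Finset.sum_apply, Finset.sum_eq_single ⟨x0, Finset.mem_filter.2 hx0⟩] at this
        · simpa [v, isIrr_one_ne_zero p.2] using this
        · intro x _ hx
          have : x.1 ≠ x0 := fun h => hx (Subtype.ext h)
          simp [v, this, h2 x.1 x0]
        · simp
      intro z
      by_cases hz : z.1 = x0
      · rw [← c0]; congr 1; exact Subtype.ext hz
      have := congrArg (fun f => classInner f (I z.1)) hc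
      simp only [classInner_sum_left, classInner_smul_left, classInner_zero_left] at this
      rw [Finset.sum_eq_single z] at this
      · simpa [v, hz, h1 z.1 x0 ((Finset.mem_filter.1 z.2).2.trans hx0.2.symm), Ne.symm hz] using this
      · intro x _ hx
        by_cases hx' : x.1 = x0
        · rw [show x = ⟨x0, Finset.mem_filter.2 hx0⟩ from Subtype.ext hx', c0, zero_mul]
        · have : x.1 ≠ z.1 := fun h => hx (Subtype.ext h)
          simp [v, hx', h1 x.1 x0 ((Finset.mem_filter.1 x.2).2.trans hx0.2.symm), Ne.symm hz, this]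
      · simp
    have hm : ∀ χ ∈ S φ, χ.1 ∈ Submodule.span ℂ (((S φ).image Subtype.val : Finset (G → ℂ)) : Set (G → ℂ)) :=
      fun χ hχ => Submodule.subset_span (Finset.mem_coe.2 (Finset.mem_image_of_mem _ hχ))
    have := linearIndependent_le_span_aux' v hv ((S φ).image Subtype.val : Finset (G → ℂ)) (by
      rintro _ ⟨x, rfl⟩
      by_cases hx : x.1 = x0
      · simp only [v, hx, if_true]
        exact hm p (Finset.mem_filter.2 ⟨Finset.mem_univ _, x0, hx0.1, y0, hy0, hx0.2,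
          hl0.symm.trans hx0.2, p', hne, Or.inl e⟩)
      · simp only [v, hx, if_false]
        have hx1 := Finset.mem_filter.1 x.2
        obtain ⟨r, r', hr, e'⟩ := hp x.1 x0 (Ne.symm hx) (hx1.2.trans hx0.2.symm)
        rw [e']
        exact Submodule.sub_mem _ (hm r (Finset.mem_filter.2 ⟨Finset.mem_univ _, x.1, hx1.1, x0,
          Ne.symm hx, hx1.2, hx0.2, r', hr, Or.inl e'⟩)) (hm r' (Finset.mem_filter.2 ⟨Finset.mem_univ _,
          x.1, hx1.1, x0, Ne.symm hx, hx1.2, hx0.2, r, hr.symm, Or.inr e'⟩)))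
    simp only [Fintype.card_coe, Finset.coe_sort_coe] at this
    exact this.trans Finset.card_image_le
  have hd : ∀ φ φ', φ ≠ φ' → Disjoint (S φ) (S φ') := fun φ φ' hφ => by
    rw [Finset.disjoint_left]
    intro χ a b
    obtain ⟨x, -, y, -, l1, l2, p, hp, e⟩ := (Finset.mem_filter.1 a).2
    obtain ⟨x', -, y', -, l1', l2', p', hp', e'⟩ := (Finset.mem_filter.1 b).2
    have h0 : classInner (I x - I y) (I x' - I y') = 0 := by
      have n1 : ∀ a b, lab a = φ → lab b = φ' → a ≠ b := fun a b ha hb h => hφ (by rw [← ha, ← hb, h])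
      rw [classInner_sub_right, h1 x y (l1.trans l2.symm), h1 x y (l1.trans l2.symm)]
      simp [n1 x x' l1 l1', n1 y x' l2 l1', n1 x y' l1 l2', n1 y y' l2 l2']
    have h5 : classInner (χ.1 - p.1) (χ.1 - p'.1) = 0 := by
      rcases e with e | e <;> rcases e' with e' | e' <;> rw [e, e'] at h0
      · exact h0
      · rwa [← neg_sub χ.1 p'.1, classInner_neg_right, neg_eq_zero] at h0
      · rwa [← neg_sub χ.1 p.1, classInner_neg_left, neg_eq_zero] at h0
      · rwa [← neg_sub χ.1 p.1, ← neg_sub χ.1 p'.1, classInner_neg_right, classInner_neg_left,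
          neg_neg] at h0
    simp only [classInner_sub_left, classInner_sub_right, classInner_irr] at h5
    by_cases h6 : p = p'
    · simp [h6, hp', hp'.symm] at h5
    · simp [h6, hp, hp', hp.symm] at h5
  rw [Finset.card_eq_sum_card_image lab X, Nat.card_eq_fintype_card, Fintype.card_subtype]
  refine (Finset.sum_le_sum fun φ _ => hS φ).trans ?_
  rw [← Finset.card_biUnion fun φ _ φ' _ h => hd φ φ' h]
  refine Finset.card_le_card fun χ hχ => ?_
  obtain ⟨φ, -, hχ⟩ := Finset.mem_biUnion.1 hχ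
  obtain ⟨x, hx, y, hne, l1, l2, p, -, e | e⟩ := (Finset.mem_filter.1 hχ).2
  · exact Finset.mem_filter.2 ⟨Finset.mem_univ _, (h4 x hx y hne (l1.trans l2.symm) _ _ e).1⟩
  · exact Finset.mem_filter.2 ⟨Finset.mem_univ _, (h4 x hx y hne (l1.trans l2.symm) _ _ e).2⟩

end Cfsg.Agent.Spc.Cu
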