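import Mathlib
import Cfsg.Agent.Spc.CuD
import Cfsg.Agent.Char.IndRep

/-! Characters of `GL_n(q)` induced from a Singer cycle. -/

set_option autoImplicit false

namespace Cfsg.Agent.Spc.Cu
open Matrix Module Cfsg.Agent.Char Cfsg.Agent.Char.Ind
open scoped ComplexConjugate

variable {F K : Type*} [Field F] [Fintype F] [DecidableEq F] [Field K] [Fintype K] [DecidableEq K]
  [Algebra F K] {n : ℕ} (b : Basis (Fin n) F K)

variable (F) in
/-- regular elements -/
def Reg (t : K) : Prop := ∀ σ : K ≃ₐ[F] K, σ t = t → σ = 1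

omit [Fintype F] [DecidableEq F] [DecidableEq K] in
theorem mem_of_reg {t : K} (ht : Reg F t) (S : Subalgebra F K) (h : t ∈ S) (y : K) : y ∈ S := by
  have h1 : (IntermediateField.adjoin F {t}).fixingSubgroup = ⊥ := by
    rw [eq_bot_iff]
    intro σ hσ
    exact ht σ (hσ ⟨t, IntermediateField.mem_adjoin_simple_self F t⟩)
  have h2 := IsGalois.fixedField_fixingSubgroup (IntermediateField.adjoin F {t})
  rw [h1, IntermediateField.fixedField_bot] at h2
  have h3 : y ∈ (IntermediateField.adjoin F {t}).toSubalgebra := by rw [← h2]; trivial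
  rw [IntermediateField.adjoin_simple_toSubalgebra_of_isAlgebraic (Algebra.IsAlgebraic.isAlgebraic t)] at h3
  exact Algebra.adjoin_le (Set.singleton_subset_iff.2 h) h3

omit [Fintype F] [DecidableEq F] [DecidableEq K] in
theorem semilin {t s : K} (ht : Reg F t) (X : K →ₗ[F] K) (hX : Function.Injective X)
    (h : ∀ y, X (t * y) = s * X y) : ∃ σ : K ≃ₐ[F] K, ∀ y, X y = X 1 * σ y := by
  let S : Subalgebra F K :=
    { carrier := {z | ∃ w, ∀ y, X (z * y) = w * X y}
      mul_mem' := fun ⟨w, hw⟩ ⟨w', hw'⟩ => ⟨w * w', fun y => by rw [mul_assoc, hw, hw', mul_assoc]⟩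
      add_mem' := fun ⟨w, hw⟩ ⟨w', hw'⟩ => ⟨w + w', fun y => by rw [add_mul, map_add, hw, hw', add_mul]⟩
      algebraMap_mem' := fun c => ⟨algebraMap F K c, fun y => by
        rw [← Algebra.smul_def, ← Algebra.smul_def, map_smul]⟩ }
  have h1 : X 1 ≠ 0 := fun e => one_ne_zero (hX (e.trans X.map_zero.symm))
  let f : K →ₐ[F] K := AlgHom.ofLinearMap ((LinearMap.mul F K (X 1)⁻¹).comp X)
    (inv_mul_cancel₀ h1) fun z y => by
      obtain ⟨w, hw⟩ := mem_of_reg ht S ⟨s, h⟩ z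
      have := hw 1
      rw [mul_one] at this
      show (X 1)⁻¹ * X (z * y) = (X 1)⁻¹ * X z * ((X 1)⁻¹ * X y)
      rw [hw, this]; field_simp
  exact ⟨AlgEquiv.ofBijective f (Finite.injective_iff_bijective.1 f.injective),
    fun y => (mul_inv_cancel_left₀ h1 _).symm⟩

/-- the Singer cycle -/
noncomputable def sg : Kˣ →* GL (Fin n) F := Units.map (Algebra.leftMulMatrix b : K →* Matrix _ _ F)

/-- the Galois automorphisms -/
noncomputable def ga : (K ≃ₐ[F] K) →* GL (Fin n) F :=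
  MonoidHom.toHomUnits ((LinearMap.toMatrixAlgEquiv b : End F K →* Matrix _ _ F).comp
    (MonoidHom.mk ⟨fun σ : K ≃ₐ[F] K => (σ.toLinearMap : End F K), rfl⟩ fun _ _ => rfl))

omit [Fintype F] [Fintype K] [DecidableEq K] [DecidableEq F] in
theorem sg_apply (t : Kˣ) (y : K) : toLinAlgEquiv b (sg b t).1 y = t * y := by
  show toLin b b (LinearMap.toMatrix b b (Algebra.lmul F K t)) y = _
  rw [toLin_toMatrix]; rfl

omit [Fintype F] [Fintype K] [DecidableEq K] [DecidableEq F] in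
theorem ga_apply (σ : K ≃ₐ[F] K) (y : K) : toLinAlgEquiv b (ga b σ).1 y = σ y := by
  show toLin b b (LinearMap.toMatrix b b σ.toLinearMap) y = _
  rw [toLin_toMatrix]; rfl

omit [Fintype F] [Fintype K] [DecidableEq K] [DecidableEq F] in
theorem gl_ext {g h : GL (Fin n) F} (e : ∀ y, toLinAlgEquiv b g.1 y = toLinAlgEquiv b h.1 y) : g = h :=
  Units.ext ((toLinAlgEquiv b).injective (LinearMap.ext e))

omit [Fintype F] [Fintype K] [DecidableEq K] [DecidableEq F] in
theorem gl_mul (g h : GL (Fin n) F) (y : K) :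
    toLinAlgEquiv b (g * h).1 y = toLinAlgEquiv b g.1 (toLinAlgEquiv b h.1 y) := by
  rw [Units.val_mul, map_mul]; rfl

omit [Fintype F] [Fintype K] [DecidableEq K] [DecidableEq F] in
theorem gl_inj (g : GL (Fin n) F) : Function.Injective (toLinAlgEquiv b g.1) :=
  Function.LeftInverse.injective (g := toLinAlgEquiv b (g⁻¹).1) fun y => by
    rw [← gl_mul, inv_mul_cancel, Units.val_one, map_one]; rfl

omit [Fintype F] [Fintype K] [DecidableEq K] [DecidableEq F] in
theorem sg_inj : Function.Injective (sg b) := fun s t e => Units.ext (by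
  have := sg_apply b s 1
  rw [e, sg_apply, mul_one, mul_one] at this; exact this.symm)

omit [Fintype F] [Fintype K] [DecidableEq K] [DecidableEq F] in
theorem ga_sg (σ : K ≃ₐ[F] K) (t : Kˣ) : ga b σ * sg b t = sg b (σ • t) * ga b σ :=
  gl_ext b fun y => by rw [gl_mul, gl_mul, sg_apply, sg_apply, ga_apply, ga_apply, map_mul]; rfl

theorem res_ind (β : Kˣ → ℂ) {t : Kˣ} (ht : Reg F (t : K)) :
    indHom (sg b) β (sg b t) = ∑ σ : K ≃ₐ[F] K, β (σ • t) := by
  classical
  have key : ∑ p : Kˣ × (K ≃ₐ[F] K), β (p.2 • t) = ∑ x : GL (Fin n) F, ∑ s : Kˣ,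
      if sg b s = x⁻¹ * sg b t * x then β s else 0 := by
    refine Finset.sum_of_injOn (fun p => (sg b p.1 * ga b p.2)⁻¹) ?_ (fun _ _ => by simp) ?_ ?_
    · rintro ⟨c, σ⟩ - ⟨c', σ'⟩ - e
      have e' : ∀ y, (c : K) * σ y = c' * σ' y := fun y => by
        have := congrArg (fun g : GL (Fin n) F => toLinAlgEquiv b g.1 y) (inv_injective e)
        simpa only [gl_mul, sg_apply, ga_apply] using this
      have h1 : c = c' := Units.ext (by simpa using e' 1)
      subst h1
      exact Prod.ext rfl (AlgEquiv.ext fun y => mul_left_cancel₀ c.ne_zero (e' y))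
    · intro x _ hx
      refine Finset.sum_eq_zero fun s _ => if_neg fun e => hx ?_
      obtain ⟨σ, hσ⟩ := semilin (s := (s : K)) ht (toLinAlgEquiv b (x⁻¹).1) (gl_inj b _) fun y => by
        rw [← sg_apply b t, ← sg_apply b s, ← gl_mul, ← gl_mul, e, mul_inv_cancel_right]
      have h1 : toLinAlgEquiv b (x⁻¹).1 1 ≠ 0 := fun e => one_ne_zero (gl_inj b _ (e.trans (map_zero _).symm))
      refine ⟨(Units.mk0 _ h1, σ), by simp, inv_eq_iff_eq_inv.2 (gl_ext b fun y => ?_)⟩
      rw [gl_mul, sg_apply, ga_apply, hσ y]; rfl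
    · rintro ⟨c, σ⟩ -
      have e : ((sg b c * ga b σ)⁻¹)⁻¹ * sg b t * (sg b c * ga b σ)⁻¹ = sg b (σ • t) := by
        rw [inv_inv, mul_inv_eq_iff_eq_mul, mul_assoc, ga_sg, ← mul_assoc, ← mul_assoc, ← map_mul,
          ← map_mul, mul_comm c]
      simp only [e, (sg_inj b).eq_iff, Finset.sum_ite_eq', Finset.mem_univ, if_true]
  rw [Fintype.sum_prod_type] at key
  simp only [] at key
  rw [Finset.sum_const, Finset.card_univ, ← Nat.card_eq_fintype_card, nsmul_eq_mul] at key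
  rw [indHom, inv_mul_eq_iff_eq_mul₀ card_ne_zero, key]
  congr!

theorem ind_vanish (α : Kˣ → ℂ) (hα : ∀ t : Kˣ, ¬ Reg F (t : K) → α t = 0) {m : ℕ} (h0 : 0 < m)
    (hm : m < n) (g : GL (Fin n) F) (hg : ∀ i j : Fin n, m ≤ i.val → j.val < m → g.1 i j = 0) :
    indHom (sg b) α g = 0 := by
  rw [indHom, Finset.sum_eq_zero, mul_zero]
  refine fun x _ => Finset.sum_eq_zero fun s _ => ?_
  split_ifs with e
  · refine hα s fun hs => ?_
    let S : Subalgebra F K :=
      { carrier := {z | ∀ y, (∀ i : Fin n, m ≤ i.val → (x.1 *ᵥ b.repr y) i = 0) →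
          ∀ i : Fin n, m ≤ i.val → (x.1 *ᵥ b.repr (z * y)) i = 0}
        mul_mem' := fun hz hz' y hy => by rw [mul_assoc]; exact hz _ (hz' y hy)
        add_mem' := fun hz hz' y hy i hi => by
          rw [add_mul, map_add, Finsupp.coe_add, mulVec_add, Pi.add_apply, hz y hy i hi, hz' y hy i hi,
            add_zero]
        algebraMap_mem' := fun c y hy i hi => by
          rw [← Algebra.smul_def, map_smul, Finsupp.coe_smul, mulVec_smul, Pi.smul_apply, hy i hi,
            smul_zero] }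
    have h1 : (s : K) ∈ S := fun y hy i hi => by
      rw [← Algebra.leftMulMatrix_mulVec_repr, mulVec_mulVec]
      have : x.1 * Algebra.leftMulMatrix b (s : K) = g.1 * x.1 := by
        show (x * sg b s).1 = (g * x).1
        rw [e]; congr 1; group
      rw [this, ← mulVec_mulVec]
      show ∑ j, g.1 i j * (x.1 *ᵥ b.repr y) j = 0
      refine Finset.sum_eq_zero fun j _ => ?_
      by_cases hj : j.val < m
      · rw [show g.1 i j = 0 from hg i j hi hj, zero_mul]
      · rw [hy j (by omega), mul_zero]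
    have h2 : ∀ v : Fin n → F, x.1 *ᵥ b.repr (b.equivFun.symm ((x⁻¹).1 *ᵥ v)) = v := fun v => by
      rw [← Basis.equivFun_apply, LinearEquiv.apply_symm_apply, mulVec_mulVec, ← Units.val_mul,
        mul_inv_cancel, Units.val_one, one_mulVec]
    let y0 := b.equivFun.symm ((x⁻¹).1 *ᵥ Pi.single ⟨0, by omega⟩ 1)
    have hy0 : y0 ≠ 0 := fun e => by
      have := congrFun (h2 (Pi.single ⟨0, by omega⟩ 1)) ⟨0, by omega⟩
      change (x.1 *ᵥ b.repr y0) _ = _ at this
      simp [e] at this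
    have := mem_of_reg hs S h1 (b.equivFun.symm ((x⁻¹).1 *ᵥ Pi.single ⟨m, hm⟩ 1) / y0) y0
      (fun i hi => by
        rw [h2]; exact Pi.single_eq_of_ne (by rintro rfl; simp at hi; omega) _) ⟨m, hm⟩ le_rfl
    rw [div_mul_cancel₀ _ hy0, h2] at this
    simp at this
  · rfl

/-- Galois twists of characters -/
def tw (η : Kˣ →* ℂˣ) (σ : K ≃ₐ[F] K) : Kˣ →* ℂˣ := η.comp (MulDistribMulAction.toMonoidHom Kˣ σ)

omit [Fintype F] [Fintype K] [DecidableEq K] [DecidableEq F] in
theorem tw_tw (η : Kˣ →* ℂˣ) (σ τ : K ≃ₐ[F] K) : tw (tw η σ) τ = tw η (σ * τ) := rfl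

omit [Fintype F] [Fintype K] [DecidableEq K] [DecidableEq F] in
theorem tw_one (η : Kˣ →* ℂˣ) : tw η (1 : K ≃ₐ[F] K) = η := rfl

/-- induced characters -/
noncomputable def II (η : Kˣ →* ℂˣ) : GL (Fin n) F → ℂ := indHom (sg b) fun t => (η t : ℂ)

theorem II_char (η : Kˣ →* ℂˣ) : IsCharacter _ (II b η) :=
  IndRep.isChar_indHom _ (sg_inj b) (isChar_linear η)

theorem II_tw (η : Kˣ →* ℂˣ) (σ : K ≃ₐ[F] K) : II b (tw η σ) = II b η := by
  refine Eq.trans ?_ (indHom_comp_equiv (sg b) (MulDistribMulAction.toMulEquiv Kˣ σ)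
    fun t => (η t : ℂ))
  exact indHom_congr_conj (sg b) _ (fun t => (η (σ • t) : ℂ)) fun t => isConj_iff.2 ⟨ga b σ, by
    rw [ga_sg, mul_inv_cancel_right]; rfl⟩

theorem II_sub (η η' : Kˣ →* ℂˣ) :
    II b η - II b η' = indHom (sg b) ((fun t => (η t : ℂ)) - fun t => (η' t : ℂ)) := by
  ext g
  simp only [II, indHom, Pi.sub_apply, ← mul_sub, ← Finset.sum_sub_distrib]
  congr 1
  refine Finset.sum_congr rfl fun x _ => Finset.sum_congr rfl fun s _ => ?_
  split_ifs <;> simp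

theorem II_one (η η' : Kˣ →* ℂˣ) : II b η 1 = II b η' 1 := by
  simp only [II, indHom]
  congr 1
  refine Finset.sum_congr rfl fun x _ => Finset.sum_congr rfl fun s _ => ?_
  split_ifs with e
  · rw [mul_one, inv_mul_cancel, map_eq_one_iff _ (sg_inj b)] at e
    rw [e, map_one, map_one]
  · rfl

open scoped _root_.Classical in
theorem inner_II {η η' ζ : Kˣ →* ℂˣ} (h : ∀ t : Kˣ, ¬ Reg F (t : K) → η t = η' t)
    (hζ : ∀ σ : K ≃ₐ[F] K, tw ζ σ = ζ → σ = 1) :
    classInner (II b η - II b η') (II b ζ) =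
      (if ∃ σ : K ≃ₐ[F] K, η = tw ζ σ then 1 else 0) - if ∃ σ : K ≃ₐ[F] K, η' = tw ζ σ then 1 else 0 := by
  have key : ∀ η : Kˣ →* ℂˣ, classInner (fun t => (η t : ℂ)) (∑ σ : K ≃ₐ[F] K, fun t => (tw ζ σ t : ℂ)) =
      if ∃ σ : K ≃ₐ[F] K, η = tw ζ σ then 1 else 0 := fun η => by
    have e : ∀ σ : K ≃ₐ[F] K, classInner (fun t => (η t : ℂ)) (fun t => (tw ζ σ t : ℂ)) =
        if η = tw ζ σ then 1 else 0 := fun σ => by
      rw [classInner_isIrr (isIrr_linear _) (isIrr_linear _)]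
      exact if_congr ⟨fun h => MonoidHom.ext fun t => Units.ext (congrFun h t), fun h => by rw [h]⟩ rfl rfl
    rw [classInner_sum_right, Finset.sum_congr rfl fun σ _ => e σ]
    split_ifs with h
    · obtain ⟨σ, rfl⟩ := h
      rw [Finset.sum_eq_single σ, if_pos rfl]
      · intro τ _ hτ
        rw [if_neg fun e => hτ ?_]
        have := hζ (τ * σ⁻¹) (by rw [← tw_tw, ← e, tw_tw, mul_inv_cancel, tw_one])
        exact mul_inv_eq_one.1 this
      · simp
    · exact Finset.sum_eq_zero fun σ _ => if_neg fun e => h ⟨σ, e⟩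
  rw [II_sub, inner_indHom_left _ _ (isChar_classFun (II_char b ζ)), ← key, ← key, ← classInner_sub_left,
    classInner_def, classInner_def]
  congr 1
  refine Finset.sum_congr rfl fun t _ => ?_
  by_cases ht : Reg F (t : K)
  · rw [II, res_ind b _ ht, Finset.sum_apply]; rfl
  · simp [h t ht]

theorem gauss_II (ψ : AddChar F ℂ) {η η' : Kˣ →* ℂˣ} {χ χ' : GL (Fin n) F → ℂ}
    (e : II b η - II b η' = χ - χ')
    (h : ∑ g : GL (Fin n) F, ψ g.1.trace * χ g = ∑ g : GL (Fin n) F, ψ g.1.trace * χ' g) :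
    ∑ t : Kˣ, ψ (Algebra.trace F K t) * η t = ∑ t : Kˣ, ψ (Algebra.trace F K t) * η' t := by
  have hf : IsClassFunction (GL (Fin n) F) fun g => conj (ψ g.1.trace) := fun g x => by
    show conj (ψ _) = conj (ψ _)
    rw [Units.val_mul, Units.val_mul, trace_mul_cycle, ← Units.val_mul, inv_mul_cancel, Units.val_one,
      one_mul]
  have h1 := inner_indHom_left (sg b) ((fun t => (η t : ℂ)) - fun t => (η' t : ℂ)) hf
  rw [← II_sub, e, classInner_def, classInner_def] at h1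
  simp only [Complex.conj_conj, Pi.sub_apply, sub_mul, Finset.sum_sub_distrib, mul_comm (χ _),
    mul_comm (χ' _), h, sub_self, mul_zero] at h1
  have h2 := sub_eq_zero.1 ((mul_eq_zero.1 h1.symm).resolve_left (inv_ne_zero card_ne_zero))
  simp only [Algebra.trace_eq_matrix_trace b, mul_comm (ψ _)]
  exact h2

include b in
theorem main (hn : 2 ≤ n) (h22 : ¬ (Fintype.card F = 2 ∧ n = 2)) :
    Nat.totient (Fintype.card F ^ n - 1) ≤ n * Nat.card {χ : IrrCharacter (GL (Fin n) F) //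
      ∀ m, 0 < m → m < n → uSum χ.1 m = 0} := by
  classical
  have hrank : finrank F K = n := by rw [finrank_eq_card_basis b, Fintype.card_fin]
  have hN : Nat.card Kˣ = Fintype.card F ^ n - 1 := by
    rw [Nat.card_units, Nat.card_eq_fintype_card, Module.card_eq_pow_finrank (K := F), hrank]
  have hq : 2 ≤ Fintype.card F := Fintype.one_lt_card
  have hGal : Nat.card (K ≃ₐ[F] K) = n := by rw [IsGalois.card_aut_eq_finrank, hrank]
  have hσ : ∀ σ : K ≃ₐ[F] K, ∃ j < n, (σ ≠ 1 → 0 < j) ∧ ∀ t : Kˣ, σ • t = t ^ Fintype.card F ^ j :=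
    fun σ => by
    obtain ⟨j, rfl⟩ := (FiniteField.bijective_frobeniusAlgEquivOfAlgebraic_pow F K).2 σ
    refine ⟨j, hrank ▸ j.2, fun h => Nat.pos_of_ne_zero fun e => h (by simp [e]), fun t => Units.ext ?_⟩
    show (FiniteField.frobeniusAlgEquivOfAlgebraic F K ^ j.1) t = _
    rw [AlgEquiv.coe_pow, FiniteField.coe_frobeniusAlgEquivOfAlgebraic_iterate]; simp
  obtain ⟨g, hg⟩ := IsCyclic.exists_monoid_generator (α := Kˣ)
  have hog : orderOf g = Fintype.card F ^ n - 1 := by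
    rw [← hN]; exact orderOf_eq_card_of_forall_mem_powers hg
  have hN0 : 0 < Fintype.card F ^ n - 1 := hog ▸ orderOf_pos g
  have hext : ∀ {M : Type} [Monoid M] (f f' : Kˣ →* M), f g = f' g → f = f' := fun f f' e =>
    MonoidHom.ext fun t => by obtain ⟨k, rfl⟩ := hg t; simp [e]
  have hpow : ∀ θ η : Kˣ →* ℂˣ, Function.Injective θ → ∃ a, η = θ.comp (powMonoidHom a) := fun θ η hθ => by
    haveI : NeZero (orderOf g) := ⟨(orderOf_pos g).ne'⟩
    obtain ⟨a, -, ha⟩ := (IsPrimitiveRoot.coe_units_iff.2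
      ((IsPrimitiveRoot.orderOf g).map_of_injective hθ)).eq_pow_of_pow_eq_one (ξ := (η g : ℂ))
        (by rw [← Units.val_pow_eq_pow_val, ← map_pow, pow_orderOf_eq_one, map_one, Units.val_one])
    exact ⟨a, hext _ _ (Units.ext (by simp [← ha]))⟩
  obtain ⟨θ0, hθ0⟩ : ∃ θ : Kˣ →* ℂˣ, Function.Injective θ := by
    have hz := Complex.isPrimitiveRoot_exp (orderOf g) (orderOf_pos g).ne'
    have hz' := hz.isUnit_unit (orderOf_pos g).ne'
    refine ⟨monoidHomOfForallMemZpowers (fun t => (Submonoid.powers_le_zpowers g) (hg t))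
      (g' := (hz.isUnit (orderOf_pos g).ne').unit) (hz'.eq_orderOf ▸ dvd_rfl), ?_⟩
    rw [injective_iff_map_eq_one]
    intro t ht
    obtain ⟨k, rfl⟩ := hg t
    simp only [map_pow, monoidHomOfForallMemZpowers_apply_gen] at ht
    exact orderOf_dvd_iff_pow_eq_one.1 (hz'.dvd_of_pow_eq_one _ ht)
  have hreg : ∀ θ : Kˣ →* ℂˣ, Function.Injective θ → ∀ σ : K ≃ₐ[F] K, tw θ σ = θ → σ = 1 :=
    fun θ hθ σ e => AlgEquiv.ext fun x => by
      by_cases hx : x = 0
      · simp [hx]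
      · exact congrArg Units.val (hθ (DFunLike.congr_fun e (Units.mk0 x hx)))
  have hnr : ∀ (σ : K ≃ₐ[F] K) (t : Kˣ), ¬ Reg F (t : K) → ¬ Reg F ((σ • t : Kˣ) : K) :=
    fun σ t ht h => ht fun τ e => by
      have := h (σ * τ * σ⁻¹) (by
        show σ (τ (σ.symm (σ t))) = σ t
        rw [σ.symm_apply_apply, e])
      rwa [conj_eq_one_iff] at this
  obtain ⟨σ0, hσ0⟩ : ∃ σ : K ≃ₐ[F] K, σ ≠ 1 := by
    haveI := Finite.one_lt_card_iff_nontrivial.1 (show 1 < Nat.card (K ≃ₐ[F] K) by omega)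
    exact exists_ne 1
  let s : Setoid {η : Kˣ →* ℂˣ // ∀ σ : K ≃ₐ[F] K, tw η σ = η → σ = 1} :=
    ⟨fun η η' => ∃ σ : K ≃ₐ[F] K, η.1 = tw η'.1 σ, fun η => ⟨1, rfl⟩,
      fun ⟨σ, e⟩ => ⟨σ⁻¹, by rw [e, tw_tw, mul_inv_cancel, tw_one]⟩,
      fun ⟨σ, e⟩ ⟨τ, e'⟩ => ⟨τ * σ, by rw [e, e', tw_tw]⟩⟩
  let lab : (Kˣ →* ℂˣ) → Set ({t : Kˣ // ¬ Reg F (t : K)} → ℂˣ) := fun η =>
    Set.range fun (σ : K ≃ₐ[F] K) t => tw η σ t.1
  have lab_tw : ∀ η (τ : K ≃ₐ[F] K), lab (tw η τ) = lab η := fun η τ =>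
    (Equiv.mulLeft τ).surjective.range_comp fun (σ : K ≃ₐ[F] K) (t : {t : Kˣ // ¬ Reg F (t : K)}) =>
      tw η σ t.1
  have lab_eq : ∀ η η', lab η = lab η' → ∃ σ : K ≃ₐ[F] K, ∀ t : Kˣ, ¬ Reg F (t : K) → η t = tw η' σ t :=
    fun η η' e => by
      obtain ⟨σ, h⟩ : (fun t => η t.1) ∈ lab η' := e ▸ ⟨1, rfl⟩
      exact ⟨σ, fun t ht => (congrFun h ⟨t, ht⟩).symm⟩
  have hinj : ∀ a, (Fintype.card F ^ n - 1).Coprime a → Function.Injective (θ0.comp (powMonoidHom a)) :=
    fun a ha => hθ0.comp (powCoprime (hN ▸ ha)).injective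
  let f : ℕ → Quotient s := fun a => if h : (Fintype.card F ^ n - 1).Coprime a then
    Quotient.mk s ⟨_, hreg _ (hinj a h)⟩ else Quotient.mk s ⟨_, hreg _ hθ0⟩
  let A := (Finset.range (Fintype.card F ^ n - 1)).filter (Fintype.card F ^ n - 1).Coprime
  have hA : ∀ a ∈ A, ∃ σ : K ≃ₐ[F] K, θ0.comp (powMonoidHom a) = tw (f a).out.1 σ := fun a ha => by
    have h := (Finset.mem_filter.1 ha).2
    simp only [f, dif_pos h]
    exact s.symm (Quotient.mk_out (s := s) ⟨_, hreg _ (hinj a h)⟩)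
  have hX : ∀ x ∈ A.image f, Function.Injective x.out.1 := fun x hx => by
    obtain ⟨a, ha, rfl⟩ := Finset.mem_image.1 hx
    obtain ⟨σ, e⟩ := hA a ha
    have := hinj a (Finset.mem_filter.1 ha).2
    rw [e] at this
    exact Function.Injective.of_comp_right (g := fun t => σ • t) this (MulAction.surjective σ)
  refine (Finset.card_le_mul_card_image (f := f) A n fun x _ => ?_).trans (Nat.mul_le_mul_left _ ?_)
  · choose! τ hτ using hA
    rw [← hGal, Nat.card_eq_fintype_card]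
    refine Finset.card_le_card_of_injOn τ (fun _ _ => Finset.mem_univ _) fun a ha a' ha' e => ?_
    simp only [Finset.coe_filter, Set.mem_setOf_eq] at ha ha'
    have h1 := (hτ a ha.1).trans (by rw [ha.2, e, ← ha'.2, ← hτ a' ha'.1])
    have h2 : g ^ a = g ^ a' := hθ0 (DFunLike.congr_fun h1 g)
    exact pow_injOn_Iio_orderOf (hog ▸ Finset.mem_range.1 (Finset.mem_filter.1 ha.1).1)
      (hog ▸ Finset.mem_range.1 (Finset.mem_filter.1 ha'.1).1) h2
  refine count (fun y : Quotient s => II b y.out.1) (fun y => II_char b _) (fun y => lab y.out.1)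
    (fun x y e z => ?_) (fun x y => II_one b _ _) _ (fun x hx => ?_) _ fun x hx y hne e χ χ' e' => ?_
  · obtain ⟨σ, h⟩ := lab_eq _ _ e
    rw [← II_tw b y.out.1 σ, inner_II b h z.out.2]
    congr 1
    · exact if_congr (Quotient.out_equiv_out (s := s)) rfl rfl
    · refine if_congr (Iff.trans ⟨fun ⟨τ, h⟩ => ⟨τ * σ⁻¹, ?_⟩, fun ⟨τ, h⟩ => ⟨τ * σ, ?_⟩⟩
        (Quotient.out_equiv_out (s := s))) rfl rfl
      · rw [← tw_tw, ← h, tw_tw, mul_inv_cancel, tw_one]
      · rw [h, tw_tw]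
  · obtain ⟨a, a1, a2, a3⟩ := arith hq hn h22
    have hθ := hX x hx
    have hr : ∀ σ : K ≃ₐ[F] K, tw (x.out.1.comp (powMonoidHom a)) σ = x.out.1.comp (powMonoidHom a) →
        σ = 1 := fun σ e => by
      by_contra h
      obtain ⟨j, hj, h0, h1⟩ := hσ σ
      have h2 : (σ • g) ^ a = g ^ a := hθ (DFunLike.congr_fun e g)
      rw [h1, ← pow_mul, pow_eq_pow_iff_modEq, hog, mul_comm] at h2
      exact a3 j (h0 h) hj h2
    refine ⟨Quotient.mk s ⟨_, hr⟩, fun e => ?_, ?_⟩
    · obtain ⟨σ, h⟩ := Quotient.mk_eq_iff_out.1 e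
      obtain ⟨j, hj, -, h1⟩ := hσ σ
      have h2 : g ^ a = σ • g := hθ (DFunLike.congr_fun h g)
      rw [h1, pow_eq_pow_iff_modEq, hog] at h2
      exact a2 j hj h2
    · obtain ⟨σ, h⟩ := Quotient.mk_out (s := s) ⟨_, hr⟩
      show lab _ = lab _
      rw [h, lab_tw]
      refine congrArg Set.range (funext fun τ => funext fun t => congrArg x.out.1 ?_)
      show τ • t.1 = (τ • t.1) ^ a
      have := hnr τ t.1 t.2
      generalize τ • t.1 = u at this
      simp only [Reg, not_forall] at this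
      obtain ⟨ρ, h1, h2⟩ := this
      obtain ⟨j, hj, h0, h3⟩ := hσ ρ
      have h4 : u ^ Fintype.card F ^ j = u ^ 1 := by rw [← h3, pow_one]; exact Units.ext h1
      rw [eq_comm]
      conv_rhs => rw [← pow_one u]
      rw [pow_eq_pow_iff_modEq] at h4 ⊢
      exact a1 j (h0 h2) hj _ ((Nat.modEq_iff_dvd' (Nat.one_le_pow _ _ (by omega))).1 h4.symm)
        (hN ▸ orderOf_dvd_natCard u)
  · obtain ⟨σ, h⟩ := lab_eq _ _ e
    have hθ := hX x hx
    obtain ⟨a, ha⟩ := hpow _ (tw y.out.1 σ) hθ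
    have hψ := AddChar.FiniteField.primitiveChar_to_Complex_isPrimitive F
    have hy : y.out.1 = tw (x.out.1.comp (powMonoidHom a)) σ⁻¹ := by
      rw [← ha, tw_tw, mul_inv_cancel, tw_one]
    beta_reduce at e'
    rw [← II_tw b y.out.1 σ] at e'
    have key : ∀ m, 0 < m → m < n → uSum χ.1 m = 0 ∧ uSum χ'.1 m = 0 := fun m h0 hm => by
      refine uSum_eq_zero hψ χ.2 χ'.2 (fun u hu => ?_) fun hG => hne ?_
      · rw [← sub_eq_zero, ← Pi.sub_apply, ← e', II_sub]
        exact ind_vanish b _ (fun t ht => by simp [h t ht]) h0 hm u hu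
      · have h1 := gauss_II b _ e' hG
        rw [ha] at h1
        obtain ⟨τ, hτ⟩ := stick hψ x.out.1 hθ (powMonoidHom a) ⟨g, fun e => by
          rw [e, orderOf_one] at hog
          have := Nat.pow_le_pow_left hq n
          have := Nat.pow_le_pow_right (show 0 < 2 by norm_num) hn
          omega⟩ (fun e => hσ0 (y.out.2 σ0 (by
            have : y.out.1 = 1 := by
              rw [hy, e]; ext; simp [tw]
            rw [this]; rfl))) (fun c => hθ (by
            have := h (Units.map (algebraMap F K : F →* K) c) fun hr => hσ0 (hr σ0 (σ0.commutes c))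
            rw [ha] at this
            exact this.symm)) h1
        refine (Quotient.out_equiv_out (s := s)).1 ⟨τ * σ⁻¹, ?_⟩
        rw [← tw_tw, hy]
        congr 1
        exact MonoidHom.ext fun t => congrArg x.out.1 (Units.ext (hτ t))
    exact ⟨fun m h0 hm => (key m h0 hm).1, fun m h0 hm => (key m h0 hm).2⟩

end Cfsg.Agent.Spc.Cu
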