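import Cfsg.Agent.Spc.GnK
import Cfsg.Agent.Spc.GnP2

/-! The rank one case for the subgroup `K(S)`: the Baumann reduction. -/

namespace Cfsg.Agent.Spc.Gn

open Subgroup Cfsg.Agent.LocalEven Cfsg.Agent.Glaub Cfsg.Agent.PLocal Cfsg.Agent.Push
open scoped commutatorElement

universe u

variable {p : ℕ}

theorem k2_cent {G : Type u} [Group G] {X Y L : Subgroup G} (hX : X ≤ L) (hY : Y ≤ L)
    (e : X.subgroupOf L ⊓ 𝐂⟮Y.subgroupOf L⟯ ≤ 𝐂⟮(⊤ : Subgroup L)⟯) : X ⊓ 𝐂⟮Y⟯ ≤ 𝐂⟮L⟯ := by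
  have := map_mono (f := L.subtype) e
  rw [map_inf_cent' L.subtype_injective, map_subgroupOf_eq_of_le hX, map_subgroupOf_eq_of_le hY] at this
  refine this.trans ?_
  rintro _ ⟨x, hx, rfl⟩ y hy
  exact congrArg Subtype.val (hx ⟨y, hy⟩ (mem_top _))

theorem k2_zj {G : Type u} [Group G] [Finite G] (S : Subgroup G) :
    centerThompsonAOf (S ⊓ 𝐂⟮centerThompsonAOf S⟯) = centerThompsonAOf S := by
  have h : thompsonSubgroupOf 0 S ≤ S ⊓ 𝐂⟮centerThompsonAOf S⟯ :=
    le_inf (Transfer.thompsonSubgroupOf_le S) (le_cent_comm ((centerA_eq S).le.trans inf_le_right))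
  rw [centerA_eq (S ⊓ _), Transfer.thompsonSubgroupOf_eq_of_le h inf_le_left, ← centerA_eq]

theorem ph2K [Fact p.Prime] (h3 : Ph3K.{u} p) : Ph2K.{u} p := by
  intro G _ _ S H M Q hQ hC hQS h hZM hK
  have hSH := h.syl.le
  have hZ : ¬ S ⊓ 𝐂⟮S⟯ ≤ 𝐂⟮H⟯ := fun e => h.min.lt.not_ge (le_inf le_rfl ((le_cent_comm e).trans hZM))
  have pQ : IsPGroup p Q := h.syl.pgrp.to_le hQS
  have nQ : ∀ {X : Subgroup G}, X ≤ 𝐍⟮Q⟯ := fun {_} => le_normalizer_of_normal
  have hQT : Q ≤ pCoreOf p H := le_pCoreOf (hQS.trans hSH) nQ pQ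
  have hsyl := ((p2_sub h).sylow_closure (by
    rw [centralizer_subgroupOf h.TL]
    exact subgroupOf_mono _ ((Push.cent_anti hQT).trans (hC.trans hQT)))
    (fun e => hZ (k2_cent hSH hSH e))).map H.subtype
  rw [map_cjClos, map_inf_cent' H.subtype_injective, Push.map_zj H.subtype_injective,
    map_subgroupOf_eq_of_le hSH, p2_top] at hsyl
  have hzj := k2_zj S
  have hK' : 𝐍⟮KB p (S ⊓ 𝐂⟮centerThompsonAOf S⟯)⟯ ≤ M := hK
  set B := S ⊓ 𝐂⟮centerThompsonAOf S⟯ with hB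
  have hBS : B ≤ S := inf_le_left
  set N := cjClos B H with hN
  have hNH : N ≤ H := cjClos_le_self (hBS.trans hSH)
  have nN : H ≤ 𝐍⟮N⟯ := le_normalizer_cjClos _ _
  have nB : 𝐍⟮B⟯ ≤ M := (norm_KB B).trans hK'
  have hNM : ¬ N ≤ M := fun e => by
    have h1 := minIn_le_pCoreOf h.min h.syl.pgrp nN (le_inf hNH e) hsyl.pgrp hsyl.le
    have h2 := hsyl.eq_of_isPGroup (isPGroup_of_le_pCoreOf (cjClos_le h1 (le_normalizer_pCoreOf H)))
    exact h.min.lt.not_ge (le_inf le_rfl ((h2 ▸ nN : H ≤ 𝐍⟮B⟯).trans nB))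
  obtain ⟨L, hLN, hBL, hLM, hmin⟩ := p2_minIn hsyl (inf_le_right.trans nB) hNM
  have hLH := hLN.trans hNH
  have hab : AB p B L (L ⊓ M) (pCoreOf p L) := ⟨hsyl.mono hBL hLN, hmin, rfl,
    (le_inf ((commutator_mono hBS hBS).trans h.ab) ((comm_le_left le_normalizer).trans hBL)).trans
      (pCoreOf_inf_le hLH)⟩
  have nQN : H ≤ 𝐍⟮Q ⊓ N⟯ := le_normalizer_inf nQ nN
  have pQN : IsPGroup p (Q ⊓ N : Subgroup G) := pQ.to_le inf_le_left
  have hQN : Q ⊓ N ≤ pCoreOf p L := le_pCoreOf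
    ((hsyl.le_of_le_normalizer inf_le_right pQN ((hBS.trans hSH).trans nQN)).trans hBL) (hLH.trans nQN) pQN
  have cQ : ∀ {X : Subgroup G}, X ≤ N → ⁅Q, X⁆ ≤ Q ⊓ N := fun hX => le_inf (comm_le_left nQ) (by
    rw [Subgroup.commutator_comm]
    exact (commutator_mono hX le_rfl).trans (comm_le_left ((hQS.trans hSH).trans nN)))
  have hCR : L ⊓ 𝐂⟮pCoreOf p L⟯ ≤ pCoreOf p L := le_pCoreOf inf_le_left
    (le_normalizer_inf le_normalizer (le_normalizer_centralizer (le_normalizer_pCoreOf L)))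
    (isPGroup_of_pResOf_le pQ ((pResOf_le_centralizer_of_section pQN
      ((pResOf_le _).trans (inf_le_right.trans (Push.cent_anti hQN)))
      (cQ ((pResOf_le _).trans (inf_le_left.trans hLN)))).trans hC))
  have hEL : pResOf p L ≤ L := pResOf_le L
  have hUR : ⁅Q, pResOf p L⁆ ≤ pCoreOf p L := (cQ (hEL.trans hLN)).trans hQN
  have hUL := hUR.trans (pCoreOf_le L)
  have hUU : ⁅Q, pResOf p L⁆ ≤ ⁅⁅Q, pResOf p L⁆, pResOf p L⁆ := comm_res_res pQ nQ
  have key := h3 L (B.subgroupOf L) ((L ⊓ M).subgroupOf L) ((pCoreOf p L).subgroupOf L)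
    ((⁅Q, pResOf p L⁆ : Subgroup G).subgroupOf L) (p2_sub hab) (by
      rw [centralizer_subgroupOf (pCoreOf_le L)]
      exact fun x hx => hCR ⟨x.2, hx⟩) (by
      intro x hx
      rw [← map_mem_cent L.subtype_injective, Push.map_zj L.subtype_injective, map_subgroupOf_eq_of_le hBL, hzj]
      exact hx.2)
    (fun e => hLM ((le_cent_comm ((le_inf (inf_le_inf_left S (Push.cent_anti (zj_le_self S)))
      (inf_le_right.trans (Push.cent_anti hBS))).trans (k2_cent hBL hBL e))).trans hZM))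
    (fun e => hLM (by
      have := le_normalizer_map (H := KB p (B.subgroupOf L)) L.subtype
      rw [normalizer_eq_top_iff.2 e, p2_top, map_KB L.subtype_injective, map_subgroupOf_eq_of_le hBL] at this
      exact this.trans hK'))
    ((normal_subgroupOf_iff_le_normalizer hUL).2 (le_normalizer_commutator nQ (le_normalizer_pResOf L))) (by
      rw [← map_le_map_iff_of_injective L.subtype_injective, map_commutator, map_subgroupOf_eq_of_le hUL,
        map_subgroupOf_eq_of_le (pCoreOf_le L), map_pResOf_of_injective _ L.subtype_injective, p2_top]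
      exact hUU.trans (commutator_mono hUR le_rfl)) (by
      rw [← map_le_map_iff_of_injective L.subtype_injective, map_commutator, map_subgroupOf_eq_of_le hUL, p2_top]
      exact hUU.trans (commutator_mono le_rfl hEL))
  rw [← map_le_map_iff_of_injective L.subtype_injective, map_commutator,
    map_subgroupOf_eq_of_le hUL, map_subgroupOf_eq_of_le inf_le_left] at key
  exact ⟨pResOf p L, fun e => hab.res_not_le (le_inf hEL e),
    key.trans (commutator_mono (comm_le_left nQ) inf_le_right)⟩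

end Cfsg.Agent.Spc.Gn
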