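import Cfsg.Agent.Spc.GnDef

/-! A characteristic subgroup `K(S)` controlling transfer together with `Z(S)`. -/

namespace Cfsg.Agent.Spc.Gn

open Subgroup Cfsg.Agent.LocalEven Cfsg.Agent.PLocal Cfsg.Agent.Push
open Cfsg.Agent.Glaub hiding cent_anti
open scoped commutatorElement _root_.Classical

universe u

variable {G G' : Type u} [Group G] [Group G'] {φ : G →* G'} {p : ℕ} {S B : Subgroup G}

/-- The derived group of the minimal centrally large subgroups. -/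
def cq (B : Subgroup G) : Subgroup G :=
  ⨆ (Q : Subgroup G) (_ : MCI B (Nat.card B * Nat.card ↥(B ⊓ 𝐂⟮B⟯)) Q), ⁅Q, Q⁆

/-- The characteristic subgroup of the Baumann subgroup. -/
noncomputable def KB (p : ℕ) (B : Subgroup G) : Subgroup G :=
  if powerClosure p 1 (B ⊓ 𝐂⟮B⟯) = ⊥ then (if cq B = ⊥ then B else cq B)
  else powerClosure p 1 (B ⊓ 𝐂⟮B⟯)

/-- The subgroup `K(S)`. -/
noncomputable def KS (p : ℕ) (S : Subgroup G) : Subgroup G :=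
  KB p (S ⊓ 𝐂⟮centerThompsonAOf S⟯)

theorem map_cq (hf : Function.Injective φ) (B : Subgroup G) : (cq B).map φ = cq (B.map φ) := by
  unfold cq
  rw [← map_inf_cent' hf, card_map_of_injective hf, card_map_of_injective hf]
  exact map_biSup (fun _ => mci_map_iff hf) (fun R hR => hR.cd.le.trans (map_le_range φ B))
    fun Q _ => map_commutator Q Q φ

theorem map_KB (hf : Function.Injective φ) (B : Subgroup G) :
    (KB p B).map φ = KB p (B.map φ) := by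
  unfold KB
  rw [← map_cq hf, ← map_inf_cent' hf, ← map_pc]
  simp only [map_eq_bot_iff_of_injective _ hf]
  split_ifs <;> rfl

theorem map_KS (hf : Function.Injective φ) (S : Subgroup G) :
    (KS p S).map φ = KS p (S.map φ) := by
  rw [KS, KS, map_KB hf, map_inf_cent' hf, map_zj hf]

theorem cq_le (B : Subgroup G) : cq B ≤ B :=
  iSup₂_le fun _ h => commutator_le_of_le h.cd.le h.cd.le

theorem KB_le (B : Subgroup G) : KB p B ≤ B := by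
  unfold KB
  split_ifs
  · exact le_rfl
  · exact cq_le B
  · refine (closure_le _).2 ?_
    rintro _ ⟨x, hx, rfl⟩; exact pow_mem hx.1 _

theorem KS_le (S : Subgroup G) : KS p S ≤ S := (KB_le _).trans inf_le_left

theorem KB_ne_bot (h : B ≠ ⊥) : KB p B ≠ ⊥ := by
  unfold KB
  split_ifs with h1 h2
  exacts [h, h2, h1]

theorem KS_ne_bot [Finite G] [Fact p.Prime] (hS : IsPGroup p S) (h : S ≠ ⊥) : KS p S ≠ ⊥ :=
  KB_ne_bot fun e => inf_centralizer_ne_bot hS hS le_normalizer h (le_bot_iff.1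
    ((inf_le_inf_left _ (cent_anti (zj_le_self S))).trans e.le))

theorem norm_KB (B : Subgroup G) : 𝐍⟮B⟯ ≤ 𝐍⟮KB p B⟯ := fun g hg =>
  cj_eq_self_iff.1 (by
    have := map_KB (p := p) (φ := (MulAut.conj g).toMonoidHom) (MulAut.conj g).injective B
    have e : B.map (MulAut.conj g).toMonoidHom = B := cj_eq_of_mem_normalizer hg
    rw [e] at this
    exact this)

theorem norm_bau (S : Subgroup G) : 𝐍⟮S⟯ ≤ 𝐍⟮S ⊓ 𝐂⟮centerThompsonAOf S⟯⟯ :=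
  le_normalizer_inf le_rfl (le_normalizer_centralizer (norm_zj S))

theorem norm_KS (S : Subgroup G) : 𝐍⟮S⟯ ≤ 𝐍⟮KS p S⟯ := (norm_bau S).trans (norm_KB _)

/-- Reduction to a rank one subgroup containing the Baumann subgroup. -/
def Ph1K (p : ℕ) : Prop :=
  ∀ (G : Type u) [Group G] [Finite G] (S M : Subgroup G), IsSylowIn p S ⊤ → MinIn S ⊤ M →
    𝐂⟮pCore p G⟯ ≤ pCore p G → 𝐍⟮S ⊓ 𝐂⟮centerThompsonAOf S⟯⟯ ≤ M → 𝐂⟮S ⊓ 𝐂⟮S⟯⟯ ≤ M →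
    ∃ S₁ H : Subgroup G, pCore p G ≤ S₁ ∧ S₁ ≤ S ∧ S ⊓ 𝐂⟮centerThompsonAOf S⟯ ≤ S₁ ∧
      AB p S₁ H (H ⊓ M) (pCoreOf p H)

/-- The rank one case, after the Baumann argument. -/
def Ph2K (p : ℕ) : Prop :=
  ∀ (G : Type u) [Group G] [Finite G] (S H M Q : Subgroup G), Q.Normal → 𝐂⟮Q⟯ ≤ Q → Q ≤ S →
    AB p S H (H ⊓ M) (pCoreOf p H) → 𝐂⟮S ⊓ 𝐂⟮S⟯⟯ ≤ M → 𝐍⟮KS p S⟯ ≤ M →
    ∃ E : Subgroup G, ¬ E ≤ M ∧ ⁅Q, E⁆ ≤ ⁅Q, M⁆

/-- The rank one case in which neither `Z(S)` nor `K(S)` is normal. -/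
def Ph3K (p : ℕ) : Prop :=
  ∀ (G : Type u) [Group G] [Finite G] (S M T U : Subgroup G), AB p S ⊤ M T → 𝐂⟮T⟯ ≤ T →
    S ≤ 𝐂⟮centerThompsonAOf S⟯ → ¬ S ⊓ 𝐂⟮S⟯ ≤ 𝐂⟮(⊤ : Subgroup G)⟯ → ¬ (KB p S).Normal →
    U.Normal → U ≤ ⁅T, pResOf p (⊤ : Subgroup G)⁆ → U ≤ ⁅U, (⊤ : Subgroup G)⁆ → U ≤ ⁅U, M⁆

/-- Quadratic action excludes the Steinberg module. -/
def LemQ (p : ℕ) : Prop :=
  ∀ (G : Type u) [Group G] [Finite G] (S M T U U' A : Subgroup G), AB p S ⊤ M T →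
    U.Normal → U ≤ T → U ≤ ⁅U, (⊤ : Subgroup G)⁆ → U'.Normal → U' ≤ U → A ≤ S → ¬ A ≤ T →
    ⁅⁅U', A⁆, A⁆ = ⊥ → ⁅⁅U, A⁆, A⁆ ≤ U' → U ≤ ⁅U, M⁆

/-- The local statement. -/
def CoreK (p : ℕ) : Prop :=
  ∀ (G : Type u) [Group G] [Finite G] (S M : Subgroup G), IsSylowIn p S ⊤ → MinIn S ⊤ M →
    𝐂⟮pCore p G⟯ ≤ pCore p G → 𝐍⟮KS p S⟯ ≤ M → 𝐂⟮S ⊓ 𝐂⟮S⟯⟯ ≤ M →
    ∃ E : Subgroup G, ¬ E ≤ M ∧ ⁅pCore p G, E⁆ ≤ ⁅pCore p G, M⁆

end Cfsg.Agent.Spc.Gn
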