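import Mathlib
import Cfsg.Agent.Spc.GnK

/-! The rank one case in which neither `Z(S)` nor `K(S)` is normal. -/

namespace Cfsg.Agent.Spc.Gn

open Subgroup Cfsg.Agent.LocalEven Cfsg.Agent.PLocal Cfsg.Agent.Push
open Cfsg.Agent.Glaub hiding cent_anti
open scoped commutatorElement _root_.Classical

universe u

theorem k3_cq {G : Type u} [Group G] [Finite G] {S R : Subgroup G} {f : ℕ} (hb : Bd S f)
    (hS : CDI S f S) (hR : MCI S f R) : cq S = ⁅R, R⁆ := by
  unfold cq
  rw [hS.eq]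
  exact le_antisymm (iSup₂_le fun Q hQ => (hQ.comm_eq hb hR).le)
    (le_iSup₂_of_le (f := fun (Q : Subgroup G) (_ : MCI S f Q) => ⁅Q, Q⁆) R hR le_rfl)

theorem ph3K {p : ℕ} [hp : Fact p.Prime] (hQ : LemQ.{u} p) : Ph3K.{u} p := by
  intro G _ _ S M T U h hT hJ hZ hK hU hUT hUU
  have nS : ¬ S.Normal := fun n => h.min.not_le_normalizer' le_normalizer_of_normal
  have h1 : powerClosure p 1 (S ⊓ 𝐂⟮S⟯) = ⊥ := by_contra fun h1 => by
    rw [KB, if_neg h1] at hK
    refine (h.pow_case hT).elim hK fun n => nS ?_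
    rwa [inf_eq_left.2 hJ] at n
  obtain ⟨f, hb, hS⟩ := exists_bd hJ
  obtain ⟨pn, -⟩ := h.pn_of_le hT hZ hJ
  obtain ⟨R, RT, hR⟩ := (pn.clT hb hS).exists_mci hb
  have h2 : cq S = ⊥ := by_contra fun h2 => by
    rw [KB, if_pos h1, if_neg h2, k3_cq hb hS hR] at hK
    refine hK (normal_of_cj_le fun g => ?_)
    rw [cj_commutator]
    exact ((((hR.down hb h.TS RT).conj' (h.nT trivial)).up hb h.TS).comm_eq hb hR).le
  have hc := le_cent_of_comm_bot ((k3_cq hb hS hR).symm.trans h2)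
  have lq := hR.cd.la (le_antisymm hR.le (le_inf hR.cd.le hc))
  have sm : Sm p S f := ⟨hJ, ⟨(ea0 (inf_le_right.trans (cent_anti inf_le_left))).1,
    fun x hx => by simpa using h1.le (subset_closure ⟨x, hx, rfl⟩)⟩, hb, hS, fun A hA =>
    ⟨hA.1, ma_comm hA, le_antisymm ((Nat.mul_le_mul_left _ (card_le_of_le
      (le_inf hA.1 (ma_comm hA)))).trans (hb A hA.1)) (lq.sq.ge.trans
      (Nat.mul_self_le_mul_self (hA.2.2 R hR.cd.le (ea0 hc))))⟩⟩
  obtain ⟨A, c⟩ := h.cf hT hZ sm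
  have := normal_of_top_le pn.nrm
  have UR : U ≤ RR p ⊤ T (omegaOneCenter p T) A := hUT.trans le_sup_right
  refine hQ G S M T U (U ⊓ omegaOneCenter p T) A h hU (UR.trans c.RT) hUU inferInstance inf_le_left
    c.la.le c.nle (comm_bot_of_le_cent (((commutator_mono inf_le_right c.la.le).trans pn.quad).trans
      (cent_anti c.la.le))) (le_inf ((commutator_mono (commutator_le_left _ _) le_rfl).trans
        (commutator_le_left _ _)) ((commutator_mono (commutator_mono UR le_rfl) le_rfl).trans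
          (c.quadZ le_rfl c.nRA (c.comm_R.trans inf_le_left))))

end Cfsg.Agent.Spc.Gn
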