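import Cfsg.Agent.Spc.GnB
import Cfsg.Agent.Spc.GnK

/-! Reduction to a rank one subgroup containing the Baumann subgroup, sharper form. -/

namespace Cfsg.Agent.Spc.Gn

open Subgroup Cfsg.Agent.LocalEven Cfsg.Agent.PLocal Cfsg.Agent.Push
open Cfsg.Agent.Glaub hiding cent_anti
open scoped commutatorElement

universe u

variable {p : ℕ}

theorem ph1K [hp : Fact p.Prime] : Ph1K.{u} p := by
  intro G _ _ S M hS h hG hJ hZ
  have h0 : S ≠ ⊥ := fun e => h.not_le_normalizer' (by rw [e]; exact le_normalizer_of_normal)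
  haveI := Transfer.omegaOneCenter_normal (p := p) (pCore p G)
  set V := omegaOneCenter p (pCore p G) with hVd
  have hV : IsElementaryAbelian p V := Transfer.ea_omegaOneCenter _
  have hO : pCore p G ≤ 𝐂⟮V⟯ := Transfer.le_centralizer_omegaOneCenter _
  have hOS : pCore p G ≤ S := pCoreOf_top.ge.trans hS.pCoreOf_le
  have hVS : V ≤ S := (omegaOneCenter_le _).trans hOS
  have hcV : 𝐂⟮V⟯ ≤ M := by
    by_contra hM
    have n : (⊤ : Subgroup G) ≤ 𝐍⟮𝐂⟮V⟯⟯ := le_normalizer_of_normal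
    have e : 𝐂⟮V⟯ ⊔ S = ⊤ := by
      by_contra hne
      exact hM (le_sup_left.trans (h.le_of_lt _ le_sup_right (lt_top_iff_ne_top.2 hne)))
    have r := pResOf_sup_le hS.pgrp (le_top.trans n)
    rw [e] at r
    have r2 := pRes_le_cent_center (isPGroup_pCore (p := p) (G := G)) le_normalizer_of_normal r
    refine h.lt.not_ge (le_trans ?_ hZ)
    refine hS.pResOf_sup.ge.trans (sup_le (r2.trans (cent_anti ?_)) (le_cent_comm inf_le_right))
    exact le_inf ((inf_le_right.trans (cent_anti hOS)).trans hG)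
      (inf_le_right.trans (cent_anti hOS))
  set f := holRep V with hf
  have hk : f.ker ≤ M := ker_holRep.le.trans hcV
  obtain ⟨X₀, hX₀, hX₀V⟩ : ∃ X ∈ Transfer.MaxEA 0 S, ¬ X ≤ 𝐂⟮V⟯ := by
    by_contra e
    push Not at e
    have := (minIn_le_pCoreOf h hS.pgrp le_normalizer_of_normal hcV
      (hS.pgrp.to_le (Transfer.thompsonSubgroupOf_le _))
      (Transfer.thompsonSubgroupOf_le_iff.2 e)).trans pCoreOf_top.le
    refine h.lt.not_ge (le_trans ?_ hJ)
    have e1 : centerThompsonAOf S = centerThompsonAOf (pCore p G) := by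
      rw [centerA_eq, centerA_eq, Transfer.thompsonSubgroupOf_eq_of_le this hOS]
    have k : S ⊓ 𝐂⟮V⟯ ≤ pCore p G := (minIn_le_pCoreOf h hS.pgrp le_normalizer_of_normal hcV
      (hS.pgrp.to_le inf_le_left) inf_le_right).trans pCoreOf_top.le
    have l : V ≤ centerThompsonAOf (pCore p G) := le_zj (omegaOneCenter_le _)
      (elemAb_le_centralizer hV)
      ((omegaOneCenter_le_centralizer _).trans (cent_anti (Transfer.thompsonSubgroupOf_le _)))
    rw [e1, show S ⊓ 𝐂⟮centerThompsonAOf (pCore p G)⟯ =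
      pCore p G ⊓ 𝐂⟮centerThompsonAOf (pCore p G)⟯ from le_antisymm
      (le_inf ((inf_le_inf_left _ (cent_anti l)).trans k) inf_le_right) (inf_le_inf_right _ hOS)]
    exact le_normalizer_of_normal.trans (norm_bau _)
  obtain ⟨A₀, a0, m⟩ := exists_minOff_hol (Or.inl rfl) hV hS.pgrp hVS hX₀ hX₀V
  have mp := minPar_hol' hV hS h hO hcV (a0.trans (map_mono le_top)) m
  have hD := mp.tvSet (a0.trans (map_mono le_top)) m
  have hA₀ : A₀ ∈ {X | ∃ g ∈ (⊤ : Subgroup G).map f, cj g A₀ = X} := ⟨1, one_mem _, cj_one _⟩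
  generalize {X | ∃ g ∈ (⊤ : Subgroup G).map f, cj g A₀ = X} = D at hD hA₀
  obtain ⟨st, B, hB, hBM⟩ := mp.star hD hA₀
  obtain ⟨A, hA, hAT, hAB⟩ := st.exists_nc hD hB hBM
  obtain ⟨d1, d2, d3⟩ := blk_data hD st hA hAT hB hBM hAB
  have sy := syl_comap f hS d1
  -- `J(S)` acts inside `wJ`
  have j1 : (thompsonSubgroupOf 0 S).map f ≤ wJ D (S.map f) := by
    rw [map_le_iff_le_comap, Transfer.thompsonSubgroupOf_le_iff]
    intro X hX
    rw [← map_le_iff_le_comap]
    refine (le_wJ_ab mp hD hA₀ (map_mono hX.1) (map_le_cent (ma_comm hX)) ?_).trans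
      (sSup_le_sSup fun Z hZ => ⟨hZ.1, hZ.2.trans (map_mono hX.1)⟩)
    have := Transfer.card_mul_le_of_mem_maxEA hX hVS (Transfer.ea_of_zero_or_eq (Or.inl rfl) hV)
    rw [← card_map_holRep (V := V) X, mul_assoc] at this
    rw [card_holV, card_holV_inf_centralizer]
    exact Nat.le_of_mul_le_mul_left this Nat.card_pos
  have j2 : ⁅holV V, A⁆ ≤ holImg V (V ⊓ 𝐂⟮thompsonSubgroupOf 0 S⟯) := by
    rw [← holImg_inf_cent, holImg_self]
    exact ((commutator_mono le_rfl (Push.le_wJ hA hAT)).trans (st.quad_wJ hD)).trans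
      (inf_le_inf_left _ (cent_anti j1))
  have j3 : V ⊓ 𝐂⟮thompsonSubgroupOf 0 S⟯ ≤ centerThompsonAOf S :=
    le_zj (inf_le_left.trans hVS) ((inf_le_left.trans (elemAb_le_centralizer hV)).trans
      (cent_anti inf_le_left)) inf_le_right
  have j4 : S ⊓ 𝐂⟮centerThompsonAOf S⟯ ≤ S ⊓ (𝐂⟮A⟯).comap f := fun b hb => ⟨hb.1, by
    refine cent_of_cent_comm hD st hA hAT hB hBM hAB (mem_map_of_mem f hb.1) ?_
    have : holImg V (V ⊓ 𝐂⟮thompsonSubgroupOf 0 S⟯) ≤
        𝐂⟮(S ⊓ 𝐂⟮centerThompsonAOf S⟯).map f⟯ :=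
      (holImg_le_cent inf_le_left).2 (j3.trans (le_cent_comm inf_le_right))
    exact le_cent_comm (j2.trans this) (mem_map_of_mem f hb)⟩
  set S₁ := S ⊓ (𝐂⟮A⟯).comap f with hS₁
  set C := S.map f ⊓ 𝐂⟮A ⊔ B⟯ with hC
  set H₀ := ((A ⊔ B) ⊔ C).comap f with hH₀
  have hH₀M : ¬ H₀ ≤ M := fun e => hBM fun y hy => by
    obtain ⟨x, -, rfl⟩ := hD.le B hB hy
    exact mem_map_of_mem f (e (Subgroup.mem_sup_left (Subgroup.mem_sup_right hy)))
  obtain ⟨H, ⟨l1, l2, l3⟩, hm⟩ := exists_minimal_of_wellFoundedLT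
    (fun H : Subgroup G => S₁ ≤ H ∧ H ≤ H₀ ∧ ¬ H ≤ M) ⟨H₀, sy.le, le_rfl, hH₀M⟩
  have syH := sy.mono l1 l2
  have jS : thompsonSubgroupOf 0 S ≤ S₁ := le_trans (le_inf (Transfer.thompsonSubgroupOf_le _)
    (le_cent_comm ((centerA_eq S).le.trans inf_le_right))) j4
  have mi : MinIn S₁ H (H ⊓ M) := minIn_of_sylow syH (fun e => l3 (e.trans (le_trans ?_ hJ)))
    (le_inf l1 (inf_le_left.trans h.le))
    (lt_of_le_of_ne inf_le_left fun e => l3 (e.ge.trans inf_le_right))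
    fun X x1 x2 => le_inf x2.le (by_contra fun x3 =>
      x2.not_ge (hm ⟨x1, x2.le.trans l2, x3⟩ x2.le))
  swap
  · have e1 : centerThompsonAOf S = centerThompsonAOf S₁ := by
      rw [centerA_eq, centerA_eq, Transfer.thompsonSubgroupOf_eq_of_le jS inf_le_left]
    rw [show S ⊓ 𝐂⟮centerThompsonAOf S⟯ = S₁ ⊓ 𝐂⟮centerThompsonAOf S₁⟯ from le_antisymm
      (le_inf j4 (inf_le_right.trans (by rw [e1]))) (by rw [e1]; exact inf_le_inf_right _ inf_le_left)]
    exact norm_bau _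
  refine ⟨S₁, H, le_inf hOS fun x hx => ?_, inf_le_left, j4, syH, mi, rfl, ?_⟩
  · rw [mem_comap, holRep_eq_one_iff.2 (hO hx)]; exact one_mem _
  · refine minIn_le_pCoreOf (N := H ⊓ C.comap f) mi syH.pgrp
      (le_normalizer_inf le_normalizer fun g hg => mem_normalizer_of_cj_le ?_)
      (inf_le_inf_left _ ((comap_mono (inf_le_left.trans (map_mono h.le))).trans
        (comap_map_eq_self hk).le)) (syH.pgrp.to_le (commutator_le_of_le le_rfl le_rfl))
      (le_inf ((commutator_le_of_le le_rfl le_rfl).trans l1) ?_)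
    · rw [← map_le_iff_le_comap, LocalEven.map_cj]
      exact cj_le_of_mem_normalizer (d3 (l2 hg)) (map_comap_le _ _)
    · rw [← map_le_iff_le_comap, map_commutator]
      have : S₁.map f ≤ S.map f ⊓ 𝐂⟮A⟯ :=
        le_inf (map_mono inf_le_left) (map_le_iff_le_comap.2 inf_le_right)
      exact (commutator_mono this this).trans d2

end Cfsg.Agent.Spc.Gn
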