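import Mathlib
import Cfsg.Agent.Spc.GnK
import Cfsg.Agent.Spc.GnG

/-! From the rank one statements to control of transfer by `C(Z(S))` and `N(K(S))`. -/

set_option autoImplicit false

namespace Cfsg.Agent.Spc.Gn

open Subgroup Cfsg.Agent.LocalEven Cfsg.Agent.Glaub Cfsg.Agent.PLocal Cfsg.Agent.Push
open scoped commutatorElement

universe u

variable {p : ℕ} [hp' : Fact p.Prime]

omit hp' in
theorem coreK_of (h1 : Ph1K.{u} p) (h2 : Ph2K.{u} p) : CoreK.{u} p := by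
  intro G _ _ S M hS hM hc hN hZ
  obtain ⟨S₁, H, a1, a2, a3, a4⟩ := h1 G S M hS hM hc ((norm_KB _).trans hN) hZ
  have b0 : S ⊓ 𝐂⟮S⟯ ≤ S₁ ⊓ 𝐂⟮S₁⟯ :=
    le_inf (inf_le_right.trans ((centralizer_le (a1.trans a2)).trans (hc.trans a1)))
      (inf_le_right.trans (centralizer_le a2))
  refine h2 G S₁ H M _ inferInstance hc a1 a4 ((centralizer_le b0).trans hZ) ?_
  have b1 : thompsonSubgroupOf 0 S ≤ S₁ := le_trans (le_inf (Transfer.thompsonSubgroupOf_le S)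
    (le_cent_comm ((centerA_eq S).le.trans inf_le_right))) a3
  have b2 : centerThompsonAOf S₁ = centerThompsonAOf S := by
    rw [centerA_eq, centerA_eq, Transfer.thompsonSubgroupOf_eq_of_le b1 a2]
  rw [KS, b2, le_antisymm (inf_le_inf_right _ a2) (le_inf a3 inf_le_right)]
  exact hN

/-- The centre as a functor. -/
def wZ (Q : Type u) [Group Q] : Subgroup Q := ⊤ ⊓ 𝐂⟮(⊤ : Subgroup Q)⟯

/-- `K` as a functor. -/
noncomputable def wK (p : ℕ) (Q : Type u) [Group Q] : Subgroup Q := KS p ⊤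

theorem wZK_char : ∀ W ∈ ({wZ, wK p} : Set (∀ (Q : Type u) [Group Q], Subgroup Q)),
    IsCharPFunctor p W := by
  rintro _ (rfl | rfl)
  · refine ⟨fun Q _ _ hQ _ => inf_centralizer_ne_bot (P := (⊤ : Subgroup Q)) (N := ⊤)
      (hQ.to_subgroup _) (hQ.to_subgroup _) le_normalizer top_ne_bot, fun Q R _ _ _ _ φ => ?_⟩
    rw [wZ, wZ, map_inf_cent' φ.injective, map_top_of_surjective _ φ.surjective]
  · refine ⟨fun Q _ _ hQ _ => KS_ne_bot (hQ.to_subgroup _) top_ne_bot, fun Q R _ _ _ _ φ => ?_⟩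
    rw [wK, wK, map_KS φ.injective, map_top_of_surjective _ φ.surjective]

omit hp' in
theorem ind_wZ {G : Type u} [Group G] (S : Subgroup G) : inducedFunctor wZ S = S ⊓ 𝐂⟮S⟯ := by
  rw [inducedFunctor, wZ, map_inf_cent' S.subtype_injective, ← MonoidHom.range_eq_map,
    range_subtype]

omit hp' in
theorem ind_wK {G : Type u} [Group G] (S : Subgroup G) : inducedFunctor (wK p) S = KS p S := by
  rw [inducedFunctor, wK, map_KS S.subtype_injective, ← MonoidHom.range_eq_map, range_subtype]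

theorem tf_stepK (hc : CoreK.{u} p) {G : Type u} [Group G] [Finite G]
    (hsub : ∀ K : Subgroup G, K ≠ ⊤ → TFc p {wZ, wK p} K)
    (hquot : ∀ (N : Subgroup G) [N.Normal], N ≠ ⊥ → TFc p {wZ, wK p} (G ⧸ N))
    (hQ : 𝐂⟮pCore p G⟯ ≤ pCore p G) {S : Subgroup G} (hS : IsSylowIn p S ⊤) :
    TF (IF {wZ, wK p} G) ⊤ S := by
  have h𝓦 := wZK_char.{u} (p := p)
  have hne : ({wZ, wK p} : Set (∀ (Q : Type u) [Group Q], Subgroup Q)).Nonempty :=
    Set.insert_nonempty _ _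
  by_cases hSQ : S ≤ pCore p G
  · exact tf_of_le_pCore h𝓦 hne hS hSQ
  by_cases hZ : (S ⊓ 𝐂⟮S⟯).Normal
  · exact tf_of_normal (W := wZ) (Or.inl rfl) (by rwa [ind_wZ])
  by_cases hK : (KS p S).Normal
  · exact tf_of_normal (W := wK p) (Or.inr rfl) (by rwa [ind_wK])
  refine tf_of_core h𝓦 hsub hquot hQ hS ?_
  have hM := fun M a b => (commutator_core_le hS a).trans (core_commutator_le_TD h𝓦 hsub hS M a b)
  have hST := commutator_le_TD h𝓦 hne hS.pgrp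
  generalize TD (IF {wZ, wK p} G) ⊤ S = T at hM hST ⊢
  refine core_commutator_le_of_normal hS hST hM hSQ ?_
  have hD : cm (pCore p G) T = ⊤ := by
    by_contra hD
    have hN := norm_ne_top_of_not_le hS.pgrp hSQ
    have h1 : ∀ M, S ≤ M → M ≠ ⊤ → M ≤ cm (pCore p G) T := fun M a b => le_cm.2 (hM M a b)
    obtain ⟨E, e1, e2⟩ := hc G S _ hS (minIn_of_sylow hS (fun e => hN (top_le_iff.1 e))
      (le_normalizer.trans (h1 _ le_normalizer hN)) (lt_top_iff_ne_top.2 hD)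
      fun X a b => h1 X a b.ne) hQ
      (h1 _ (le_normalizer.trans (norm_KS S)) fun e => hK (normalizer_eq_top_iff.1 e))
      ((centralizer_le_normalizer _).trans (h1 _ ((le_cent_comm inf_le_right).trans
        (centralizer_le_normalizer _)) fun e => hZ (normalizer_eq_top_iff.1 e)))
    exact e1 (le_cm.2 (e2.trans (le_cm.1 le_rfl)))
  refine ⟨fun x hx g => ⟨?_, (inferInstance : (pCore p G).Normal).conj_mem x hx.2 g⟩⟩
  have h2 : g ∈ cm (pCore p G) T := hD ▸ mem_top g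
  have := mul_mem (inv_mem (h2 x hx.2)) hx.1
  simpa [commutatorElement_def, mul_assoc] using this

theorem focal_NZ {G : Type u} [Group G] [Finite G] {S Z K : Subgroup G} (hS : IsSylowIn p S ⊤)
    (hZ : S ≤ 𝐂⟮Z⟯) (hK : 𝐍⟮S⟯ ≤ 𝐍⟮K⟯) :
    S ⊓ ⁅𝐍⟮Z⟯, 𝐍⟮Z⟯⁆ ≤ (S ⊓ ⁅𝐂⟮Z⟯, 𝐂⟮Z⟯⁆) ⊔ (S ⊓ ⁅𝐍⟮K⟯, 𝐍⟮K⟯⁆) := by
  have hC : 𝐂⟮Z⟯ ≤ 𝐍⟮Z⟯ := centralizer_le_normalizer _
  have hn : 𝐍⟮Z⟯ ≤ 𝐍⟮𝐂⟮Z⟯⟯ := le_normalizer_centralizer le_rfl
  have hF := (hS.mono hZ le_top).frattini_sup hC hn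
  refine focal_le (hS.mono (hZ.trans hC) le_top) fun x hx g hg hxg => ?_
  obtain ⟨c, hc, n, hn', rfl⟩ := (mem_sup_iff_of_le_normalizer' (inf_le_left.trans hn)).1 (hF.ge hg)
  have hy : n * x * n⁻¹ ∈ S := conj_mem_of_mem_normalizer hn'.2 hx
  have e : c * n * x * (c * n)⁻¹ = c * (n * x * n⁻¹) * c⁻¹ := by group
  rw [e] at hxg ⊢
  have := mul_mem (mem_sup_right (S := S ⊓ ⁅𝐂⟮Z⟯, 𝐂⟮Z⟯⁆) (T := S ⊓ ⁅𝐍⟮K⟯, 𝐍⟮K⟯⁆)
    ⟨S.mul_mem (S.inv_mem hx) hy, inv_mul_conj_mem_commutator (hK (le_normalizer hx)) (hK hn'.2)⟩)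
    (mem_sup_left ⟨S.mul_mem (S.inv_mem hy) hxg, inv_mul_conj_mem_commutator (hZ hy) hc⟩)
  rwa [mul_assoc, mul_inv_cancel_left] at this

theorem focal_ZK (hc : CoreK.{u} p) {G : Type u} [Group G] [Finite G] {S : Subgroup G}
    (hS : IsSylowIn p S ⊤) : S ⊓ _root_.commutator G ≤
      (S ⊓ ⁅𝐂⟮S ⊓ 𝐂⟮S⟯⟯, 𝐂⟮S ⊓ 𝐂⟮S⟯⟯⁆) ⊔ (S ⊓ ⁅𝐍⟮KS p S⟯, 𝐍⟮KS p S⟯⁆) := by
  have h𝓦 := wZK_char.{u} (p := p)
  have h1 : TFc p {wZ, wK p} G := by
    refine tfc_of_sections (G := G) h𝓦 (fun K R _ ih hQ => ?_) G (Transfer.isSectionOf_self G)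
    obtain ⟨T⟩ : Nonempty (Sylow p (K ⧸ R.subgroupOf K)) := inferInstance
    exact familyTF_iff.2 ⟨T, isSylowIn_top T, tf_stepK hc
      (fun K hK => ih K ((Transfer.isSectionOf_self _).subgroup K) (Core.card_lt_of_ne_top K hK))
      (fun N _ hN => ih _ ((Transfer.isSectionOf_self _).quotient N) (Core.card_quotient_lt N hN))
      hQ (isSylowIn_top T)⟩
  refine (h1.tf h𝓦 hS).trans ?_
  rw [TD_IF_top]
  refine iSup₂_le ?_
  rintro _ (rfl | rfl)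
  · rw [ind_wZ]
    exact focal_NZ hS (le_cent_comm inf_le_right) (norm_KS S)
  · rw [ind_wK]
    exact le_sup_right

theorem mainK [Fact (Nat.Prime 3)] (hc : CoreK.{u} 3) {S : Type u} [Group S] [Finite S]
    [Nontrivial S] (hS : IsPGroup 3 S) : ∃ K : Subgroup S, K ≠ ⊥ ∧ K.Characteristic ∧
    ∀ (G : Type u) [Group G] [Finite G] (τ : S →* G), Function.Injective τ →
      (∃ P : Sylow 3 G, (P : Subgroup G) = τ.range) → ∀ g : G,
      g ∈ τ.range ⊓ _root_.commutator G ↔ ∃ a ∈ τ.range ⊓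
        ⁅Subgroup.centralizer ((τ.range ⊓ Subgroup.centralizer (τ.range : Set G) :
          Subgroup G) : Set G), Subgroup.centralizer ((τ.range ⊓ Subgroup.centralizer
            (τ.range : Set G) : Subgroup G) : Set G)⁆,
        ∃ b ∈ τ.range ⊓ ⁅Subgroup.normalizer ((K.map τ : Subgroup G) : Set G),
          Subgroup.normalizer ((K.map τ : Subgroup G) : Set G)⁆, g = a * b := by
  refine ⟨KS 3 ⊤, KS_ne_bot (hS.to_subgroup _) top_ne_bot,
    char_of_map _ fun e => map_KS e.injective _, fun G _ _ τ hτ ⟨P, hP⟩ g => ?_⟩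
  rw [map_KS hτ, ← MonoidHom.range_eq_map, ← hP]
  refine ⟨fun hg => ?_, ?_⟩
  · have hZ : (P : Subgroup G) ≤ 𝐂⟮(P : Subgroup G) ⊓ 𝐂⟮(P : Subgroup G)⟯⟯ :=
      le_cent_comm inf_le_right
    obtain ⟨a, ha, b, hb, e⟩ := (mem_sup_iff_of_le_normalizer' (inf_le_left.trans
      (le_normalizer_inf le_normalizer (le_normalizer_commutator (hZ.trans le_normalizer)
        (hZ.trans le_normalizer))))).1 (focal_ZK hc (isSylowIn_top P) hg)
    exact ⟨a, ha, b, hb, e.symm⟩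
  · rintro ⟨a, ha, b, hb, rfl⟩
    exact ⟨mul_mem ha.1 hb.1, mul_mem (commutator_mono le_top le_top ha.2)
      (commutator_mono le_top le_top hb.2)⟩

end Cfsg.Agent.Spc.Gn
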