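import Cfsg.Agent.Spc.GnK

/-! A transfer argument: quadratic action excludes the Steinberg module. -/

namespace Cfsg.Agent.Spc.Gn

open Subgroup Cfsg.Agent.LocalEven Cfsg.Agent.PLocal Cfsg.Agent.Push
open Cfsg.Agent.Glaub hiding cent_anti
open scoped commutatorElement _root_.Classical

universe u

variable {G : Type u} [Group G] {p : ℕ}

theorem q_key [Finite G] [hp : Fact p.Prime] (hp2 : p ≠ 2) {A : Type*} [CommGroup A]
    {U M : Subgroup G} [hN : U.Normal] (f : G → A)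
    (hmul : ∀ x ∈ U, ∀ y ∈ U, f (x * y) = f x * f y)
    (hM : ∀ m ∈ M, ∀ x ∈ U, f (m⁻¹ * x * m) = f x) (hpw : ∀ x, f x ^ p = 1)
    (hU : U ≤ ⁅U, (⊤ : Subgroup G)⁆) {a : G} (hap : ∀ g : G, g⁻¹ * a ^ p * g ∈ M)
    (ha : a ∈ M) (hti : ∀ k : ℕ, ¬ p ∣ k → ∀ g : G, g⁻¹ * a ^ k * g ∈ M → g ∈ M) {u : G}
    (hu : u ∈ U) (hq : ∀ g : G, f (g⁻¹ * ((u⁻¹ * (a⁻¹ * u * a))⁻¹ *
      (a⁻¹ * (u⁻¹ * (a⁻¹ * u * a)) * a)) * g) = 1) : f u = 1 := by
  letI := Fintype.ofFinite (G ⧸ M)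
  have cU : ∀ {x : G} (g : G), x ∈ U → g⁻¹ * x * g ∈ U := fun g hx => by
    simpa using hN.conj_mem _ hx g⁻¹
  have f1 : f 1 = 1 := by
    have := hmul 1 (one_mem _) 1 (one_mem _)
    rw [mul_one] at this
    exact (mul_eq_left.1 this.symm)
  let Φ : G → G ⧸ M → A := fun x c => f (c.out⁻¹ * x * c.out)
  have hΦ : ∀ x ∈ U, ∀ g : G, Φ x (g : G ⧸ M) = f (g⁻¹ * x * g) := fun x hx g => by
    obtain ⟨m, hm⟩ := QuotientGroup.mk_out_eq_mul M g
    show f (_ * x * _) = _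
    rw [hm, ← hM m m.2 _ (cU g hx)]
    congr 1; group
  have Fmul : ∀ x ∈ U, ∀ y ∈ U, ∏ c, Φ (x * y) c = (∏ c, Φ x c) * ∏ c, Φ y c :=
    fun x hx y hy => by
    rw [← Finset.prod_mul_distrib]
    refine Finset.prod_congr rfl fun c _ => ?_
    show f _ = f _ * f _
    rw [← hmul _ (cU _ hx) _ (cU _ hy)]
    congr 1; group
  have Fcj : ∀ x ∈ U, ∀ g : G, ∏ c, Φ (g * x * g⁻¹) c = ∏ c, Φ x c := fun x hx g => by
    refine Fintype.prod_equiv (MulAction.toPerm g⁻¹) _ _ fun c => ?_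
    induction c using QuotientGroup.induction_on with
    | H k =>
      rw [hΦ _ (hN.conj_mem _ hx g)]
      show _ = Φ x ((g⁻¹ * k : G) : G ⧸ M)
      rw [hΦ _ hx]
      congr 1; group
  have F1 : ∏ c, Φ 1 c = 1 := Finset.prod_eq_one fun c _ => by
    show f _ = 1
    rw [mul_one, inv_mul_cancel, f1]
  let K : Subgroup G :=
    { carrier := {x | x ∈ U ∧ ∏ c, Φ x c = 1}
      one_mem' := ⟨one_mem _, F1⟩
      mul_mem' := fun {x y} hx hy => ⟨mul_mem hx.1 hy.1, by rw [Fmul x hx.1 y hy.1, hx.2, hy.2, mul_one]⟩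
      inv_mem' := fun {x} hx => ⟨inv_mem hx.1, by
        have := Fmul x hx.1 x⁻¹ (inv_mem hx.1)
        rwa [mul_inv_cancel, F1, hx.2, one_mul, eq_comm] at this⟩ }
  have hK : ⁅U, (⊤ : Subgroup G)⁆ ≤ K := commutator_le.2 fun x hx g _ => by
    have e : ⁅x, g⁆ = x * (g * x⁻¹ * g⁻¹) := by rw [commutatorElement_def]; group
    refine ⟨e ▸ mul_mem hx (hN.conj_mem _ (inv_mem hx) g), ?_⟩
    rw [e, Fmul _ hx _ (hN.conj_mem _ (inv_mem hx) g), Fcj _ (inv_mem hx), ← Fmul _ hx _ (inv_mem hx),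
      mul_inv_cancel, F1]
  have Fu := (hK (hU hu)).2
  rw [← Finset.mul_prod_erase _ _ (Finset.mem_univ ((1 : G) : G ⧸ M)), hΦ u hu] at Fu
  set d := u⁻¹ * (a⁻¹ * u * a) with hd
  have dU : d ∈ U := mul_mem (inv_mem hu) (cU a hu)
  have s1 : ∀ g : G, f ((a * g)⁻¹ * d * (a * g)) = f (g⁻¹ * d * g) := fun g => by
    have := hmul _ (cU g dU) _ (cU g (mul_mem (inv_mem dU) (cU a dU)))
    rw [hq g, mul_one] at this
    rw [← this]; congr 1; group
  have s2 : ∀ g : G, f ((a * g)⁻¹ * u * (a * g)) = f (g⁻¹ * u * g) * f (g⁻¹ * d * g) := fun g => by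
    rw [← hmul _ (cU g hu) _ (cU g dU), hd]; congr 1; group
  have s3 : ∀ (g : G) (i : ℕ), f ((a ^ i * g)⁻¹ * d * (a ^ i * g)) = f (g⁻¹ * d * g) := fun g i => by
    induction i with
    | zero => simp
    | succ i ih => rw [pow_succ' a, mul_assoc a, s1, ih]
  have s4 : ∀ (g : G) (i : ℕ), f ((a ^ i * g)⁻¹ * u * (a ^ i * g)) =
      f (g⁻¹ * u * g) * f (g⁻¹ * d * g) ^ i := fun g i => by
    induction i with
    | zero => simp
    | succ i ih => rw [pow_succ' a, mul_assoc a, s2, ih, s3, pow_succ, mul_assoc]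
  have hsum : p ∣ ∑ i ∈ Finset.range p, i := by
    have := Finset.sum_range_id_mul_two p
    exact ((Nat.coprime_primes hp.1 Nat.prime_two).2 hp2).dvd_of_dvd_mul_right ⟨_, this⟩
  rw [Finset.prod_cancels_of_partition_cancels (MulAction.orbitRel (zpowers a) (G ⧸ M))] at Fu
  · simpa using Fu
  intro c hc
  induction c using QuotientGroup.induction_on with
  | H g =>
  have hg : g ∉ M := fun e => (Finset.mem_erase.1 hc).1 (by
    rw [QuotientGroup.eq]; simpa using e)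
  have per : ∀ i : ℕ, ((a ^ i * g : G) : G ⧸ M) = ((a ^ (i % p) * g : G) : G ⧸ M) := fun i => by
    rw [eq_comm, QuotientGroup.eq]
    have : (a ^ (i % p) * g)⁻¹ * (a ^ i * g) = (g⁻¹ * a ^ p * g) ^ (i / p) := by
      conv_lhs => rw [← Nat.mod_add_div i p, pow_add, pow_mul, Nat.mod_add_div]
      rw [show g⁻¹ * a ^ p * g = g⁻¹ * a ^ p * g⁻¹⁻¹ by rw [inv_inv], conj_pow]
      group
    rw [this]; exact pow_mem (hap g) _
  have e : (Finset.univ.erase ((1 : G) : G ⧸ M)).filter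
      (fun y => (MulAction.orbitRel (zpowers a) (G ⧸ M)) y (g : G ⧸ M)) =
      (Finset.range p).image fun i => ((a ^ i * g : G) : G ⧸ M) := by
    ext y
    rw [Finset.mem_filter, Finset.mem_image, MulAction.orbitRel_apply]
    constructor
    · rintro ⟨-, ⟨⟨b, hb⟩, rfl⟩⟩
      obtain ⟨i, rfl⟩ := (mem_powers_iff_mem_zpowers.2 hb : b ∈ Submonoid.powers a)
      exact ⟨i % p, Finset.mem_range.2 (Nat.mod_lt _ hp.1.pos), (per i).symm⟩
    · rintro ⟨i, -, rfl⟩
      refine ⟨Finset.mem_erase.2 ⟨fun e => hg ?_, Finset.mem_univ _⟩,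
        ⟨⟨a ^ i, pow_mem (mem_zpowers a) i⟩, rfl⟩⟩
      rw [QuotientGroup.eq, mul_one, inv_mem_iff] at e
      exact (M.mul_mem_cancel_left (pow_mem ha i)).1 e
  rw [e, Finset.prod_image]
  · simp only [hΦ u hu, s4]
    rw [Finset.prod_mul_distrib, Finset.prod_const, Finset.card_range, hpw, one_mul,
      Finset.prod_pow_eq_pow_sum]
    obtain ⟨k, hk⟩ := hsum
    rw [hk, pow_mul, hpw, one_pow]
  · have key : ∀ i j : ℕ, i < j → j < p →
        ((a ^ i * g : G) : G ⧸ M) ≠ ((a ^ j * g : G) : G ⧸ M) := fun i j h1 h2 e => by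
      rw [QuotientGroup.eq] at e
      refine hg (hti (j - i) (fun h => absurd (Nat.le_of_dvd (by omega) h) (by omega)) g ?_)
      have : (a ^ i * g)⁻¹ * (a ^ j * g) = g⁻¹ * a ^ (j - i) * g := by
        conv_lhs => rw [show j = i + (j - i) by omega, pow_add]
        group
      rwa [this] at e
    intro i hi j hj e
    rcases lt_trichotomy i j with h | h | h
    · exact absurd e (key i j h (Finset.mem_range.1 hj))
    · exact h
    · exact absurd e.symm (key j i h (Finset.mem_range.1 hi))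

theorem lemQ [hp : Fact p.Prime] (hp2 : p ≠ 2) : LemQ.{u} p := by
  intro G _ _ S M T U U' A h hN hUT hU hN' hU' hA hAT q1 q2
  have hT : T.Normal := normalizer_eq_top_iff.1 (top_le_iff.1 h.nT)
  have pU : IsPGroup p U := h.pT.to_le hUT
  obtain ⟨a, haA, haT, hap⟩ : ∃ a ∈ A, a ∉ T ∧ a ^ p ∈ T := by
    obtain ⟨b, hb, hbT⟩ := SetLike.not_le_iff_exists.1 hAT
    obtain ⟨k, hk⟩ := isPGroup_iff_mem.1 h.syl.pgrp b (hA hb)
    have ex : ∃ k, b ^ p ^ k ∈ T := ⟨k, hk ▸ one_mem _⟩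
    have n0 : Nat.find ex ≠ 0 := fun e => hbT (by simpa [e] using Nat.find_spec ex)
    refine ⟨b ^ p ^ (Nat.find ex - 1), pow_mem hb _, Nat.find_min ex (by omega), ?_⟩
    rw [← pow_mul, ← pow_succ, show Nat.find ex - 1 + 1 = Nat.find ex by omega]
    exact Nat.find_spec ex
  have TM : T ≤ M := h.TS.trans h.min.le
  have hap' : ∀ g : G, g⁻¹ * a ^ p * g ∈ M := fun g => TM (by simpa using hT.conj_mem _ hap g⁻¹)
  have hti : ∀ k : ℕ, ¬ p ∣ k → ∀ g : G, g⁻¹ * a ^ k * g ∈ M → g ∈ M := fun k hk g e => by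
    by_contra hg
    refine h.ti (pow_mem (hA haA) k) (fun e' => haT ?_) (mem_top g) hg (mem_cj.2 e)
    obtain ⟨m, -, hm⟩ := Nat.exists_mul_mod_eq_one_of_coprime
      ((Nat.Prime.coprime_iff_not_dvd hp.1).2 hk).symm hp.1.one_lt
    have : a = (a ^ k) ^ m * ((a ^ p) ^ (k * m / p))⁻¹ := by
      rw [← pow_mul, ← pow_mul, eq_mul_inv_iff_mul_eq, ← pow_succ']
      congr 1
      have := Nat.mod_add_div (k * m) p
      omega
    rw [this]
    exact mul_mem (pow_mem e' _) (inv_mem (pow_mem hap _))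
  obtain ⟨c1, c2⟩ := (PGrp.map_frattini_le_iff pU).1 (le_refl (phi U))
  set K := ⁅U, M⁆ ⊔ phi U with hK
  have KU : K ≤ U := sup_le (commutator_le_left _ _) (phi_le U)
  haveI nK : (K.subgroupOf U).Normal := (normal_subgroupOf_iff_le_normalizer KU).2
    (le_normalizer_of_commutator_le_left ((commutator_mono KU le_rfl).trans (c1.trans le_sup_right)))
  letI : CommGroup (U ⧸ K.subgroupOf U) :=
    { (inferInstance : Group (U ⧸ K.subgroupOf U)) with
      mul_comm := fun x y => by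
        induction x using QuotientGroup.induction_on with
        | H x =>
        induction y using QuotientGroup.induction_on with
        | H y =>
        rw [← QuotientGroup.mk_mul, ← QuotientGroup.mk_mul, QuotientGroup.eq, mem_subgroupOf]
        refine (le_sup_right : phi U ≤ K) (c1 ?_)
        have := commutator_mem_commutator (inv_mem y.2) (inv_mem x.2)
        simpa [commutatorElement_def, mul_assoc] using this }
  let f : G → U ⧸ K.subgroupOf U := fun x => if hx : x ∈ U then QuotientGroup.mk ⟨x, hx⟩ else 1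
  have fe : ∀ x (hx : x ∈ U), f x = QuotientGroup.mk ⟨x, hx⟩ := fun x hx => dif_pos hx
  have f1 : ∀ x ∈ U, f x = 1 ↔ x ∈ K := fun x hx => by
    rw [fe x hx, QuotientGroup.eq_one_iff, mem_subgroupOf]
  have cU : ∀ {x : G} (g : G), x ∈ U → g⁻¹ * x * g ∈ U := fun g hx => by
    simpa using hN.conj_mem _ hx g⁻¹
  have hmul : ∀ x ∈ U, ∀ y ∈ U, f (x * y) = f x * f y := fun x hx y hy => by
    rw [fe x hx, fe y hy, fe _ (mul_mem hx hy)]; rfl
  have hM : ∀ m ∈ M, ∀ x ∈ U, f (m⁻¹ * x * m) = f x := fun m hm x hx => by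
    rw [fe x hx, fe _ (cU m hx), eq_comm, QuotientGroup.eq, mem_subgroupOf]
    refine (le_sup_left : ⁅U, M⁆ ≤ K) ?_
    have := commutator_mem_commutator (inv_mem hx) (inv_mem hm)
    simpa [commutatorElement_def, mul_assoc] using this
  have hpw : ∀ x, f x ^ p = 1 := fun x => by
    by_cases hx : x ∈ U
    · rw [fe x hx, ← QuotientGroup.mk_pow, QuotientGroup.eq_one_iff, mem_subgroupOf]
      exact (le_sup_right : phi U ≤ K) (c2 x hx)
    · simp only [f, dif_neg hx, one_pow]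
  have cm : ∀ {W : Subgroup G} {u : G}, u ∈ W → u⁻¹ * (a⁻¹ * u * a) ∈ ⁅W, A⁆ := fun hu => by
    have := commutator_mem_commutator (inv_mem hu) (inv_mem haA)
    simpa [commutatorElement_def, mul_assoc] using this
  have l1 : ∀ u ∈ U', f u = 1 := fun u hu =>
    q_key hp2 f hmul hM hpw hU hap' (h.min.le (hA haA)) hti (hU' hu) fun g => by
      rw [mem_bot.1 (q1.le (cm (cm hu))), mul_one, inv_mul_cancel]
      exact (f1 1 (one_mem _)).2 (one_mem _)
  have l2 : ∀ u ∈ U, f u = 1 := fun u hu =>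
    q_key hp2 f hmul hM hpw hU hap' (h.min.le (hA haA)) hti hu fun g =>
      l1 _ (by simpa using hN'.conj_mem _ (q2 (cm (cm hu))) g⁻¹)
  have e : (⁅U, M⁆).subgroupOf U ⊔ frattini U = ⊤ := by
    apply map_injective U.subtype_injective
    rw [Subgroup.map_sup, map_subgroupOf_eq_of_le (commutator_le_left _ _),
      ← MonoidHom.range_eq_map, range_subtype]
    exact le_antisymm KU fun u hu => (f1 u hu).1 (l2 u hu)
  exact subgroupOf_eq_top.1 (frattini_nongenerating e)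

end Cfsg.Agent.Spc.Gn
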