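import Cfsg.Agent.Spc.GnDef

/-! The rank one case that is not pushed up. -/

namespace Cfsg.Agent.Spc.Gn

open Subgroup Cfsg.Agent.LocalEven Cfsg.Agent.Glaub Cfsg.Agent.PLocal Cfsg.Agent.Push
open scoped commutatorElement MatrixGroups

universe u

theorem p3_norm {G : Type u} [Group G] [Finite G] {K : Subgroup G} {e : G}
    (h : ∀ k ∈ K, ⁅e, k⁆ ∈ K) : e ∈ 𝐍⟮K⟯ :=
  mem_normalizer_fintype fun k hk => by
    have := mul_mem (h k hk) hk
    rwa [commutatorElement_def, inv_mul_cancel_right] at this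

theorem ph3 {p : ℕ} [hp : Fact p.Prime] (hp2 : p ≠ 2) : Ph3.{u} p := by
  intro G _ _ S M T U h hT nd hU h1
  obtain ⟨f, A, c, -⟩ := h.cf_of hT nd
  have o := c.out_of nd
  obtain ⟨n, hn, e⟩ := c.nat.pow
  obtain ⟨F, _, _, hF⟩ := exists_field_card (p := p) hn
  obtain ⟨σ, ψ, d, s, -⟩ := c.nat.nat F (hF.trans e.symm)
  have nT := normal_of_top_le h.nT
  obtain ⟨ρ, r1, r2, -⟩ := c.toPN.quot (o.ker_T c.toPN hT) d s
  have hUT : U ≤ T := h1.trans (commutator_le_left _ _)
  obtain ⟨Z, hZ⟩ : ∃ Z, Z = (center SL(2, F)).comap ρ := ⟨_, rfl⟩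
  have nZ : Z.Normal := hZ ▸ inferInstance
  have TZ : T ≤ Z := fun t ht => by
    rw [hZ, mem_comap, show ρ t = 1 from r2.ge ht]; exact one_mem _
  have ZM : Z ≤ M := fun z hz => h.se h.min.le h.syl.pgrp h.not_le ⟨trivial, p3_norm fun k _ =>
    h.TS (r2.le (by
      rw [hZ, mem_comap, mem_center_iff] at hz
      rw [MonoidHom.mem_ker, map_commutatorElement, commutatorElement_eq_one_iff_mul_comm, hz]))⟩
  have nle : ¬ Z ≤ T := fun k => by
    obtain ⟨z, hz⟩ := r1 (-1)
    have h2 : ρ z = 1 := r2.ge (k (by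
      rw [hZ, mem_comap, hz, mem_center_iff]; intro g; simp))
    have h3 : (-1 : F) = 1 := by simpa using congrArg (fun g : SL(2, F) => g.1 0 0) (hz.symm.trans h2)
    have h4 : ((2 : ℕ) : F) = 0 := by push_cast; linear_combination -h3
    have h5 := (CharP.charP_iff_prime_eq_zero Nat.prime_two).2 h4
    have h6 := FiniteField.cast_card_eq_zero F
    rw [hF, CharP.cast_eq_zero_iff F 2] at h6
    exact hp2 ((Nat.prime_dvd_prime_iff_eq Nat.prime_two hp.out).1
      (Nat.prime_two.dvd_of_dvd_pow h6)).symm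
  have key : ∀ U₁ : Subgroup G, U₁.Normal → ⁅U, Z⁆ ≤ U₁ → U₁ ≤ U →
      ⁅U₁, pResOf p (⊤ : Subgroup G)⁆ ≤ ⁅U, Z⁆ := fun U₁ => by
    induction U₁ using WellFoundedLT.induction with
    | ind U₁ ih =>
    intro n1 a b
    rcases a.eq_or_lt with e1 | e1
    · rw [← e1]; exact commutator_le_left _ _
    obtain ⟨W, w1, w2⟩ := Finite.exists_le_maximal (p := fun W : Subgroup G => W.Normal ∧ W < U₁)
      (a := ⁅U, Z⁆) ⟨inferInstance, e1⟩
    have nW := w2.1.1
    have hc : IsChiefFactor U₁ W := ⟨w2.1.2, n1, nW, fun N k1 k2 k3 => k3.eq_or_lt.elim Or.inr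
      fun k => Or.inl (le_antisymm (w2.2 ⟨k1, k⟩ k2) k2)⟩
    by_cases hn : ⁅U₁, (⊤ : Subgroup G)⁆ ≤ W
    · exact (comm_res_res (h.pT.to_le (b.trans hUT)) (le_norm_of_normal _ _)).trans
        ((commutator_mono ((commutator_mono le_rfl le_top).trans hn) le_rfl).trans
          (ih W w2.1.2 nW w1 (w2.1.2.le.trans b)))
    obtain ⟨-, σ', ψ', s', k, -⟩ := o.chief c.toPN F (hF.trans (e.symm.trans c.idxS)) (b.trans hUT) hc hn
    let τ : G →* SL(2, F) := σ'.comp ((topEquiv (G := G ⧸ W)).symm.toMonoidHom.comp (QuotientGroup.mk' W))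
    have t1 : Function.Surjective τ :=
      s'.comp ((topEquiv (G := G ⧸ W)).symm.surjective.comp (QuotientGroup.mk'_surjective W))
    have t2 : Z ≤ τ.ker := fun z hz => k.ge (by
      rintro _ ⟨u, hu, rfl⟩
      change QuotientGroup.mk' W u * QuotientGroup.mk' W z = QuotientGroup.mk' W z * QuotientGroup.mk' W u
      rw [← commutatorElement_eq_one_iff_mul_comm, ← map_commutatorElement]
      exact (QuotientGroup.eq_one_iff _).2 (w1 (commutator_mem_commutator (b hu) hz)))
    have t3 : T.index = τ.ker.index := by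
      rw [← r2, index_ker, index_ker, MonoidHom.range_eq_top.2 r1, MonoidHom.range_eq_top.2 t1]
    have t4 := (card_mul_index T).trans (card_mul_index τ.ker).symm
    rw [t3, mul_left_inj' index_ne_zero_of_finite] at t4
    exact (nle (t2.trans (eq_of_le_of_card_ge (TZ.trans t2) t4.ge).ge)).elim
  have k1 := (key U hU (commutator_le_left _ _) le_rfl).trans (commutator_mono le_rfl ZM)
  have k2 : ⁅U, M⁆ ≤ U := commutator_le_left _ _
  refine (le_centMod.1 (h.syl.pResOf_sup.ge.trans (sup_le (le_centMod.2 ⟨fun g hg => p3_norm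
    fun k hk => ?_, k1⟩) (le_centMod.2 ⟨h.min.le.trans (right_le_normalizer_commutator _ _),
      commutator_mono le_rfl h.min.le⟩)))).2
  rw [← commutatorElement_inv]
  exact inv_mem (k1 (commutator_mem_commutator (k2 hk) hg))

end Cfsg.Agent.Spc.Gn
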