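import Mathlib
import Cfsg.Agent.RankOne.HigB

set_option autoImplicit false
set_option linter.unusedSectionVars false

/-! Higman's theorem for a general transitive group of automorphisms, part 1. -/

namespace Cfsg.Agent.SpcHg

open scoped commutatorElement
open Cfsg.Agent.RankOne

/-- A 2-group `P` whose involutions are parametrised by the nonzero elements of `F`, with `Γ` acting. -/
structure Hg (P F Γ : Type*) [Group P] [Field F] [Fintype F] [Group Γ] where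
  K : Γ →* MulAut P
  ρ : Γ → F ≃+ F
  ι : F → P
  ι_add : ∀ x y, ι (x + y) = ι x * ι y
  ι_inj : Function.Injective ι
  K_ι : ∀ κ x, K κ (ι x) = ι (ρ κ x)
  of_sq : ∀ g, g * g = 1 → ∃ x, g = ι x
  two : IsPGroup 2 P
  card : 2 < Fintype.card F
  trans : ∀ x ≠ 0, ∀ y ≠ 0, ∃ κ, ρ κ x = y
  alt : ∀ B : F →+ F →+ F, (∀ x, B x x = 0) → (∀ κ x y, B (ρ κ x) (ρ κ y) = ρ κ (B x y)) → B = 0
  inj : ∀ W : AddSubgroup (F →+ F), (∀ κ, ∀ t ∈ W, ∃ t' ∈ W, ∀ x, t' (ρ κ x) = ρ κ (t x)) →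
    (∀ W' ≤ W, (∀ κ, ∀ t ∈ W', ∀ t' ∈ W, (∀ x, t' (ρ κ x) = ρ κ (t x)) → t' ∈ W') → W' = ⊥ ∨ W' = W) →
    Fintype.card F ≤ Nat.card W → ∀ t ∈ W, ∀ x ≠ 0, t x = 0 → t = 0

namespace Hg

variable {P F Γ : Type*} [Group P] [Finite P] [Field F] [Fintype F] [CharP F 2] [Group Γ] (H : Hg P F Γ)

theorem ι_zero : H.ι 0 = 1 := by
  have := H.ι_add 0 0
  rw [add_zero] at this
  exact left_eq_mul.mp this

theorem ι_mul_self (x : F) : H.ι x * H.ι x = 1 := by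
  rw [← H.ι_add, CharTwo.add_self_eq_zero, H.ι_zero]

theorem ι_inv (x : F) : (H.ι x)⁻¹ = H.ι x := inv_eq_of_mul_eq_one_left (H.ι_mul_self x)

theorem ι_eq_one {x : F} : H.ι x = 1 ↔ x = 0 := by
  rw [← H.ι_zero]; exact H.ι_inj.eq_iff

theorem exists_ι {x : F} (hx : x ≠ 0) (y : F) : y = 0 ∨ ∃ κ, H.K κ (H.ι x) = H.ι y := by
  by_cases hy : y = 0
  · exact Or.inl hy
  · obtain ⟨κ, e⟩ := H.trans x hx y hy
    exact Or.inr ⟨κ, by rw [H.K_ι, e]⟩

theorem exists_pow_ι {g : P} (hg : g ≠ 1) : ∃ j x, x ≠ 0 ∧ g ^ 2 ^ j = H.ι x := by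
  classical
  have h := H.two g
  obtain ⟨j, hj⟩ : ∃ j, Nat.find h = j + 1 := Nat.exists_eq_succ_of_ne_zero fun e => hg (by
    have := Nat.find_spec h
    rwa [e, pow_zero, pow_one] at this)
  have h1 := Nat.find_spec h
  have h2 := Nat.find_min h (m := j) (by omega)
  rw [hj, pow_succ, pow_mul, sq] at h1
  obtain ⟨x, hx⟩ := H.of_sq _ h1
  exact ⟨j, x, fun e => h2 (by rw [hx, e, H.ι_zero]), hx⟩

/-- invariant subgroups. -/
def Inv (A : Subgroup P) : Prop := ∀ κ, ∀ g ∈ A, H.K κ g ∈ A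

variable {H}

theorem Inv.ι_mem {A : Subgroup P} (hA : H.Inv A) {g : P} (hg : g ∈ A) (h1 : g ≠ 1) (y : F) : H.ι y ∈ A := by
  obtain ⟨j, x, hx, e⟩ := H.exists_pow_ι h1
  rcases H.exists_ι hx y with rfl | ⟨κ, e'⟩
  · rw [H.ι_zero]; exact A.one_mem
  · rw [← e', ← e]; exact hA κ _ (A.pow_mem hg _)

variable (H)

theorem inv_top : H.Inv ⊤ := fun _ _ _ => Subgroup.mem_top _

theorem inv_center : H.Inv (Subgroup.center P) := fun κ g hg => by
  rw [Subgroup.mem_center_iff] at hg ⊢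
  intro x
  obtain ⟨y, rfl⟩ := (H.K κ).surjective x
  rw [← map_mul, hg, map_mul]

theorem ι_one_ne : H.ι 1 ≠ 1 := fun h => one_ne_zero (H.ι_eq_one.mp h)

theorem ι_mem_center (x : F) : H.ι x ∈ Subgroup.center P := by
  have : Nontrivial P := ⟨_, _, H.ι_one_ne⟩
  have := Fact.mk Nat.prime_two
  have h := IsPGroup.center_nontrivial H.two
  obtain ⟨g, hg⟩ := exists_ne (1 : Subgroup.center P)
  exact H.inv_center.ι_mem g.2 (fun e => hg (Subtype.ext e)) x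

theorem ι_comm (x : F) (g : P) : H.ι x * g = g * H.ι x := (Subgroup.mem_center_iff.mp (H.ι_mem_center x) g).symm

include H in
theorem conj_of_sq {z : P} (hz : z * z = 1) (g : P) : g * z * g⁻¹ = z := by
  obtain ⟨x, rfl⟩ := H.of_sq z hz
  rw [← H.ι_comm, mul_inv_cancel_right]

/-- the subgroup of involutions -/
def Z : Subgroup P where
  carrier := {g | g * g = 1}
  mul_mem' := fun {a b} ha hb => by
    obtain ⟨x, rfl⟩ := H.of_sq a ha
    obtain ⟨y, rfl⟩ := H.of_sq b hb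
    rw [← H.ι_add]; exact H.ι_mul_self _
  one_mem' := mul_one 1
  inv_mem' := fun {a} ha => by
    obtain ⟨x, rfl⟩ := H.of_sq a ha
    rw [H.ι_inv]; exact ha

theorem mem_Z {g : P} : g ∈ H.Z ↔ g * g = 1 := Iff.rfl

theorem ι_mem_Z (x : F) : H.ι x ∈ H.Z := H.ι_mul_self x

theorem inv_Z : H.Inv H.Z := fun κ g hg => by
  rw [mem_Z] at hg ⊢
  rw [← map_mul, hg, map_one]

theorem Z_le_center : H.Z ≤ Subgroup.center P := fun g hg => by
  obtain ⟨x, rfl⟩ := H.of_sq g hg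
  exact H.ι_mem_center x

theorem Inv.Z_le {H : Hg P F Γ} {A : Subgroup P} (hA : H.Inv A) {g : P} (hg : g ∈ A) (h1 : g ≠ 1) : H.Z ≤ A :=
  fun z hz => by
    obtain ⟨x, rfl⟩ := H.of_sq z hz
    exact hA.ι_mem hg h1 x

/-- the logarithm of an involution -/
noncomputable def lg (g : P) : F := Function.invFun H.ι g

theorem lg_ι (x : F) : H.lg (H.ι x) = x := Function.leftInverse_invFun H.ι_inj x

theorem ι_lg {g : P} (hg : g * g = 1) : H.ι (H.lg g) = g := by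
  obtain ⟨x, rfl⟩ := H.of_sq g hg
  rw [H.lg_ι]

theorem lg_one : H.lg 1 = 0 := by rw [← H.ι_zero, H.lg_ι]

theorem lg_mul {g h : P} (hg : g * g = 1) (hh : h * h = 1) : H.lg (g * h) = H.lg g + H.lg h := by
  obtain ⟨x, rfl⟩ := H.of_sq g hg
  obtain ⟨y, rfl⟩ := H.of_sq h hh
  rw [← H.ι_add, H.lg_ι, H.lg_ι, H.lg_ι]

theorem lg_inv {g : P} (hg : g * g = 1) : H.lg g⁻¹ = H.lg g := by
  rw [inv_eq_of_mul_eq_one_left hg]

theorem lg_K {g : P} (hg : g * g = 1) (κ : Γ) : H.lg (H.K κ g) = H.ρ κ (H.lg g) := by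
  obtain ⟨x, rfl⟩ := H.of_sq g hg
  rw [H.K_ι, H.lg_ι, H.lg_ι]

theorem lg_eq_zero {g : P} (hg : g * g = 1) : H.lg g = 0 ↔ g = 1 := by
  obtain ⟨x, rfl⟩ := H.of_sq g hg
  rw [H.lg_ι, H.ι_eq_one]

theorem coord_Z : Coord H.Z ⊥ H.lg :=
  ⟨bot_le, fun _ hu _ hv => H.lg_mul hu hv, fun _ hu => H.lg_eq_zero hu, fun x => ⟨_, H.ι_mem_Z x, H.lg_ι x⟩⟩

theorem card_Z : Nat.card H.Z = Fintype.card F := by
  rw [← Nat.card_eq_fintype_card, ← H.coord_Z.relIndex, Subgroup.relIndex_bot_left]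

theorem dvd_ncard (S : Set P) (hS : ∀ κ, ∀ g ∈ S, H.K κ g ∈ S) (h1 : (1 : P) ∉ S) :
    Fintype.card F - 1 ∣ S.ncard := by
  classical
  have := Fact.mk Nat.prime_two
  have hsq : ∀ g : P, g ≠ 1 → g ^ (orderOf g / 2) * g ^ (orderOf g / 2) = 1 ∧ g ^ (orderOf g / 2) ≠ 1 := by
    intro g hg
    obtain ⟨k, hk⟩ := IsPGroup.iff_orderOf.mp H.two g
    cases k with
    | zero => exact absurd (orderOf_eq_one_iff.mp (by simpa using hk)) hg
    | succ k =>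
      have e : orderOf g / 2 = 2 ^ k := by rw [hk, pow_succ, Nat.mul_div_cancel _ two_pos]
      refine ⟨by rw [← pow_add, e, ← two_mul, ← pow_succ', ← hk, pow_orderOf_eq_one], ?_⟩
      rw [e]
      exact pow_ne_one_of_lt_orderOf (by positivity) (by rw [hk]; exact Nat.pow_lt_pow_right one_lt_two (by omega))
  let f : P → F := fun g => H.lg (g ^ (orderOf g / 2))
  have hf : ∀ κ g, g ≠ 1 → f (H.K κ g) = H.ρ κ (f g) := fun κ g hg => by
    simp only [f]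
    rw [MulEquiv.orderOf_eq, ← map_pow, H.lg_K (hsq g hg).1]
  let s := (Set.toFinite S).toFinset
  have hs : ∀ g, g ∈ s ↔ g ∈ S := fun g => Set.Finite.mem_toFinset _
  have hne : ∀ g ∈ s, g ≠ 1 := fun g hg e => h1 (e ▸ (hs g).mp hg)
  have hle : ∀ x ≠ 0, ∀ y ≠ 0, (s.filter fun g => f g = x).card ≤ (s.filter fun g => f g = y).card :=
    fun x hx y hy => by
      obtain ⟨κ, e⟩ := H.trans x hx y hy
      refine Finset.card_le_card_of_injOn (H.K κ) (fun g hg => ?_) (H.K κ).injective.injOn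
      simp only [Finset.coe_filter, Set.mem_setOf_eq] at hg ⊢
      exact ⟨(hs _).mpr (hS κ g ((hs g).mp hg.1)), by rw [hf κ g (hne g hg.1), hg.2, e]⟩
  rw [Set.ncard_eq_toFinset_card S (Set.toFinite S)]
  change _ ∣ s.card
  rw [Finset.card_eq_sum_card_fiberwise (f := f) (t := Finset.univ.erase 0) (fun g hg => by
    simp only [Finset.coe_erase, Finset.coe_univ, Set.mem_diff, Set.mem_univ, Set.mem_singleton_iff, true_and]
    exact fun e => (hsq g (hne g hg)).2 ((H.lg_eq_zero (hsq g (hne g hg)).1).mp e)),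
    Finset.sum_congr rfl fun x hx => le_antisymm (hle x (Finset.ne_of_mem_erase hx) 1 one_ne_zero)
      (hle 1 one_ne_zero x (Finset.ne_of_mem_erase hx)), Finset.sum_const, smul_eq_mul,
    Finset.card_erase_of_mem (Finset.mem_univ _), Finset.card_univ]
  exact dvd_mul_right _ _

theorem odd_q_sub_one : Odd (Fintype.card F - 1) := by
  obtain ⟨n, -, hn⟩ := FiniteField.card F 2
  rw [hn]
  exact Nat.Even.sub_odd (Nat.one_le_two_pow) ((Nat.even_pow' n.ne_zero).mpr even_two) odd_one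

variable {H}

theorem Inv.of_K {A : Subgroup P} (hA : H.Inv A) {κ : Γ} {g : P} (hg : H.K κ g ∈ A) : g ∈ A := by
  have := hA κ⁻¹ _ hg
  rwa [map_inv, MulAut.inv_apply_self] at this

theorem Inv.dvd_relIndex {A C : Subgroup P} (hA : H.Inv A) (hC : H.Inv C) (h : A ≤ C) :
    Fintype.card F - 1 ∣ A.relIndex C - 1 := by
  have := Fact.mk Nat.prime_two
  have h1 := H.dvd_ncard ((C : Set P) \ A) (fun κ g hg => ⟨hC κ g hg.1, fun e => hg.2 (hA.of_K e)⟩)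
    (fun e => e.2 A.one_mem)
  rw [Set.ncard_diff h] at h1
  have h2 : Nat.card A * A.relIndex C = Nat.card C := by
    rw [← Subgroup.relIndex_bot_left, ← Subgroup.relIndex_bot_left]
    exact Subgroup.relIndex_mul_relIndex _ _ _ bot_le h
  change _ ∣ Nat.card C - Nat.card A at h1
  rw [← h2, ← Nat.mul_sub_one] at h1
  obtain ⟨k, hk⟩ := IsPGroup.iff_card.mp (H.two.to_subgroup A)
  refine Nat.Coprime.dvd_of_dvd_mul_left ?_ h1
  rw [hk]
  exact Nat.Coprime.pow_right _ (Nat.coprime_two_right.mpr odd_q_sub_one)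

theorem Inv.le_relIndex {A C : Subgroup P} (hA : H.Inv A) (hC : H.Inv C) (h : A ≤ C) (hne : ¬ C ≤ A) :
    Fintype.card F ≤ A.relIndex C := by
  have h1 := hA.dvd_relIndex hC h
  have h2 : A.relIndex C ≠ 1 := fun e => hne (Subgroup.relIndex_eq_one.mp e)
  have h3 : A.relIndex C ≠ 0 := Subgroup.index_ne_zero_of_finite
  have := Nat.le_of_dvd (by omega) h1
  omega

theorem Inv.le_of_mul_mem {A C : Subgroup P} (hA : H.Inv A) (hC : H.Inv C) (h : A ≤ C)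
    (h2 : ∀ u ∈ C, ∀ v ∈ C, u ∉ A → v ∉ A → u * v ∈ A) : C ≤ A := by
  by_contra hne
  have h1 := hA.le_relIndex hC h hne
  obtain ⟨u, hu, hu'⟩ := SetLike.not_le_iff_exists.mp hne
  rw [Subgroup.relIndex_eq_two_iff_exists_notMem_and.mpr ⟨u, hu, hu', fun b hb => by
    by_cases hb' : b ∈ A
    · exact Or.inr hb'
    · exact Or.inl (h2 b hb u hu hb' hu')⟩] at h1
  have := H.card
  omega

/-- In an invariant abelian subgroup, invariant subgroups are determined by their exponents. -/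
theorem Inv.mem_of_pow {A B : Subgroup P} (hc : ∀ a ∈ A, ∀ b ∈ A, Commute a b) (hB : H.Inv B) (hBA : B ≤ A)
    (j : ℕ) : ∀ a ∈ A, ∀ b ∈ B, a ^ 2 ^ (j + 1) = 1 → b ^ 2 ^ j ≠ 1 → a ∈ B := by
  induction j with
  | zero =>
    intro a _ b hb h1 h2
    exact hB.Z_le hb (by simpa using h2) (H.mem_Z.mpr (by simpa [sq] using h1))
  | succ j ih =>
    intro a ha b hb h1 h2
    have h3 : b ^ 2 ^ j ≠ 1 := fun e => h2 (by rw [pow_succ, pow_mul, e, one_pow])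
    obtain ⟨i, y, hy, e⟩ := H.exists_pow_ι h2
    obtain ⟨x, hx⟩ := H.of_sq (a ^ 2 ^ (j + 1)) (by rw [← sq, ← pow_mul, ← pow_succ, h1])
    rcases H.exists_ι hy x with rfl | ⟨κ, e'⟩
    · exact ih a ha b hb (by rw [hx, H.ι_zero]) h3
    · have hb' : H.K κ (b ^ 2 ^ i) ∈ B := hB κ _ (B.pow_mem hb _)
      have := ih (a * (H.K κ (b ^ 2 ^ i))⁻¹) (A.mul_mem ha (A.inv_mem (hBA hb'))) b hb (by
        rw [(hc _ ha _ (A.inv_mem (hBA hb'))).mul_pow, inv_pow, ← map_pow, ← pow_mul, mul_comm (2 ^ i), pow_mul, e,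
          e', hx, mul_inv_cancel]) h3
      simpa using B.mul_mem this hb'

/-- powers in an abelian subgroup -/
def pw {A : Subgroup P} (hc : ∀ a ∈ A, ∀ b ∈ A, Commute a b) (n : ℕ) : Subgroup P where
  carrier := {g | ∃ c ∈ A, g = c ^ n}
  mul_mem' := by
    rintro _ _ ⟨a, ha, rfl⟩ ⟨b, hb, rfl⟩
    exact ⟨a * b, A.mul_mem ha hb, ((hc a ha b hb).mul_pow n).symm⟩
  one_mem' := ⟨1, A.one_mem, (one_pow n).symm⟩
  inv_mem' := by
    rintro _ ⟨a, ha, rfl⟩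
    exact ⟨a⁻¹, A.inv_mem ha, (inv_pow a n).symm⟩

theorem Inv.exists_root {A : Subgroup P} (hc : ∀ a ∈ A, ∀ b ∈ A, Commute a b) (hA : H.Inv A) {i j : ℕ} {b : P}
    (hb : b ∈ A) (hb' : b ^ 2 ^ (i + j) ≠ 1) {a : P} (ha : a ∈ A) (h : a ^ 2 ^ (j + 1) = 1) :
    ∃ c ∈ A, a = c ^ 2 ^ i := by
  refine Inv.mem_of_pow (H := H) (B := pw hc (2 ^ i)) hc ?_ ?_ j a ha (b ^ 2 ^ i) ⟨b, hb, rfl⟩ h
    (by rwa [← pow_mul, ← pow_add])
  · rintro κ _ ⟨c, hc', rfl⟩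
    exact ⟨_, hA κ c hc', map_pow _ _ _⟩
  · rintro _ ⟨c, hc', rfl⟩
    exact A.pow_mem hc' _

theorem exists_exp (H : Hg P F Γ) {S : Set P} {g : P} (hg : g ∈ S) (h1 : g ≠ 1) :
    ∃ m, (∀ a ∈ S, a ^ 2 ^ (m + 1) = 1) ∧ ∃ a ∈ S, a ^ 2 ^ m ≠ 1 := by
  classical
  have := Fact.mk Nat.prime_two
  obtain ⟨k, hk⟩ := IsPGroup.iff_card.mp H.two
  have h : ∃ n, ∀ a ∈ S, a ^ 2 ^ n = 1 := ⟨k, fun a _ => by rw [← hk, pow_card_eq_one']⟩
  obtain ⟨j, hj⟩ : ∃ j, Nat.find h = j + 1 := Nat.exists_eq_succ_of_ne_zero fun e => h1 (by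
    have := Nat.find_spec h g hg
    rwa [e, pow_zero, pow_one] at this)
  have h2 := Nat.find_min h (m := j) (by omega)
  push Not at h2
  exact ⟨j, hj ▸ Nat.find_spec h, h2⟩

end Hg

end Cfsg.Agent.SpcHg
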