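import Mathlib
import Cfsg.Agent.Spc.HgA

set_option autoImplicit false
set_option linter.unusedSectionVars false

/-! Higman's theorem for a general transitive group of automorphisms, part 2. -/

namespace Cfsg.Agent.SpcHg

open scoped commutatorElement
open Cfsg.Agent.RankOne

/-- An invariant family of commuting idempotents consists of scalars. -/
theorem idem_scalar' {P F Γ : Type*} [Group P] [Finite P] [Field F] [Finite F] [CharP F 2] [Group Γ] {C : Subgroup P}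
    (K : Γ →* MulAut P) (ρ : Γ → F ≃+ F) (htr : ∀ x ≠ 0, ∀ y ≠ 0, ∃ κ, ρ κ x = y)
    (hK : ∀ κ, ∀ u ∈ C, K κ u ∈ C) (T : P → F →+ F) (hT : ∀ u ∈ C, ∀ v ∈ C, T (u * v) = T u + T v)
    (hi : ∀ u ∈ C, ∀ x, T u (T u x) = T u x) (he : ∀ κ, ∀ u ∈ C, ∀ x, T (K κ u) (ρ κ x) = ρ κ (T u x)) :
    ∀ u ∈ C, T u = 0 ∨ T u = AddMonoidHom.id F := by
  classical
  have two : (2 : F) = 0 := CharTwo.two_eq_zero
  have hc : ∀ u ∈ C, ∀ v ∈ C, ∀ x, T u (T v x) = T v (T u x) := fun u hu v hv x => by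
    have e := hi (u * v) (C.mul_mem hu hv) x
    rw [hT u hu v hv] at e
    simp only [AddMonoidHom.add_apply, map_add, hi u hu, hi v hv] at e
    linear_combination e - T v (T u x) * two
  let S : F → Set P := fun x => {u | u ∈ C ∧ (T u x = 0 ∨ T u x = x)}
  obtain ⟨x, hx, hmax⟩ := Set.exists_max_image {x : F | x ≠ 0} (fun x => (S x).ncard) (Set.toFinite _) ⟨1, one_ne_zero⟩
  have h1 : ∀ u ∈ C, T u x = 0 ∨ T u x = x := fun v hv => by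
    by_contra hn
    have h2 : T v x ≠ 0 := fun e => hn (Or.inl e)
    refine (hmax _ h2).not_gt (Set.ncard_lt_ncard ⟨fun u hu => ⟨hu.1, ?_⟩, fun h => hn (h ⟨hv, Or.inr (hi v hv x)⟩).2⟩)
    rw [hc u hu.1 v hv]
    rcases hu.2 with e | e <;> rw [e]
    · exact Or.inl (map_zero _)
    · exact Or.inr rfl
  intro u hu
  refine FQ.or_of_forall_or fun y => ?_
  by_cases hy : y = 0
  · simp [hy]
  obtain ⟨κ, e2⟩ := htr x hx y hy
  have e := he κ (K κ⁻¹ u) (hK _ u hu) x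
  rw [map_inv, MulAut.apply_inv_self, e2, ← map_inv] at e
  rcases h1 _ (hK κ⁻¹ u hu) with h | h <;> rw [h] at e
  · exact Or.inl (by simpa using e)
  · exact Or.inr (e.trans e2)

namespace Hg

variable {P F Γ : Type*} [Group P] [Finite P] [Field F] [Fintype F] [CharP F 2] [Group Γ] (H : Hg P F Γ)

/-- A normal invariant abelian subgroup of exponent `2 ^ (m + 1)`. -/
structure Ab (A : Subgroup P) (m : ℕ) : Prop where
  comm : ∀ a ∈ A, ∀ b ∈ A, Commute a b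
  norm : ∀ g, ∀ a ∈ A, g * a * g⁻¹ ∈ A
  inv : H.Inv A
  exp : ∀ a ∈ A, a ^ 2 ^ (m + 1) = 1
  exp' : ∃ a ∈ A, a ^ 2 ^ m ≠ 1

/-- the coordinate on `A / A²`. -/
noncomputable def α (m : ℕ) (a : P) : F := H.lg (a ^ 2 ^ m)

theorem sq_pow {a : P} {j : ℕ} (h : a ^ 2 ^ (j + 1) = 1) : a ^ 2 ^ j * a ^ 2 ^ j = 1 := by
  rw [← sq, ← pow_mul, ← pow_succ, h]

variable {H} {A : Subgroup P} {m : ℕ}

theorem ker_of_eigen {C : Subgroup P} (hC : H.Inv C) (hAC : A ≤ C)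
    (hmin : ∀ D, H.Inv D → A ≤ D → D ≤ C → D = A ∨ D = C) {φ : P → F}
    (hadd : ∀ u ∈ C, ∀ v ∈ C, φ (u * v) = φ u + φ v) (h0 : ∀ a ∈ A, φ a = 0)
    (hK : ∀ κ, ∀ u ∈ C, φ (H.K κ u) = H.ρ κ (φ u)) {w : P} (hw : w ∈ C) (hw0 : φ w ≠ 0) :
    ∀ u ∈ C, φ u = 0 ↔ u ∈ A := by
  have hker : addKer hadd = A := (hmin (addKer hadd)
    (fun κ u hu => ⟨hC κ u hu.1, by rw [hK κ u hu.1, hu.2, map_zero]⟩)
    (fun a ha => ⟨hAC ha, h0 a ha⟩) fun u hu => hu.1).resolve_right fun e => hw0 (e.ge hw).2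
  intro u hu
  rw [← hker, mem_addKer]
  simp [hu]

namespace Ab

variable (h : H.Ab A m)
include h

theorem comm_mem (u : P) {a : P} (ha : a ∈ A) : ⁅u, a⁆ ∈ A := A.mul_mem (h.norm u a ha) (A.inv_mem ha)

theorem mul_pow {a b : P} (ha : a ∈ A) (hb : b ∈ A) (n : ℕ) : (a * b) ^ n = a ^ n * b ^ n :=
  (h.comm a ha b hb).mul_pow n

theorem comm_pow (u : P) {a : P} (ha : a ∈ A) (n : ℕ) : ⁅u, a ^ n⁆ = ⁅u, a⁆ ^ n := by
  rw [commutatorElement_def, commutatorElement_def, h.mul_pow (h.norm u a ha) (A.inv_mem ha), conj_pow, inv_pow]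

theorem comm_mul (u : P) {a b : P} (ha : a ∈ A) (hb : b ∈ A) : ⁅u, a * b⁆ = ⁅u, a⁆ * ⁅u, b⁆ := by
  have := (h.comm _ (A.inv_mem ha) _ (h.comm_mem u hb)).eq
  calc ⁅u, a * b⁆ = u * a * u⁻¹ * (⁅u, b⁆ * a⁻¹) := by simp only [commutatorElement_def]; group
    _ = _ := by rw [← this]; simp only [commutatorElement_def]; group

theorem comm_pow_eq_one (u : P) {a : P} (ha : a ∈ A) {j : ℕ} (e : a ^ 2 ^ (j + 1) = 1) : ⁅u, a⁆ ^ 2 ^ j = 1 := by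
  rw [← h.comm_pow u ha, commutatorElement_def, H.conj_of_sq (sq_pow e), mul_inv_cancel]

theorem Z_le : H.Z ≤ A := by
  obtain ⟨a, ha, e⟩ := h.exp'
  exact h.inv.Z_le ha (by rintro rfl; simp at e)

theorem root {i j : ℕ} (hij : i + j = m + 1) {a : P} (ha : a ∈ A) (e : a ^ 2 ^ j = 1) : ∃ c ∈ A, a = c ^ 2 ^ i := by
  cases j with
  | zero => exact ⟨1, A.one_mem, by simpa using e⟩
  | succ j =>
    obtain ⟨b, hb, e'⟩ := h.exp'
    exact h.inv.exists_root h.comm hb (by rwa [show i + j = m by omega]) ha e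

theorem root_sq {a : P} (ha : a ∈ A) (e : a ^ 2 ^ m = 1) : ∃ c ∈ A, a = c * c := by
  simpa [sq] using h.root (i := 1) (by omega) ha e

theorem ι_α {a : P} (ha : a ∈ A) : H.ι (H.α m a) = a ^ 2 ^ m := H.ι_lg (sq_pow (h.exp a ha))

theorem α_mul {a b : P} (ha : a ∈ A) (hb : b ∈ A) : H.α m (a * b) = H.α m a + H.α m b := by
  rw [α, h.mul_pow ha hb, H.lg_mul (sq_pow (h.exp a ha)) (sq_pow (h.exp b hb))]; rfl

theorem α_eq_zero {a : P} (ha : a ∈ A) : H.α m a = 0 ↔ a ^ 2 ^ m = 1 := H.lg_eq_zero (sq_pow (h.exp a ha))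

theorem α_K {a : P} (ha : a ∈ A) (κ : Γ) : H.α m (H.K κ a) = H.ρ κ (H.α m a) := by
  rw [α, ← map_pow, H.lg_K (sq_pow (h.exp a ha))]; rfl

theorem α_comm (u : P) {a : P} (ha : a ∈ A) : H.α m ⁅u, a⁆ = 0 :=
  (h.α_eq_zero (h.comm_mem u ha)).mpr (h.comm_pow_eq_one u ha (h.exp a ha))

theorem α_inv {a : P} (ha : a ∈ A) : H.α m a⁻¹ = H.α m a := by
  rw [addOn_inv (fun _ hu _ hv => h.α_mul hu hv) ha, CharTwo.neg_eq]

theorem coord : Coord A (addKer fun _ hu _ hv => h.α_mul hu hv) (H.α m) := by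
  refine ⟨fun _ hu => hu.1, fun _ hu _ hv => h.α_mul hu hv, fun u hu => by simp [mem_addKer, hu], fun x => ?_⟩
  obtain ⟨a, ha, e⟩ := h.exp'
  rw [Ne, ← h.α_eq_zero ha] at e
  by_cases hx : x = 0
  · exact ⟨1, A.one_mem, by rw [hx]; exact addOn_one fun _ hu _ hv => h.α_mul hu hv⟩
  · obtain ⟨κ, e'⟩ := H.trans _ e x hx
    exact ⟨_, h.inv κ a ha, by rw [h.α_K ha, e']⟩

/-- Higman's Lemma 2. -/
theorem mem_of_sq {u c : P} (hc : c ∈ A) (hu : u * u = c * c) (h4 : ∀ a ∈ A, ∃ d ∈ A, ⁅u, a⁆ = d ^ 2 ^ 2) :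
    u ∈ A := by
  have hm : ∀ a ∈ A, ∀ b ∈ A, u * (a * b) * u⁻¹ * (a * b) = u * a * u⁻¹ * a * (u * b * u⁻¹ * b) := fun a ha b hb => by
    have := (h.comm _ ha _ (h.norm u b hb)).eq
    calc u * (a * b) * u⁻¹ * (a * b) = u * a * u⁻¹ * (u * b * u⁻¹ * a) * b := by group
      _ = _ := by rw [← this]; group
  have key : ∀ k i, i + k = m → ∀ a ∈ A, ∃ b ∈ A, u * b * u⁻¹ * b = a ^ 2 ^ (i + 1) := by
    intro k
    induction k with
    | zero => exact fun i hi a ha => ⟨1, A.one_mem, by rw [show i = m by omega, h.exp a ha]; simp⟩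
    | succ k ih =>
      intro i hi a ha
      obtain ⟨d, hd, e⟩ := h4 a ha
      obtain ⟨b, hb, e'⟩ := ih (i + 1) (by omega) d⁻¹ (A.inv_mem hd)
      refine ⟨a ^ 2 ^ i * b, A.mul_mem (A.pow_mem ha _) hb, ?_⟩
      have e2 : u * a ^ 2 ^ i * u⁻¹ * a ^ 2 ^ i = d ^ 2 ^ (i + 1 + 1) * a ^ 2 ^ (i + 1) := by
        rw [show u * a ^ 2 ^ i * u⁻¹ * a ^ 2 ^ i = ⁅u, a ^ 2 ^ i⁆ * (a ^ 2 ^ i * a ^ 2 ^ i) by
          simp only [commutatorElement_def]; group, h.comm_pow u ha, e, ← pow_mul, ← pow_add, ← pow_add]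
        congr 2 <;> ring
      rw [hm _ (A.pow_mem ha _) _ hb, e', e2, (h.comm _ (A.pow_mem hd _) _ (A.pow_mem ha _)).eq, inv_pow,
        mul_inv_cancel_right]
  obtain ⟨b, hb, e⟩ := key m 0 (by omega) c hc
  have : b * u⁻¹ ∈ A := h.Z_le (H.mem_Z.mpr (by
    rw [show b * u⁻¹ * (b * u⁻¹) = u⁻¹ * (u * b * u⁻¹ * b) * u⁻¹ by group, e, zero_add, pow_one, sq, ← hu]; group))
  simpa using A.mul_mem (A.inv_mem this) hb

/-- the action of `P` on `A`, seen as maps `A / A² → A² / A⁴`. -/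
theorem exists_T {k : ℕ} (hk : m = k + 1) : ∃ T : P → F →+ F,
    (∀ u, ∀ a ∈ A, H.ι (T u (H.α m a)) = ⁅u, a⁆ ^ 2 ^ k) ∧ (∀ u v, T (u * v) = T u + T v) ∧
      ∀ κ u x, T (H.K κ u) (H.ρ κ x) = H.ρ κ (T u x) := by
  subst hk
  have hs : ∀ u, ∀ a ∈ A, ⁅u, a⁆ ^ 2 ^ k * ⁅u, a⁆ ^ 2 ^ k = 1 := fun u a ha =>
    sq_pow (h.comm_pow_eq_one u ha (h.exp a ha))
  have h1 : ∀ u, ∃ g : F →+ F, ∀ a ∈ A, g (H.α (k + 1) a) = H.lg (⁅u, a⁆ ^ 2 ^ k) := fun u =>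
    h.coord.descend (fun a ha b hb => by
      rw [h.comm_mul u ha hb, h.mul_pow (h.comm_mem u ha) (h.comm_mem u hb), H.lg_mul (hs u a ha) (hs u b hb)])
      (fun a ha => by
        rw [h.comm_pow_eq_one u ha.1 ((h.α_eq_zero ha.1).mp ha.2), H.lg_one])
  choose T hT using h1
  refine ⟨T, fun u a ha => by rw [hT u a ha, H.ι_lg (hs u a ha)], fun u v => ?_, fun κ u x => ?_⟩
  · ext x
    obtain ⟨a, ha, rfl⟩ := h.coord.surj x
    have hv := h.comm_mem v ha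
    rw [AddMonoidHom.add_apply, hT _ a ha, hT _ a ha, hT _ a ha, comm_mul_left,
      h.mul_pow (A.mul_mem (h.comm_mem u hv) hv) (h.comm_mem u ha), h.mul_pow (h.comm_mem u hv) hv,
      h.comm_pow_eq_one u hv (h.comm_pow_eq_one v ha (h.exp a ha)), one_mul, H.lg_mul (hs v a ha) (hs u a ha),
      add_comm]
  · obtain ⟨a, ha, rfl⟩ := h.coord.surj x
    rw [← h.α_K ha, hT _ _ (h.inv κ a ha), hT _ _ ha, ← map_commutatorElement, ← map_pow, H.lg_K (hs u a ha)]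

/-- If the exponent is at least eight, a subgroup with squares in `A` acts trivially on `A / A⁴`. -/
theorem comm_pow_of_eight {k : ℕ} (hk : m = k + 2) {C : Subgroup P} (hC : H.Inv C) (h2 : ∀ u ∈ C, u * u ∈ A) :
    ∀ u ∈ C, ∀ a ∈ A, ⁅u, a⁆ ^ 2 ^ (k + 1) = 1 := by
  obtain ⟨T, hT1, hT2, hT3⟩ := h.exists_T (k := k + 1) hk
  have hi : ∀ u ∈ C, ∀ x, T u (T u x) = T u x := fun u hu x => by
    obtain ⟨a, ha, rfl⟩ := h.coord.surj x
    obtain ⟨d, hd, e⟩ := h.root_sq (h.comm_mem u ha) (h.comm_pow_eq_one u ha (h.exp a ha))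
    have e1 : T u (H.α m a) = H.α m d := H.ι_inj (by
      rw [hT1 u a ha, h.ι_α hd, e, ← sq, ← pow_mul, hk]; congr 1; ring)
    have e2 : ⁅u * u, a⁆ = 1 := (h.comm _ (h2 u hu) _ ha).commutator_eq
    rw [comm_mul_left, e, h.comm_mul u hd hd] at e2
    have e3 := congrArg (· ^ 2 ^ k) e2
    have hd' := h.comm_mem u hd
    simp only [one_pow] at e3
    rw [show ⁅u, d⁆ * ⁅u, d⁆ * (d * d) * (d * d) = ⁅u, d⁆ ^ 2 * d ^ 2 ^ 2 by
      rw [show (2 : ℕ) ^ 2 = 4 by norm_num]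
      simp only [pow_succ, pow_zero, one_mul, mul_assoc], h.mul_pow (A.pow_mem hd' _) (A.pow_mem hd _),
      ← pow_mul, ← pow_mul, ← pow_succ', ← pow_add, ← hT1 u d hd, add_comm 2 k, ← hk, ← h.ι_α hd, ← H.ι_add,
      H.ι_eq_one] at e3
    rw [e1]
    exact CharTwo.add_eq_zero.mp e3
  have hs := idem_scalar' H.K H.ρ H.trans hC T (fun u _ v _ => hT2 u v) hi (fun κ u _ x => hT3 κ u x)
  have hinv : H.Inv (addKer (C := C) (φ := T) fun u _ v _ => hT2 u v) := fun κ u hu => ⟨hC κ u hu.1, by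
    ext x
    have := hT3 κ u ((H.ρ κ).symm x)
    rw [hu.2] at this
    simpa using this⟩
  have hle := hinv.le_of_mul_mem hC (fun u hu => hu.1) fun u hu v hv hu' hv' => ⟨C.mul_mem hu hv, by
    rw [hT2, (hs u hu).resolve_left fun e => hu' ⟨hu, e⟩, (hs v hv).resolve_left fun e => hv' ⟨hv, e⟩]
    ext x
    exact CharTwo.add_self_eq_zero x⟩
  intro u hu a ha
  rw [← hT1 u a ha, (hle hu).2, AddMonoidHom.zero_apply, H.ι_zero]

theorem comm_pow_of_act {k : ℕ} {C : Subgroup P} (h2 : ∀ u ∈ C, u * u ∈ A) (h3 : ∀ u ∈ C, ∀ v ∈ C, ⁅u, v⁆ ∈ A)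
    (h4 : ∀ u ∈ C, ∀ a ∈ A, ⁅u, a⁆ ^ 2 ^ k = 1) : ∀ u ∈ C, ∀ v ∈ C, ⁅u, v⁆ ^ 2 ^ (k + 1) = 1 := by
  intro u hu v hv
  have e1 : ⁅u * u, v⁆ ^ 2 ^ k = 1 := by rw [← commutatorElement_inv, inv_pow, h4 v hv _ (h2 u hu), inv_one]
  have h5 := h3 u hu v hv
  rw [comm_mul_left, mul_assoc, h.mul_pow (h.comm_mem u h5) (A.mul_mem h5 h5), h4 u hu _ h5, one_mul, ← sq,
    ← pow_mul, ← pow_succ'] at e1
  exact e1

/-- If `C / A²` is abelian and not elementary and `C / A` is irreducible, then `C` is abelian. -/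
theorem comm_of_sq {C : Subgroup P} (hC : H.Inv C) (hAC : A ≤ C) (h2 : ∀ u ∈ C, u * u ∈ A)
    (h3 : ∀ u ∈ C, ∀ v ∈ C, ⁅u, v⁆ ∈ A) (hmin : ∀ D, H.Inv D → A ≤ D → D ≤ C → D = A ∨ D = C)
    (h4 : ∀ u ∈ C, ∀ v ∈ C, ⁅u, v⁆ ^ 2 ^ m = 1) {w : P} (hw : w ∈ C) (hw' : (w * w) ^ 2 ^ m ≠ 1) :
    ∀ u ∈ C, ∀ v ∈ C, Commute u v := by
  let φ : P → F := fun u => H.α m (u * u)
  have hadd : ∀ u ∈ C, ∀ v ∈ C, φ (u * v) = φ u + φ v := fun u hu v hv => by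
    have a1 := h3 u hu v hv
    have a2 := h.comm_mem v (h2 u hu)
    simp only [φ]
    rw [mul_sq_eq, h.α_mul (A.mul_mem (A.mul_mem a1 a2) (h2 u hu)) (h2 v hv), h.α_mul (A.mul_mem a1 a2) (h2 u hu),
      h.α_mul a1 a2, h.α_comm v (h2 u hu), (h.α_eq_zero a1).mpr (h4 u hu v hv), add_zero, zero_add]
  have hK : ∀ κ, ∀ u ∈ C, φ (H.K κ u) = H.ρ κ (φ u) := fun κ u hu => by
    simp only [φ]
    rw [← map_mul, h.α_K (h2 u hu)]
  have hw0 : φ w ≠ 0 := fun e => hw' ((h.α_eq_zero (h2 w hw)).mp e)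
  have hker := ker_of_eigen hC hAC hmin hadd (fun a ha => by
    simp only [φ]; rw [h.α_mul ha ha, CharTwo.add_self_eq_zero]) hK hw hw0
  have hφ : Coord C A φ := ⟨hAC, hadd, hker, fun x => by
    by_cases hx : x = 0
    · exact ⟨1, C.one_mem, by rw [hx]; exact addOn_one hadd⟩
    · obtain ⟨κ, e'⟩ := H.trans _ hw0 x hx
      exact ⟨_, hC κ w hw, by rw [hK _ _ hw, e']⟩⟩
  by_contra hn
  push Not at hn
  obtain ⟨u₀, hu₀, v₀, hv₀, hn⟩ := hn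
  obtain ⟨i, hi1, _, ⟨u₁, hu₁, v₁, hv₁, rfl⟩, hi2⟩ := H.exists_exp (S := {g | ∃ u ∈ C, ∃ v ∈ C, g = ⁅u, v⁆})
    ⟨u₀, hu₀, v₀, hv₀, rfl⟩ fun e => hn (commutatorElement_eq_one_iff_commute.mp e)
  have hi : ∀ u ∈ C, ∀ v ∈ C, ⁅u, v⁆ ^ 2 ^ (i + 1) = 1 := fun u hu v hv => hi1 _ ⟨u, hu, v, hv, rfl⟩
  let f : P → P → F := fun u v => H.lg (⁅u, v⁆ ^ 2 ^ i)
  have f1 : ∀ u ∈ C, ∀ v ∈ C, ∀ w ∈ C, f (u * v) w = f u w + f v w := fun u hu v hv w hw => by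
    have a1 := h3 v hv w hw
    simp only [f]
    rw [comm_mul_left, h.mul_pow (A.mul_mem (h.comm_mem u a1) a1) (h3 u hu w hw), h.mul_pow (h.comm_mem u a1) a1,
      h.comm_pow_eq_one u a1 (hi v hv w hw), one_mul, H.lg_mul (sq_pow (hi v hv w hw)) (sq_pow (hi u hu w hw)),
      add_comm]
  have f2 : ∀ u ∈ C, ∀ v ∈ C, f u v = f v u := fun u hu v hv => by
    simp only [f]
    rw [← commutatorElement_inv, inv_pow, H.lg_inv (sq_pow (hi v hv u hu))]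
  have f3 : ∀ a ∈ A, ∀ w ∈ C, f a w = 0 := fun a ha w hw => by
    obtain ⟨u, hu, e⟩ := hφ.surj (H.α m a)
    have a1 := A.mul_mem ha (A.inv_mem (h2 u hu))
    obtain ⟨c, hc, e'⟩ := h.root_sq a1 ((h.α_eq_zero a1).mp (by
      rw [h.α_mul ha (A.inv_mem (h2 u hu)), h.α_inv (h2 u hu), ← e, CharTwo.add_self_eq_zero]))
    rw [show a = c * c * (u * u) by rw [← e']; group, f1 _ (hAC (A.mul_mem hc hc)) _ (C.mul_mem hu hu) _ hw,
      f1 _ (hAC hc) _ (hAC hc) _ hw, f1 _ hu _ hu _ hw, CharTwo.add_self_eq_zero, CharTwo.add_self_eq_zero, add_zero]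
  obtain ⟨B, hB⟩ := hφ.descend₂ hφ f1 f3 (fun u hu v hv w hw => by
    rw [f2 u hu _ (C.mul_mem hv hw), f1 v hv w hw u hu, f2 v hv u hu, f2 w hw u hu])
    (fun u hu a ha => by rw [f2 u hu a (hAC ha), f3 a ha u hu])
  have hB0 := H.alt B (fun x => by
    obtain ⟨u, hu, rfl⟩ := hφ.surj x
    rw [hB u hu u hu]
    simp [f, H.lg_one]) (fun κ x y => by
    obtain ⟨u, hu, rfl⟩ := hφ.surj x
    obtain ⟨v, hv, rfl⟩ := hφ.surj y
    have e1 := hK κ u hu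
    have e2 := hK κ v hv
    rw [← e1, ← e2, hB _ (hC _ u hu) _ (hC _ v hv), hB u hu v hv]
    simp only [f]
    rw [← map_commutatorElement, ← map_pow, H.lg_K (sq_pow (hi u hu v hv))])
  have := hB u₁ hu₁ v₁ hv₁
  rw [hB0] at this
  exact hi2 ((H.lg_eq_zero (sq_pow (hi u₁ hu₁ v₁ hv₁))).mp this.symm)

end Ab

/-- A cover of `A`. -/
structure Cover (H : Hg P F Γ) (A C : Subgroup P) : Prop where
  inv : H.Inv C
  le : A ≤ C
  ne : ¬ C ≤ A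
  sq : ∀ u ∈ C, u * u ∈ A
  comm : ∀ g : P, ∀ u ∈ C, ⁅g, u⁆ ∈ A
  min : ∀ D, H.Inv D → A ≤ D → D ≤ C → D = A ∨ D = C

namespace Ab

variable (h : H.Ab A m)
include h

omit h in
theorem exists_W {C : Subgroup P} (hAC : A ≤ C) (T : P → F →+ F) (hT2 : ∀ u v, T (u * v) = T u + T v)
    (hTA : ∀ u ∈ C, T u = 0 ↔ u ∈ A) :
    ∃ V : AddSubgroup (F →+ F), (∀ t, t ∈ V ↔ ∃ u ∈ C, T u = t) ∧ A.relIndex C = Nat.card V := by
  let V : AddSubgroup (F →+ F) :=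
    { carrier := {t | ∃ u ∈ C, T u = t}
      add_mem' := by
        rintro _ _ ⟨u, hu, rfl⟩ ⟨v, hv, rfl⟩
        exact ⟨u * v, C.mul_mem hu hv, hT2 u v⟩
      zero_mem' := ⟨1, C.one_mem, (hTA 1 C.one_mem).mpr A.one_mem⟩
      neg_mem' := by
        rintro _ ⟨u, hu, rfl⟩
        exact ⟨u⁻¹, C.inv_mem hu, addOn_inv (C := ⊤) (fun u _ v _ => hT2 u v) trivial⟩ }
  classical
  have hV : Coord C A fun u => if hu : u ∈ C then (⟨T u, u, hu, rfl⟩ : V) else 0 :=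
    ⟨hAC, fun u hu v hv => by
      rw [dif_pos hu, dif_pos hv, dif_pos (C.mul_mem hu hv)]; exact Subtype.ext (hT2 u v),
      fun u hu => by rw [dif_pos hu, ← hTA u hu]; exact Subtype.ext_iff,
      fun ⟨_, u, hu, e⟩ => ⟨u, hu, by rw [dif_pos hu]; exact Subtype.ext e⟩⟩
  exact ⟨V, fun _ => Iff.rfl, hV.relIndex⟩

theorem comm_sq_of_four (hm : m = 1) {C : Subgroup P} (hC : H.Cover A C) : ∀ u ∈ C, ∀ v ∈ C, ⁅u, v⁆ ^ 2 ^ m = 1 := by
  have h3 : ∀ u ∈ C, ∀ v ∈ C, ⁅u, v⁆ ∈ A := fun u _ v hv => hC.comm u v hv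
  obtain ⟨T, hT1, hT2, hT3⟩ := h.exists_T (k := 0) hm
  by_cases h0 : ∀ u ∈ C, T u = 0
  · refine hm ▸ h.comm_pow_of_act (k := 0) hC.sq h3 fun u hu a ha => ?_
    rw [← hT1 u a ha, h0 u hu]
    exact H.ι_zero
  have hA0 : ∀ a ∈ A, T a = 0 := fun a ha => by
    ext x
    obtain ⟨b, hb, rfl⟩ := h.coord.surj x
    rw [AddMonoidHom.zero_apply, ← H.ι_eq_one, hT1 a b hb, (h.comm a ha b hb).commutator_eq, one_pow]
  have key : ∀ W' : AddSubgroup (F →+ F), (∀ κ, ∀ u ∈ C, T u ∈ W' → T (H.K κ u) ∈ W') →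
      (∀ u ∈ C, T u ∈ W' → u ∈ A) ∨ ∀ u ∈ C, T u ∈ W' := fun W' hW' => by
    let D : Subgroup P :=
      { carrier := {u | u ∈ C ∧ T u ∈ W'}
        mul_mem' := fun {a b} ha hb => ⟨C.mul_mem ha.1 hb.1, by rw [hT2]; exact W'.add_mem ha.2 hb.2⟩
        one_mem' := ⟨C.one_mem, by rw [hA0 1 A.one_mem]; exact W'.zero_mem⟩
        inv_mem' := fun {a} ha => ⟨C.inv_mem ha.1, by
          rw [addOn_inv (C := ⊤) (fun u _ v _ => hT2 u v) trivial]; exact W'.neg_mem ha.2⟩ }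
    rcases hC.min D (fun κ u hu => ⟨hC.inv κ u hu.1, hW' κ u hu.1 hu.2⟩)
      (fun a ha => ⟨hC.le ha, by rw [hA0 a ha]; exact W'.zero_mem⟩) (fun u hu => hu.1) with e | e
    · exact Or.inl fun u hu h' => e.le ⟨hu, h'⟩
    · exact Or.inr fun u hu => (e.ge hu).2
  have hTA : ∀ u ∈ C, T u = 0 ↔ u ∈ A := fun u hu => ⟨((key ⊥ fun κ u _ e => by
    rw [AddSubgroup.mem_bot] at e ⊢
    ext x
    have := hT3 κ u ((H.ρ κ).symm x)
    rw [e] at this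
    simpa using this).resolve_right h0) u hu, hA0 u⟩
  obtain ⟨V, hV1, hV2⟩ := exists_W hC.le T hT2 hTA
  have hinj := H.inj V (fun κ t ht => by
    obtain ⟨u, hu, rfl⟩ := (hV1 t).mp ht
    exact ⟨_, (hV1 _).mpr ⟨_, hC.inv κ u hu, rfl⟩, hT3 κ u⟩) (fun W' h1 h2 => by
    rcases key W' (fun κ u hu e => h2 κ _ e _ ((hV1 _).mpr ⟨_, hC.inv κ u hu, rfl⟩) (hT3 κ u)) with e | e
    · refine Or.inl (eq_bot_iff.mpr fun t ht => ?_)
      obtain ⟨u, hu, rfl⟩ := (hV1 t).mp (h1 ht)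
      exact hA0 u (e u hu ht)
    · refine Or.inr (le_antisymm h1 fun t ht => ?_)
      obtain ⟨u, hu, rfl⟩ := (hV1 t).mp ht
      exact e u hu) (by rw [← hV2]; exact h.inv.le_relIndex hC.inv hC.le hC.ne)
  have hσ : ∀ u ∈ C, H.α m (u * u) = 0 := fun u hu => by
    by_cases hu' : u ∈ A
    · rw [h.α_mul hu' hu', CharTwo.add_self_eq_zero]
    by_contra e
    refine hu' ((hTA u hu).mp (hinj _ ((hV1 _).mpr ⟨u, hu, rfl⟩) _ e ?_))
    rw [← H.ι_eq_one, hT1 u _ (hC.sq u hu), ((Commute.refl u).mul_right (Commute.refl u)).commutator_eq, one_pow]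
  intro u hu v hv
  have a1 := h3 u hu v hv
  have a2 := h.comm_mem v (hC.sq u hu)
  have e := hσ _ (C.mul_mem hu hv)
  rw [mul_sq_eq, h.α_mul (A.mul_mem (A.mul_mem a1 a2) (hC.sq u hu)) (hC.sq v hv),
    h.α_mul (A.mul_mem a1 a2) (hC.sq u hu), h.α_mul a1 a2, h.α_comm v (hC.sq u hu), hσ u hu, hσ v hv,
    add_zero, add_zero, add_zero] at e
  exact (h.α_eq_zero a1).mp e

/-- The structure of a nonabelian cover. -/
theorem cover {C : Subgroup P} (hC : H.Cover A C) (hn : ¬ ∀ u ∈ C, ∀ v ∈ C, Commute u v) :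
    m ≤ 1 ∧ ∀ u ∈ C, u * u ∈ H.Z := by
  have h3 : ∀ u ∈ C, ∀ v ∈ C, ⁅u, v⁆ ∈ A := fun u _ v hv => hC.comm u v hv
  have key : (∀ u ∈ C, ∀ v ∈ C, ⁅u, v⁆ ^ 2 ^ m = 1) → ∀ u ∈ C, (u * u) ^ 2 ^ m = 1 := fun h4 u hu => by
    by_contra e
    exact hn (h.comm_of_sq hC.inv hC.le hC.sq h3 hC.min h4 hu e)
  rcases m with _ | _ | k
  · exact ⟨by omega, fun u hu => H.mem_Z.mpr (by simpa [sq] using h.exp _ (hC.sq u hu))⟩
  · exact ⟨le_rfl, fun u hu => H.mem_Z.mpr (by simpa [sq] using key (h.comm_sq_of_four rfl hC) u hu)⟩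
  · exfalso
    have h4 := h.comm_pow_of_eight (k := k) rfl hC.inv hC.sq
    refine hC.ne fun u hu => ?_
    obtain ⟨c, hc, e⟩ := h.root_sq (hC.sq u hu) (key (h.comm_pow_of_act hC.sq h3 h4) u hu)
    exact h.mem_of_sq hc e fun a ha => h.root (by omega) (h.comm_mem u ha) (h4 u hu a ha)

end Ab

end Hg

end Cfsg.Agent.SpcHg
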