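import Mathlib
import Cfsg.Agent.Spc.HgB

set_option autoImplicit false
set_option linter.unusedSectionVars false

/-! Higman's theorem for a general transitive group of automorphisms, part 3. -/

namespace Cfsg.Agent.SpcHg

open scoped commutatorElement
open Cfsg.Agent.RankOne

/-- A counting lemma on invariant spaces of additive maps all of which have nonzero fixed vectors. -/
theorem fix_count' {F Γ : Type*} [Field F] [Fintype F] [CharP F 2] (V : AddSubgroup (F →+ F))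
    (ρ : Γ → F ≃+ F) (htr : ∀ x ≠ 0, ∀ y ≠ 0, ∃ κ, ρ κ x = y)
    (hK : ∀ κ : Γ, ∀ t ∈ V, ∃ t' ∈ V, ∀ x, t' (ρ κ x) = ρ κ (t x)) (hfix : ∀ t ∈ V, t ≠ 0 → ∃ x ≠ 0, t x = x)
    (hq : Fintype.card F ≤ Nat.card V) :
    (∀ t ∈ V, ∀ x ≠ 0, t x = 0 → t = 0) ∧ Nat.card V = Fintype.card F ∧
      ∀ t ∈ V, ∀ x ≠ 0, ∀ y ≠ 0, t x = x → t y = y → x = y := by
  classical
  have : Finite (F →+ F) := DFunLike.finite _
  have := Fintype.ofFinite (F →+ F)
  have h2 : ∀ t : F →+ F, t + t = 0 := fun t => by ext x; exact CharTwo.add_self_eq_zero _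
  have hq2 : 1 < Fintype.card F := Fintype.one_lt_card
  let V' : Finset (F →+ F) := Finset.univ.filter (· ∈ V)
  have hV' : V'.card = Nat.card V := by
    rw [Nat.card_eq_fintype_card, Fintype.card_subtype]
  let F' : Finset F := Finset.univ.erase 0
  let W : F → Finset (F →+ F) := fun x => V'.filter fun t => t x = x
  let X : (F →+ F) → Finset F := fun t => F'.filter fun x => t x = x
  have hsum : ∑ x ∈ F', (W x).card = ∑ t ∈ V', (X t).card := by
    simp only [W, X, Finset.card_filter]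
    exact Finset.sum_comm
  have hle : ∀ x ≠ 0, ∀ y ≠ 0, (W x).card ≤ (W y).card := fun x hx y hy => by
    obtain ⟨κ, e⟩ := htr x hx y hy
    choose! f hf1 hf2 using hK κ
    refine Finset.card_le_card_of_injOn f (fun t ht => ?_) fun t ht t' ht' e' => ?_
    · simp only [W, V', Finset.coe_filter, Finset.mem_filter, Finset.mem_univ, true_and, Set.mem_setOf_eq] at ht ⊢
      exact ⟨hf1 t ht.1, by rw [← e, hf2 t ht.1, ht.2]⟩
    · simp only [W, V', Finset.coe_filter, Finset.mem_filter, Finset.mem_univ, true_and, Set.mem_setOf_eq] at ht ht'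
      ext z
      exact (ρ κ).injective (by rw [← hf2 t ht.1, e', hf2 t' ht'.1])
  have hW : ∀ x ∈ F', (W x).card = (W 1).card := fun x hx =>
    le_antisymm (hle x (Finset.ne_of_mem_erase hx) 1 one_ne_zero) (hle 1 one_ne_zero x (Finset.ne_of_mem_erase hx))
  have hF' : F'.card = Fintype.card F - 1 := by simp [F']
  rw [Finset.sum_congr rfl hW, Finset.sum_const, hF', smul_eq_mul, ← Finset.sum_erase (a := 0) V' (by
    simp only [X, F', Finset.card_eq_zero, Finset.filter_eq_empty_iff]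
    exact fun x hx e => Finset.ne_of_mem_erase hx (by simpa using e.symm))] at hsum
  have hodd : ∀ t ∈ V'.erase 0, Odd (X t).card := fun t ht => by
    obtain ⟨x, hx, e⟩ := hfix t (by simpa [V'] using Finset.mem_of_mem_erase ht) (Finset.ne_of_mem_erase ht)
    have h1 := even_card_addSubgroup (N := (t - AddMonoidHom.id F).ker) CharTwo.add_self_eq_zero
      (show x ∈ _ by simp [AddMonoidHom.mem_ker, e]) hx
    have h3 : Nat.card (t - AddMonoidHom.id F).ker = (X t).card + 1 := by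
      rw [Nat.card_eq_fintype_card, Fintype.card_subtype, ← Finset.card_insert_of_notMem (a := 0) (by simp [X, F'])]
      congr 1
      ext y
      by_cases hy : y = 0 <;> simp [X, F', hy, sub_eq_zero]
    rw [h3] at h1
    exact Nat.not_even_iff_odd.mp (Nat.even_add_one.mp h1)
  have h0V : (0 : F →+ F) ∈ V' := by simp [V']
  have hVe : (V'.erase 0).card = Nat.card V - 1 := by rw [Finset.card_erase_of_mem h0V, hV']
  obtain ⟨t₀, ht₀⟩ : (V'.erase 0).Nonempty := Finset.card_pos.mp (by omega)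
  have hVodd : Odd (V'.erase 0).card := by
    rw [hVe]
    exact Nat.Even.sub_odd (by omega) (even_card_addSubgroup h2 (by simpa [V'] using Finset.mem_of_mem_erase ht₀)
      (Finset.ne_of_mem_erase ht₀)) odd_one
  have hw : Odd (W 1).card := by
    refine Nat.Odd.of_mul_right (m := Fintype.card F - 1) ?_
    rw [hsum, Finset.odd_sum_iff_odd_card_odd, Finset.filter_true_of_mem hodd]
    exact hVodd
  have hi : ∀ t ∈ V, ∀ x ≠ 0, t x = 0 → t = 0 := fun t ht x hx e => by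
    by_contra h0
    rw [← hW x (by simp [F', hx])] at hw
    obtain ⟨t₁, ht₁⟩ : (W x).Nonempty := Finset.card_pos.mp hw.pos
    simp only [W, V', Finset.mem_filter, Finset.mem_univ, true_and] at ht₁
    have h1 := even_card_addSubgroup (N := V ⊓ (AddMonoidHom.eval x).ker) (t := t) h2
      (AddSubgroup.mem_inf.mpr ⟨ht, by rw [AddMonoidHom.mem_ker]; exact e⟩) h0
    have h3 : Nat.card ↥(V ⊓ (AddMonoidHom.eval x).ker) = (W x).card := by
      rw [Nat.card_eq_fintype_card, Fintype.card_subtype]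
      refine Finset.card_bij (fun s _ => s + t₁) (fun s hs => ?_) (fun _ _ _ _ h => add_right_cancel h) fun s hs => ?_
      · simp only [W, V', Finset.mem_filter, Finset.mem_univ, true_and] at hs ⊢
        exact ⟨V.add_mem hs.1 ht₁.1, by
          rw [AddMonoidHom.add_apply, ht₁.2, show s x = 0 from hs.2, zero_add]⟩
      · simp only [W, V', Finset.mem_filter, Finset.mem_univ, true_and] at hs
        refine ⟨s - t₁, ?_, sub_add_cancel _ _⟩
        simp only [Finset.mem_filter, Finset.mem_univ, true_and]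
        exact ⟨V.sub_mem hs.1 ht₁.1, show (s - t₁) x = 0 by rw [AddMonoidHom.sub_apply, hs.2, ht₁.2, sub_self]⟩
    exact Nat.not_even_iff_odd.mpr hw (h3 ▸ h1)
  have hinj : Function.Injective fun t : V => (t : F →+ F) 1 := fun t t' e =>
    Subtype.ext (sub_eq_zero.mp (hi _ (V.sub_mem t.2 t'.2) 1 one_ne_zero (sub_eq_zero.mpr e)))
  have hcard : Nat.card V = Fintype.card F :=
    le_antisymm (by simpa using Nat.card_le_card_of_injective _ hinj) hq
  have hw1 : (W 1).card ≤ 1 := Finset.card_le_one.mpr fun t ht t' ht' => by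
    simp only [W, V', Finset.mem_filter, Finset.mem_univ, true_and] at ht ht'
    exact congrArg Subtype.val (hinj (a₁ := ⟨t, ht.1⟩) (a₂ := ⟨t', ht'.1⟩) (ht.2.trans ht'.2.symm))
  refine ⟨hi, hcard, fun t ht x hx y hy e1 e2 => ?_⟩
  have ht' : t ∈ V'.erase 0 := by
    simp only [V', Finset.mem_erase, Finset.mem_filter, Finset.mem_univ, true_and]
    exact ⟨by rintro rfl; exact hx e1.symm, ht⟩
  have h1 : ∑ t ∈ V'.erase 0, 1 = ∑ t ∈ V'.erase 0, (X t).card := by
    rw [← hsum, Finset.sum_const, hVe, hcard, le_antisymm hw1 hw.pos, smul_eq_mul]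
  have h3 := (Finset.sum_eq_sum_iff_of_le fun t ht => (hodd t ht).pos).mp h1 t ht'
  exact Finset.card_le_one.mp h3.ge x (by simp [X, F', hx, e1]) y (by simp [X, F', hy, e2])

namespace Hg

variable {P F Γ : Type*} [Group P] [Finite P] [Field F] [Fintype F] [CharP F 2] [Group Γ] (H : Hg P F Γ)

include H in
theorem exists_central {A N : Subgroup P} (hA : ∀ g, ∀ a ∈ A, g * a * g⁻¹ ∈ A) (hN : ∀ g, ∀ a ∈ N, g * a * g⁻¹ ∈ N)
    (hne : ¬ N ≤ A) : ∃ u ∈ N, u ∉ A ∧ u * u ∈ A ∧ ∀ g : P, ⁅g, u⁆ ∈ A := by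
  have := Fact.mk Nat.prime_two
  have hAn : A.Normal := ⟨fun a ha g => hA g a ha⟩
  have hNn : N.Normal := ⟨fun a ha g => hN g a ha⟩
  have h2 : IsPGroup 2 (P ⧸ A) := H.two.to_quotient A
  have := h2.isNilpotent
  have h1 := inf_center_ne_bot (hNn.map (QuotientGroup.mk' A) (QuotientGroup.mk'_surjective A))
    (fun e => hne (by rwa [Subgroup.map_eq_bot_iff, QuotientGroup.ker_mk'] at e))
  obtain ⟨⟨x, ⟨v, hv, rfl⟩, hx⟩, hx1⟩ := (Subgroup.ne_bot_iff_exists_ne_one).mp h1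
  have hx1' : QuotientGroup.mk' A v ≠ 1 := fun e => hx1 (Subtype.ext e)
  classical
  have h := h2 (QuotientGroup.mk' A v)
  obtain ⟨j, hj⟩ : ∃ j, Nat.find h = j + 1 := Nat.exists_eq_succ_of_ne_zero fun e => hx1' (by
    have := Nat.find_spec h
    rwa [e, pow_zero, pow_one] at this)
  have e1 := Nat.find_spec h
  have e2 := Nat.find_min h (m := j) (by omega)
  rw [hj, pow_succ, pow_mul, sq] at e1
  refine ⟨v ^ 2 ^ j, N.pow_mem hv _, fun e => e2 ?_, ?_, fun g => ?_⟩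
  · rw [← map_pow]; exact (QuotientGroup.eq_one_iff _).mpr e
  · rw [← QuotientGroup.eq_one_iff]; exact e1
  · rw [← QuotientGroup.eq_one_iff]
    change QuotientGroup.mk' A _ = 1
    rw [map_commutatorElement, map_pow, commutatorElement_eq_one_iff_mul_comm]
    exact Subgroup.mem_center_iff.mp (Subgroup.pow_mem _ hx _) _

/-- The preimage of `Ω₁ Z (P / A)`. -/
def E {A : Subgroup P} (hA : ∀ g, ∀ a ∈ A, g * a * g⁻¹ ∈ A) : Subgroup P where
  carrier := {u | u * u ∈ A ∧ ∀ g : P, ⁅g, u⁆ ∈ A}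
  mul_mem' := fun {u v} hu hv => ⟨by
    rw [mul_sq_eq]
    exact A.mul_mem (A.mul_mem (A.mul_mem (hv.2 u) (A.mul_mem (hA v _ hu.1) (A.inv_mem hu.1))) hu.1) hv.1,
    fun g => by
      rw [show ⁅g, u * v⁆ = ⁅g, u⁆ * (u * ⁅g, v⁆ * u⁻¹) by simp only [commutatorElement_def]; group]
      exact A.mul_mem (hu.2 g) (hA u _ (hv.2 g))⟩
  one_mem' := ⟨by simp, fun g => by simp⟩
  inv_mem' := fun {u} hu => ⟨by rw [← mul_inv_rev]; exact A.inv_mem hu.1, fun g => by
    rw [show ⁅g, u⁻¹⁆ = u⁻¹ * ⁅g, u⁆⁻¹ * u⁻¹⁻¹ by simp only [commutatorElement_def]; group]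
    exact hA _ _ (A.inv_mem (hu.2 g))⟩

theorem exists_cover {A : Subgroup P} (hA : ∀ g, ∀ a ∈ A, g * a * g⁻¹ ∈ A) (hi : H.Inv A) (hne : A ≠ ⊤) :
    ∃ C, H.Cover A C := by
  obtain ⟨u, -, hu1, hu2⟩ := H.exists_central hA (N := ⊤) (fun _ _ _ => Subgroup.mem_top _)
    fun e => hne (top_le_iff.mp e)
  have hE : H.Inv (E hA) := fun κ v hv => ⟨by rw [← map_mul]; exact hi κ _ hv.1, fun g => by
    obtain ⟨g, rfl⟩ := (H.K κ).surjective g
    rw [← map_commutatorElement]; exact hi κ _ (hv.2 g)⟩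
  obtain ⟨C, ⟨h1, h2, h3, h4⟩, hmin⟩ := exists_minimal_of_wellFoundedLT
    (fun C : Subgroup P => H.Inv C ∧ A ≤ C ∧ ¬ C ≤ A ∧ C ≤ E hA)
    ⟨E hA, hE, fun a ha => ⟨A.mul_mem ha ha, fun g => A.mul_mem (hA g a ha) (A.inv_mem ha)⟩, fun e => hu1 (e hu2),
      le_rfl⟩
  refine ⟨C, h1, h2, h3, fun u hu => (h4 hu).1, fun g u hu => (h4 hu).2 g, fun D d1 d2 d3 => ?_⟩
  by_cases d4 : D ≤ A
  · exact Or.inl (le_antisymm d4 d2)
  · exact Or.inr (le_antisymm d3 (hmin ⟨d1, d2, d4, d3.trans h4⟩ d3))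

theorem norm_Z (g : P) : ∀ a ∈ H.Z, g * a * g⁻¹ ∈ H.Z := fun a ha => by rwa [H.conj_of_sq ha]

/-- A maximal normal invariant abelian subgroup above a given one. -/
theorem exists_max (hn : ¬ ∀ u v : P, Commute u v) {M : Subgroup P} (h1 : ∀ a ∈ M, ∀ b ∈ M, Commute a b)
    (h2 : ∀ g, ∀ a ∈ M, g * a * g⁻¹ ∈ M) (h3 : H.Inv M) (h4 : H.Z ≤ M) :
    ∃ A m C, M ≤ A ∧ H.Ab A m ∧ H.Cover A C ∧ m ≤ 1 ∧ ∀ u ∈ C, u * u ∈ H.Z := by
  obtain ⟨A, hMA, ⟨a1, a2, a3⟩, hmax⟩ := Finite.exists_le_maximal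
    (p := fun A : Subgroup P => (∀ a ∈ A, ∀ b ∈ A, Commute a b) ∧ (∀ g, ∀ a ∈ A, g * a * g⁻¹ ∈ A) ∧ H.Inv A)
    ⟨h1, h2, h3⟩
  obtain ⟨m, e1, e2⟩ := H.exists_exp (S := A) (hMA (h4 (H.ι_mem_Z 1))) H.ι_one_ne
  have h : H.Ab A m := ⟨a1, a2, a3, e1, e2⟩
  obtain ⟨C, hC⟩ := H.exists_cover a2 a3 (by rintro rfl; exact hn fun u v => a1 u trivial v trivial)
  exact ⟨A, m, C, hMA, h, hC, h.cover hC fun hc => hC.ne (hmax ⟨hc, fun g u hu => by
    rw [show g * u * g⁻¹ = ⁅g, u⁆ * u by simp only [commutatorElement_def]; group]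
    exact C.mul_mem (hC.le (hC.comm g u hu)) hu, hC.inv⟩ hC.le)⟩

theorem center_eq (hn : ¬ ∀ u v : P, Commute u v) : Subgroup.center P = H.Z := by
  refine le_antisymm ?_ H.Z_le_center
  obtain ⟨A, m, C, hMA, h, hC, hm, hsq⟩ := H.exists_max hn (M := Subgroup.center P)
    (fun a _ b hb => Subgroup.mem_center_iff.mp hb a)
    (fun g a ha => by rwa [Subgroup.mem_center_iff.mp ha g, mul_inv_cancel_right]) H.inv_center H.Z_le_center
  intro z hz
  by_contra hz'
  rcases m with _ | _ | m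
  · exact hz' (H.mem_Z.mpr (by simpa [sq] using h.exp z (hMA hz)))
  · refine hC.ne fun u hu => ?_
    obtain ⟨c, hc, e⟩ := h.root_sq (h.Z_le (hsq u hu)) (by simpa [sq] using H.mem_Z.mp (hsq u hu))
    refine h.mem_of_sq hc e fun a ha => ⟨1, A.one_mem, ?_⟩
    have := H.inv_center.mem_of_pow h.comm hMA 1 a ha z hz (h.exp a ha)
      (fun e => hz' (H.mem_Z.mpr (by simpa [sq] using e)))
    rw [one_pow, commutatorElement_eq_one_iff_mul_comm]
    exact Subgroup.mem_center_iff.mp this u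
  · omega

/-- restriction to an invariant subgroup -/
noncomputable def restrict {M : Subgroup P} (hM : H.Inv M) (hZ : H.Z ≤ M) : Hg M F Γ where
  K :=
    { toFun := fun κ =>
        { toFun := fun g => ⟨H.K κ g, hM κ g g.2⟩
          invFun := fun g => ⟨H.K κ⁻¹ g, hM κ⁻¹ g g.2⟩
          left_inv := fun g => Subtype.ext (by simp)
          right_inv := fun g => Subtype.ext (by simp)
          map_mul' := fun g g' => Subtype.ext (by simp) }
      map_one' := by ext g; simp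
      map_mul' := fun κ μ => by ext g; simp }
  ρ := H.ρ
  ι := fun x => ⟨H.ι x, hZ (H.ι_mem_Z x)⟩
  ι_add := fun x y => Subtype.ext (H.ι_add x y)
  ι_inj := fun _ _ e => H.ι_inj (congrArg Subtype.val e)
  K_ι := fun κ x => Subtype.ext (H.K_ι κ x)
  of_sq := fun g hg => by
    obtain ⟨x, hx⟩ := H.of_sq g (congrArg Subtype.val hg)
    exact ⟨x, Subtype.ext hx⟩
  two := H.two.to_subgroup M
  card := H.card
  trans := H.trans
  alt := H.alt
  inj := H.inj

variable {H} in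
theorem Inv.mem_Z_of_comm {M : Subgroup P} (hM : H.Inv M) (hn : ¬ ∀ u ∈ M, ∀ v ∈ M, Commute u v) {x : P}
    (hx : x ∈ M) (h : ∀ g ∈ M, Commute g x) : x ∈ H.Z := by
  have hZ : H.Z ≤ M := by
    push Not at hn
    obtain ⟨u, hu, v, -, e⟩ := hn
    exact hM.Z_le hu (by rintro rfl; exact e (Commute.one_left v))
  have := (H.restrict hM hZ).center_eq fun e => hn fun u hu v hv => congrArg Subtype.val (e ⟨u, hu⟩ ⟨v, hv⟩).eq
  have h2 : (⟨x, hx⟩ : M) ∈ (H.restrict hM hZ).Z := by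
    rw [← this, Subgroup.mem_center_iff]
    exact fun g => Subtype.ext (h g g.2).eq
  exact congrArg Subtype.val h2

theorem comm_sq_of_mem_Z {g x : P} (h : ⁅g, x⁆ ∈ H.Z) : Commute (g * g) x := by
  rw [← commutatorElement_eq_one_iff_commute, comm_mul_left, mul_assoc, H.mem_Z.mp h, mul_one,
    commutatorElement_def g, H.conj_of_sq h, mul_inv_cancel]

/-- Higman: all squares are central involutions. -/
theorem sq_mem_Z (hn : ¬ ∀ u v : P, Commute u v) (g : P) : g * g ∈ H.Z := by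
  let M : Subgroup P := Subgroup.closure {x | ∃ g, x = g * g} ⊔ H.Z
  have hM : ∀ f : P →* P, (∀ z ∈ H.Z, f z ∈ H.Z) → ∀ a ∈ M, f a ∈ M := fun f hf a ha => by
    refine (show M ≤ M.comap f from sup_le ((Subgroup.closure_le _).mpr ?_) fun z hz => ?_) ha
    · rintro _ ⟨g, rfl⟩
      exact Subgroup.mem_sup_left (Subgroup.subset_closure ⟨f g, map_mul f g g⟩)
    · exact Subgroup.mem_sup_right (hf z hz)
  have hM1 : ∀ g, ∀ a ∈ M, g * a * g⁻¹ ∈ M := fun g => hM (MulAut.conj g).toMonoidHom (H.norm_Z g)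
  have hM2 : H.Inv M := fun κ => hM (H.K κ).toMonoidHom (H.inv_Z κ)
  have hsq : ∀ g, g * g ∈ M := fun g => Subgroup.mem_sup_left (Subgroup.subset_closure ⟨g, rfl⟩)
  have hMc : ∀ a ∈ M, ∀ b ∈ M, Commute a b := by
    by_contra hc
    obtain ⟨x, hx, hx1, -, hx2⟩ := H.exists_central H.norm_Z hM1 fun e => hc fun a ha b _ =>
      (Subgroup.mem_center_iff.mp (H.Z_le_center (e ha)) b).symm
    refine hx1 (hM2.mem_Z_of_comm hc hx fun a ha => ?_)
    refine (show M ≤ Subgroup.centralizer {x} from sup_le ((Subgroup.closure_le _).mpr ?_) fun z hz => ?_) ha |>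
      Subgroup.mem_centralizer_singleton_iff.mp
    · rintro _ ⟨g, rfl⟩
      exact Subgroup.mem_centralizer_singleton_iff.mpr (H.comm_sq_of_mem_Z (hx2 g)).eq
    · exact Subgroup.mem_centralizer_singleton_iff.mpr (Subgroup.mem_center_iff.mp (H.Z_le_center hz) x).symm
  obtain ⟨A, m, C, hMA, h, hC, hm, hCZ⟩ := H.exists_max hn hMc hM1 hM2 le_sup_right
  rcases m with _ | _ | m
  · exact H.mem_Z.mpr (by simpa [sq] using h.exp _ (hMA (hsq g)))
  swap
  · omega
  obtain ⟨T, hT1, hT2, hT3⟩ := h.exists_T (k := 0) rfl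
  simp only [pow_zero, pow_one] at hT1
  have hTA : ∀ u ∈ C, T u = 0 ↔ u ∈ A := fun u hu => ⟨fun e => by
    obtain ⟨c, hc, e'⟩ := h.root_sq (h.Z_le (hCZ u hu)) (by simpa [sq] using H.mem_Z.mp (hCZ u hu))
    exact h.mem_of_sq hc e' fun a ha => ⟨1, A.one_mem, by rw [← hT1 u a ha, e, one_pow]; exact H.ι_zero⟩,
    fun e => by
      ext x
      obtain ⟨b, hb, rfl⟩ := h.coord.surj x
      rw [AddMonoidHom.zero_apply, ← H.ι_eq_one, hT1 u b hb, (h.comm u e b hb).commutator_eq]⟩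
  let V : AddSubgroup (F →+ F) :=
    { carrier := {t | ∃ u ∈ C, T u = t}
      add_mem' := by
        rintro _ _ ⟨u, hu, rfl⟩ ⟨v, hv, rfl⟩
        exact ⟨u * v, C.mul_mem hu hv, hT2 u v⟩
      zero_mem' := ⟨1, C.one_mem, (hTA 1 C.one_mem).mpr A.one_mem⟩
      neg_mem' := by
        rintro _ ⟨u, hu, rfl⟩
        exact ⟨u⁻¹, C.inv_mem hu, addOn_inv (C := ⊤) (fun u _ v _ => hT2 u v) trivial⟩ }
  classical
  have hV : Coord C A fun u => if hu : u ∈ C then (⟨T u, u, hu, rfl⟩ : V) else 0 :=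
    ⟨hC.le, fun u hu v hv => by
      rw [dif_pos hu, dif_pos hv, dif_pos (C.mul_mem hu hv)]; exact Subtype.ext (hT2 u v),
      fun u hu => by rw [dif_pos hu, ← hTA u hu]; exact Subtype.ext_iff,
      fun ⟨_, u, hu, e⟩ => ⟨u, hu, by rw [dif_pos hu]; exact Subtype.ext e⟩⟩
  obtain ⟨c1, -, c3⟩ := fix_count' V H.ρ H.trans (by
    rintro κ _ ⟨u, hu, rfl⟩
    exact ⟨_, ⟨_, hC.inv κ u hu, rfl⟩, hT3 κ u⟩) (by
    rintro _ ⟨u, hu, rfl⟩ h0
    by_contra hfix
    push Not at hfix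
    have hinj : Function.Injective (T u + AddMonoidHom.id F) := (injective_iff_map_eq_zero _).mpr fun x hx => by
      by_contra hx0
      exact hfix x hx0 (CharTwo.add_eq_zero.mp hx)
    obtain ⟨x, hx⟩ := hinj.surjective_of_finite (Equiv.refl F) (H.lg (u * u))
    obtain ⟨a, ha, rfl⟩ := h.coord.surj x
    refine h0 ((hTA u hu).mpr ?_)
    have e1 : u * a * (u * a) = 1 := by
      have e2 := congrArg H.ι hx
      rw [AddMonoidHom.add_apply, H.ι_add, hT1 u a ha, AddMonoidHom.id_apply, h.ι_α ha,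
        H.ι_lg (H.mem_Z.mp (hCZ u hu))] at e2
      rw [mul_sq_eq, commutatorElement_def a, H.conj_of_sq (hCZ u hu), mul_inv_cancel, mul_one, mul_assoc,
        ← (Subgroup.mem_center_iff.mp (H.Z_le_center (hCZ u hu)) (a * a)), ← mul_assoc,
        show a * a = a ^ 2 ^ (0 + 1) by simp [sq], e2]
      exact hCZ u hu
    simpa using A.mul_mem (h.Z_le e1) (A.inv_mem ha))
    (by rw [← hV.relIndex]; exact h.inv.le_relIndex hC.inv hC.le hC.ne)
  have c1' : ∀ u ∈ C, ∀ x ≠ 0, T u x = 0 → u ∈ A := fun u hu x hx e => (hTA u hu).mp (c1 _ ⟨u, hu, rfl⟩ x hx e)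
  have hmem : ∀ u ∈ C, ∀ g, ⁅u, g⁆ ∈ A := fun u hu g => by
    rw [← commutatorElement_inv]; exact A.inv_mem (hC.comm g u hu)
  let β : P → C → F := fun g u => H.α (0 + 1) ⁅(u : P), g⁆
  have hβ : ∀ g g', β (g * g') = β g + β g' := fun g g' => by
    funext u
    have a1 := hC.comm g' u u.2
    simp only [β, Pi.add_apply]
    rw [← commutatorElement_inv, h.α_inv (hC.comm _ _ u.2), comm_mul_left,
      h.α_mul (A.mul_mem (h.comm_mem g a1) a1) (hC.comm _ _ u.2), h.α_mul (h.comm_mem g a1) a1, h.α_comm g a1,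
      ← commutatorElement_inv g, ← commutatorElement_inv g', h.α_inv (hC.comm _ _ u.2), h.α_inv (hC.comm _ _ u.2)]
    ring
  have hβ' : ∀ g, ∀ u v : C, β g (u * v) = β g u + β g v := fun g u v => by
    have a1 := hmem v v.2 g
    simp only [β, Subgroup.coe_mul]
    rw [comm_mul_left, h.α_mul (A.mul_mem (h.comm_mem u a1) a1) (hmem u u.2 g), h.α_mul (h.comm_mem u a1) a1,
      h.α_comm u a1]
    ring
  have hfix : ∀ g, ∀ u : C, T u (β g u) = β g u := fun g u => H.ι_inj (by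
    have a1 := hmem u u.2 g
    have e : ⁅(u : P) * u, g⁆ = 1 := by
      rw [commutatorElement_eq_one_iff_mul_comm]
      exact (Subgroup.mem_center_iff.mp (H.Z_le_center (hCZ u u.2)) g).symm
    rw [comm_mul_left, mul_assoc, ← hT1 u _ a1, show ∀ a : P, a * a = a ^ 2 ^ (0 + 1) from fun a => by simp [sq],
      ← h.ι_α a1, ← H.ι_add, H.ι_eq_one] at e
    exact congrArg H.ι (CharTwo.add_eq_zero.mp e))
  have hne : ∀ g, β g ≠ 0 → ∀ u : C, (u : P) ∉ A → β g u ≠ 0 := fun g hg u hu e => by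
    obtain ⟨v, hv⟩ := Function.ne_iff.mp hg
    have e1 := hfix g (v * u)
    rw [hβ', e, add_zero, Subgroup.coe_mul, hT2, AddMonoidHom.add_apply, hfix g v] at e1
    exact hu (c1' u u.2 _ hv (by simpa using e1))
  have hinv : H.Inv (addKer (C := ⊤) (φ := β) fun g _ g' _ => hβ g g') := fun κ g hg => ⟨trivial, by
    funext u
    have e := congrFun hg.2 ⟨H.K κ⁻¹ u, hC.inv _ _ u.2⟩
    simp only [β, Pi.zero_apply] at e ⊢
    have e2 : (u : P) = H.K κ (H.K κ⁻¹ u) := by simp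
    rw [e2, ← map_commutatorElement, h.α_K (hmem _ (hC.inv _ _ u.2) _), e, map_zero]⟩
  have htop := hinv.le_of_mul_mem H.inv_top le_top fun g _ g' _ hg hg' => ⟨trivial, by
    funext u
    rw [hβ, Pi.add_apply, Pi.zero_apply]
    by_cases hu : (u : P) ∈ A
    · simp only [β]
      rw [← commutatorElement_inv g, ← commutatorElement_inv g', h.α_inv (h.comm_mem _ hu),
        h.α_inv (h.comm_mem _ hu), h.α_comm _ hu, h.α_comm _ hu, add_zero]
    · rw [c3 _ ⟨u, u.2, rfl⟩ _ (hne g (fun e => hg ⟨trivial, e⟩) u hu) _ (hne g' (fun e => hg' ⟨trivial, e⟩) u hu)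
        (hfix g u) (hfix g' u), CharTwo.add_self_eq_zero]⟩
  obtain ⟨u, hu, hu'⟩ := SetLike.not_le_iff_exists.mp hC.ne
  have e1 : β g ⟨u, hu⟩ = 0 := congrFun (htop (Subgroup.mem_top g)).2 ⟨u, hu⟩
  have e2 : ⁅g, u⁆ ∈ H.Z := by
    rw [← commutatorElement_inv]
    exact H.Z.inv_mem (H.mem_Z.mpr (by simpa [sq] using (h.α_eq_zero (hmem u hu g)).mp e1))
  have e3 := hT1 u _ (hMA (hsq g))
  rw [(H.comm_sq_of_mem_Z e2).symm.commutator_eq, H.ι_eq_one] at e3
  by_contra e4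
  exact hu' (c1' u hu _ (fun e => e4 (H.mem_Z.mpr (by
    simpa [sq] using (h.α_eq_zero (hMA (hsq g))).mp e))) e3)

end Hg

end Cfsg.Agent.SpcHg
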