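import Mathlib
import Cfsg.Agent.RankOne.FieldQuad

set_option autoImplicit false
set_option linter.unusedSectionVars false

/-! Weights for transitive subgroups of the one-dimensional semilinear group in characteristic two. -/

namespace Cfsg.Agent.SpcHg

open Cfsg.Agent.RankOne

theorem pow_aux {a b c e : ℕ} (hab : a ≤ b) (hce : c ≤ e) (h : 2 ^ a + 2 ^ b = 2 ^ c + 2 ^ e) : ¬ a < c := by
  intro hac
  obtain ⟨k, rfl⟩ := Nat.exists_eq_add_of_le hab
  obtain ⟨i, rfl⟩ := Nat.exists_eq_add_of_lt hac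
  obtain ⟨j, rfl⟩ := Nat.exists_eq_add_of_le hce
  have : 1 + 2 ^ k = 2 * (2 ^ i + 2 ^ (i + j)) :=
    Nat.eq_of_mul_eq_mul_left (Nat.two_pow_pos a) (by ring_nf at h ⊢; omega)
  have h1 := Nat.one_le_two_pow (n := i)
  have h2 := Nat.one_le_two_pow (n := i + j)
  cases k with
  | zero => omega
  | succ k => rw [pow_succ] at this; omega

theorem pow_aux2 {a b c e : ℕ} (hab : a ≤ b) (hce : c ≤ e) (h : 2 ^ a + 2 ^ b = 2 ^ c + 2 ^ e) : a = c ∧ b = e := by
  have h1 := pow_aux hab hce h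
  have h2 := pow_aux hce hab h.symm
  obtain rfl : a = c := by omega
  exact ⟨rfl, Nat.pow_right_injective le_rfl (Nat.add_left_cancel h)⟩

theorem pow_add_inj {a b c e : ℕ} (h : 2 ^ a + 2 ^ b = 2 ^ c + 2 ^ e) : (a = c ∧ b = e) ∨ (a = e ∧ b = c) := by
  rcases le_total a b with h1 | h1 <;> rcases le_total c e with h2 | h2
  · exact Or.inl (pow_aux2 h1 h2 h)
  · exact Or.inr (pow_aux2 h1 h2 (by omega))
  · exact Or.inr (pow_aux2 h1 h2 (by omega)).symm
  · exact Or.inl (pow_aux2 h1 h2 (by omega)).symm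

theorem exists_rot {n t : ℕ} (ht : 4 * t < n) (a b c e : ℕ) :
    ∃ r, ∀ x ∈ ({a, b, c, e} : Finset ℕ), (x + r) % n + t < n := by
  by_contra hc
  push Not at hc
  have hsub : Finset.range n ⊆ ({a, b, c, e} : Finset ℕ).biUnion fun x =>
      (Finset.range n).filter fun r => n ≤ (x + r) % n + t := fun r hr => by
    obtain ⟨x, hx, h⟩ := hc r
    exact Finset.mem_biUnion.mpr ⟨x, hx, Finset.mem_filter.mpr ⟨hr, h⟩⟩
  have h1 := (Finset.card_le_card hsub).trans (Finset.card_biUnion_le_card_mul _ _ t fun x _ => ?_)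
  · have h2 : ({a, b, c, e} : Finset ℕ).card ≤ 4 := Finset.card_le_four
    rw [Finset.card_range] at h1
    have := Nat.mul_le_mul_right t h2
    omega
  · refine (Finset.card_le_card_of_injOn (fun r => (x + r) % n) (t := Finset.Ico (n - t) n) ?_ ?_).trans
      (by rw [Nat.card_Ico]; omega)
    · intro r hr
      have := Nat.mod_lt (x + r) (show 0 < n by omega)
      simp only [Finset.coe_filter, Finset.mem_range, Set.mem_setOf_eq, Finset.coe_Ico, Set.mem_Ico] at hr ⊢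
      omega
    · intro r hr s hs e
      simp only [Finset.coe_filter, Finset.mem_range, Set.mem_setOf_eq] at hr hs
      exact Nat.ModEq.eq_of_lt_of_lt (Nat.ModEq.add_left_cancel' x e) hr.1 hs.1

theorem pw_mod {n d N : ℕ} (hN : d * N + 1 = 2 ^ n) (y : ℕ) : 2 ^ (y % n) ≡ 2 ^ y [MOD N] := by
  have h1 : 2 ^ n ≡ 1 [MOD N] := by
    rw [← hN]
    simpa using (Nat.modEq_zero_iff_dvd.mpr (dvd_mul_left N d)).add_right 1
  conv_rhs => rw [← Nat.div_add_mod y n, pow_add, pow_mul]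
  simpa using ((h1.pow (y / n)).mul_right (2 ^ (y % n))).symm

theorem gen {n d N t a b c e : ℕ} (hN : d * N + 1 = 2 ^ n) (ht : 4 * t < n) (hd : d ≤ 2 ^ t) (ha : a < n)
    (hb : b < n) (hc : c < n) (he : e < n) (h : 2 ^ a + 2 ^ b ≡ 2 ^ c + 2 ^ e [MOD N]) :
    (a = c ∧ b = e) ∨ (a = e ∧ b = c) := by
  obtain ⟨r, hr⟩ := exists_rot ht a b c e
  obtain ⟨s, hs⟩ : ∃ s, n = t + (s + 1) := ⟨n - t - 1, by omega⟩
  have hb' : ∀ x ∈ ({a, b, c, e} : Finset ℕ), 1 ≤ 2 ^ ((x + r) % n) ∧ 2 ^ ((x + r) % n) ≤ 2 ^ s := fun x hx =>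
    ⟨Nat.one_le_two_pow, Nat.pow_le_pow_right two_pos (by have := hr x hx; omega)⟩
  have h1 : 2 ^ ((a + r) % n) + 2 ^ ((b + r) % n) ≡ 2 ^ ((c + r) % n) + 2 ^ ((e + r) % n) [MOD N] := by
    refine ((pw_mod hN _).add (pw_mod hN _)).trans (Nat.ModEq.trans ?_ ((pw_mod hN _).add (pw_mod hN _)).symm)
    simpa only [pow_add, add_mul] using h.mul_right (2 ^ r)
  have h2 : 2 * 2 ^ s ≤ N + 1 := by
    by_contra h3
    have h4 : d * N ≤ 2 ^ t * N := Nat.mul_le_mul_right _ hd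
    have h5 : 2 ^ t * (N + 2) ≤ 2 ^ t * (2 * 2 ^ s) := Nat.mul_le_mul_left _ (by omega)
    have h6 : 2 ^ n = 2 ^ t * (2 * 2 ^ s) := by rw [hs]; ring
    have := Nat.one_le_two_pow (n := t)
    rw [mul_add] at h5
    omega
  have a1 := hb' a (by simp)
  have a2 := hb' b (by simp)
  have a3 := hb' c (by simp)
  have a4 := hb' e (by simp)
  have h3 := h1.eq_of_abs_lt (by
    rw [abs_lt]
    constructor <;> push_cast <;> zify at a1 a2 a3 a4 h2 <;> linarith [a1.1, a1.2, a2.1, a2.2, a3.1, a3.2, a4.1, a4.2])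
  have key : ∀ x y, x < n → y < n → (x + r) % n = (y + r) % n → x = y := fun x y hx hy e =>
    Nat.ModEq.eq_of_lt_of_lt (Nat.ModEq.add_right_cancel' r e) hx hy
  rcases pow_add_inj h3 with ⟨e1, e2⟩ | ⟨e1, e2⟩
  · exact Or.inl ⟨key _ _ ha hc e1, key _ _ hb he e2⟩
  · exact Or.inr ⟨key _ _ ha he e1, key _ _ hb hc e2⟩

theorem four_le_pow (t : ℕ) : 4 * (t + 5) + 4 ≤ 2 ^ (t + 5) := by
  induction t with
  | zero => norm_num
  | succ t ih => rw [show t + 1 + 5 = t + 5 + 1 by ring, pow_succ]; omega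

theorem dbound {n d N : ℕ} (hn : 0 < n) (h1 : d ∣ n) (hN : d * N + 1 = 2 ^ n) :
    (n = 6 ∧ N = 21) ∨ ∃ t, 4 * t < n ∧ d ≤ 2 ^ t := by
  have hd := Nat.le_of_dvd hn h1
  by_cases h : n ≤ 20
  · have key : ∀ n < 21, ∀ d < 21, (0 < n ∧ n % d = 0 ∧ (2 ^ n - 1) % d = 0) →
        (n = 6 ∧ d = 3) ∨ d ≤ 2 ^ ((n - 1) / 4) := by
      decide +kernel
    rcases key n (by omega) d (by omega) ⟨hn, Nat.mod_eq_zero_of_dvd h1, Nat.mod_eq_zero_of_dvd ⟨N, by omega⟩⟩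
      with ⟨rfl, rfl⟩ | h2
    · exact Or.inl ⟨rfl, by omega⟩
    · exact Or.inr ⟨_, by omega, h2⟩
  · refine Or.inr ⟨(n - 1) / 4, by omega, ?_⟩
    obtain ⟨t, ht⟩ : ∃ t, (n - 1) / 4 = t + 5 := ⟨(n - 1) / 4 - 5, by omega⟩
    have := four_le_pow t
    rw [ht]
    omega

theorem num4 {n d N s i j : ℕ} (h1 : d ∣ n) (hN : d * N + 1 = 2 ^ n) (hs : s < n) (hi : i < n) (hj : j < n)
    (h : 2 ^ s + 2 ^ j ≡ 1 + 2 ^ (i + s) [MOD N]) : i = j := by
  rcases dbound (by omega) h1 hN with ⟨rfl, rfl⟩ | ⟨t, ht, hd⟩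
  · have : ∀ s < 6, ∀ i < 6, ∀ j < 6, 2 ^ s + 2 ^ j ≡ 1 + 2 ^ (i + s) [MOD 21] → i = j := by decide +kernel
    exact this _ hs _ hi _ hj h
  rcases gen hN ht hd hs hj (show 0 < n by omega) (Nat.mod_lt (i + s) (by omega))
    (h.trans ((pw_mod hN _).add_left 1).symm) with ⟨rfl, e⟩ | ⟨e, rfl⟩
  · rw [e, add_zero, Nat.mod_eq_of_lt hi]
  · refine Nat.ModEq.eq_of_lt_of_lt (m := n) (Nat.ModEq.add_right_cancel' s ?_) hi hj
    rw [zero_add, Nat.ModEq, ← e, Nat.mod_eq_of_lt hs]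

theorem num3 {n d N a b : ℕ} (h1 : d ∣ n) (hN : d * N + 1 = 2 ^ n) (ha : a < n) (hb : b < n)
    (h : 2 ^ a + 2 ^ b ≡ 1 [MOD N]) : a = b := by
  rcases dbound (by omega) h1 hN with ⟨rfl, rfl⟩ | ⟨t, ht, hd⟩
  · have : ∀ a < 6, ∀ b < 6, 2 ^ a + 2 ^ b ≡ 1 [MOD 21] → a = b := by decide +kernel
    exact this _ ha _ hb h
  obtain ⟨m, rfl⟩ : ∃ m, n = m + 1 := ⟨n - 1, by omega⟩
  have := gen hN ht hd ha hb (Nat.lt_succ_self m) (Nat.lt_succ_self m) (h.trans (by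
    have := pw_mod hN (m + 1)
    rwa [Nat.mod_self, pow_zero, pow_succ, mul_two] at this))
  omega

variable {F : Type*} [Field F] [Fintype F] [CharP F 2] {n d : ℕ} {κ : F}

theorem exists_frob (hF : Fintype.card F = 2 ^ n) (σ : F →+* F) : ∃ a < n, ∀ x, σ x = x ^ 2 ^ a := by
  have := Fact.mk Nat.prime_two
  letI := ZMod.algebra F 2
  have h2 : Module.finrank (ZMod 2) F = n := by
    have := Module.natCard_eq_pow_finrank (K := ZMod 2) (V := F)
    rw [Nat.card_eq_fintype_card, hF, Nat.card_zmod] at this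
    exact (Nat.pow_right_injective le_rfl this).symm
  let f : F →ₐ[ZMod 2] F := { σ with
    commutes' := fun x => DFunLike.congr_fun (RingHom.ext_zmod (σ.comp (algebraMap _ _)) (algebraMap _ _)) x }
  obtain ⟨a, ha⟩ := (FiniteField.bijective_frobeniusAlgHom_pow (ZMod 2) F).2 f
  refine ⟨a, h2 ▸ a.2, fun x => ?_⟩
  have := DFunLike.congr_fun ha x
  simp only [AlgHom.coe_pow, FiniteField.coe_frobeniusAlgHom, pow_iterate, ZMod.card] at this
  exact this.symm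

theorem w4 (hF : Fintype.card F = 2 ^ n) (h1 : d ∣ n) (hκ : κ ≠ 0) (hN : d * orderOf κ + 1 = 2 ^ n)
    {τ σ₁ σ₂ : F →+* F} (h : τ κ * σ₂ κ = κ * τ (σ₁ κ)) : σ₁ = σ₂ := by
  obtain ⟨s, hs, e⟩ := exists_frob hF τ
  obtain ⟨i, hi, e1⟩ := exists_frob hF σ₁
  obtain ⟨j, hj, e2⟩ := exists_frob hF σ₂
  rw [e, e, e1, e2, ← pow_mul, ← pow_add, ← pow_add, ← pow_succ', add_comm _ 1] at h
  lift κ to Fˣ using hκ.isUnit
  rw [orderOf_units] at hN
  have := num4 h1 hN hs hi hj (pow_eq_pow_iff_modEq.mp (Units.ext (by simpa using h)))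
  ext x
  rw [e1, e2, this]

theorem w3 (hF : Fintype.card F = 2 ^ n) (h1 : d ∣ n) (hκ : κ ≠ 0) (hN : d * orderOf κ + 1 = 2 ^ n)
    {σ τ : F →+* F} (h : σ κ * τ κ = κ) : σ = τ := by
  obtain ⟨i, hi, e1⟩ := exists_frob hF σ
  obtain ⟨j, hj, e2⟩ := exists_frob hF τ
  rw [e1, e2, ← pow_add] at h
  lift κ to Fˣ using hκ.isUnit
  rw [orderOf_units] at hN
  have := num3 h1 hN hi hj (pow_eq_pow_iff_modEq.mp (Units.ext (by simpa using h)))
  ext x
  rw [e1, e2, this]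

theorem alt_zero (hw : ∀ σ τ : F →+* F, σ κ * τ κ = κ → σ = τ) (B : F →+ F →+ F) (h0 : ∀ x, B x x = 0)
    (h : ∀ x y, B (κ * x) (κ * y) = κ * B x y) : B = 0 := by
  classical
  obtain ⟨c, hc, hc'⟩ := FQ.span₂_weight B (ι := Unit) (fun _ => κ) (fun _ => κ) (fun _ => κ) fun _ => h
  have hd : ∀ σ τ, τ ≠ σ → c (σ, τ) = 0 := fun σ τ hne => by
    by_contra e
    exact hne (hw σ τ (hc' _ e ())).symm
  have h1 : ∀ σ, c (σ, σ) = 0 := fun σ => FQ.dedekind Finset.univ (fun σ => c (σ, σ)) (fun y => by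
    obtain ⟨x, rfl⟩ := (frobenius F 2).injective.surjective_of_finite (Equiv.refl F) y
    rw [← h0 x, hc, Fintype.sum_prod_type]
    refine Finset.sum_congr rfl fun σ _ => ?_
    rw [Finset.sum_eq_single σ (fun τ _ hne => by rw [hd σ τ hne, zero_mul]) (by simp), frobenius_def, sq,
      map_mul]) σ (Finset.mem_univ _)
  ext x y
  rw [hc]
  refine Finset.sum_eq_zero fun ⟨σ, τ⟩ _ => ?_
  by_cases e : τ = σ
  · rw [e, h1, zero_mul]
  · rw [hd σ τ e, zero_mul]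

theorem inj_of_irr {Γ : Type*} (ρ : Γ → F ≃+ F) (hF : Fintype.card F = 2 ^ n)
    (hρ : ∀ g, ∃ (a : F) (φ : F ≃+* F), ∀ x, ρ g x = a * φ x) (hκ : κ ≠ 0) {g₀ : Γ} (hg₀ : ∀ x, ρ g₀ x = κ * x)
    (hw : ∀ τ σ₁ σ₂ : F →+* F, τ κ * σ₂ κ = κ * τ (σ₁ κ) → σ₁ = σ₂)
    (W : AddSubgroup (F →+ F)) (hW : ∀ g, ∀ t ∈ W, ∃ t' ∈ W, ∀ x, t' (ρ g x) = ρ g (t x))
    (hirr : ∀ W' ≤ W, (∀ g, ∀ t ∈ W', ∀ t' ∈ W, (∀ x, t' (ρ g x) = ρ g (t x)) → t' ∈ W') → W' = ⊥ ∨ W' = W)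
    (hq : Fintype.card F ≤ Nat.card W) : ∀ t ∈ W, ∀ x ≠ 0, t x = 0 → t = 0 := by
  classical
  choose c hc using FQ.span₁ (F := F)
  have hadd : ∀ σ f g, c (f + g) σ = c f σ + c g σ := fun σ f g =>
    sub_eq_zero.mp (FQ.dedekind Finset.univ (fun σ => c (f + g) σ - (c f σ + c g σ)) (fun y => by
      simp only [sub_mul, add_mul, Finset.sum_sub_distrib, Finset.sum_add_distrib, ← hc,
        AddMonoidHom.add_apply, sub_self]) σ (Finset.mem_univ _))
  let cc : (F →+* F) → (F →+ F) →+ F := fun σ => AddMonoidHom.mk' (fun f => c f σ) (hadd σ)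
  have heq : ∀ (a : F) (φ : F ≃+* F) (t t' : F →+ F), (∀ x, t' (a * φ x) = a * φ (t x)) →
      ∀ σ, c t' σ * σ a = a * φ (c t σ) := fun a φ t t' h σ =>
    sub_eq_zero.mp (FQ.dedekind Finset.univ (fun σ => c t' σ * σ a - a * φ (c t σ)) (fun y => by
      obtain ⟨x, rfl⟩ := φ.surjective y
      have e := h x
      rw [hc t', hc t, map_sum, Finset.mul_sum, ← sub_eq_zero, ← Finset.sum_sub_distrib] at e
      rw [← e]
      refine Finset.sum_congr rfl fun σ _ => ?_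
      obtain ⟨i, -, hi⟩ := exists_frob hF σ
      have : φ (σ x) = σ (φ x) := by rw [hi, hi, map_pow]
      rw [map_mul, map_mul, this]
      ring) σ (Finset.mem_univ _))
  have hker : ∀ σ, ∀ t ∈ W, c t σ ≠ 0 → ∀ t' ∈ W, c t' σ = 0 → t' = 0 := fun σ t ht h0 t' ht' h1 => by
    rcases hirr (W ⊓ (cc σ).ker) inf_le_left (fun g s hs s' hs' e => by
      obtain ⟨a, φ, hφ⟩ := hρ g
      have ha : a ≠ 0 := fun ha => one_ne_zero ((ρ g).map_eq_zero_iff.mp (by rw [hφ, ha, zero_mul]))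
      have := heq a φ s s' (fun x => by rw [← hφ, ← hφ, e]) σ
      rw [show c s σ = 0 from hs.2, map_zero, mul_zero] at this
      exact ⟨hs', (mul_eq_zero.mp this).resolve_right ((map_ne_zero σ).mpr ha)⟩) with e | e
    · exact AddSubgroup.mem_bot.mp (e.le ⟨ht', h1⟩)
    · exact absurd (e.ge ht).2 h0
  intro t ht x hx e
  by_contra h0
  obtain ⟨σ₁, h1⟩ : ∃ σ, c t σ ≠ 0 := by
    by_contra h
    push Not at h
    exact h0 (AddMonoidHom.ext fun y => by rw [hc t]; simp [h])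
  have : Finite (F →+ F) := DFunLike.finite _
  have hbij : Function.Bijective ((cc σ₁).comp W.subtype) :=
    ((injective_iff_map_eq_zero _).mpr fun s hs => Subtype.ext (hker σ₁ t ht h1 s s.2 hs)).bijective_of_nat_card_le
      (by rwa [Nat.card_eq_fintype_card])
  have hone : ∀ σ, σ ≠ σ₁ → c t σ = 0 := fun σ hne => by
    by_contra h2
    let ε := AddEquiv.ofBijective _ hbij
    let f : F →+ F := ((cc σ).comp W.subtype).comp ε.symm.toAddMonoidHom
    have hf : ∀ s ∈ W, f (c s σ₁) = c s σ := fun s hs =>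
      congrArg (fun s : W => c s σ) (ε.symm_apply_apply ⟨s, hs⟩)
    have k1 := (map_ne_zero σ₁).mpr hκ
    have k2 := (map_ne_zero σ).mpr hκ
    have hf2 : ∀ u, f (κ / σ₁ κ * u) = κ / σ κ * f u := fun u => by
      obtain ⟨⟨s, hs⟩, rfl⟩ := hbij.2 u
      obtain ⟨s', hs', e⟩ := hW g₀ s hs
      have e' := heq κ (RingEquiv.refl F) s s' fun x => by simpa only [hg₀, RingEquiv.refl_apply] using e x
      have e1 : c s' σ₁ = κ / σ₁ κ * c s σ₁ := by
        rw [div_mul_eq_mul_div, eq_div_iff k1]; exact e' σ₁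
      have e2 : c s' σ = κ / σ κ * c s σ := by
        rw [div_mul_eq_mul_div, eq_div_iff k2]; exact e' σ
      change f (κ / σ₁ κ * c s σ₁) = κ / σ κ * f (c s σ₁)
      rw [← e1, hf s hs, hf s' hs', e2]
    obtain ⟨τ, hτ⟩ : ∃ τ, c f τ ≠ 0 := by
      by_contra h
      push Not at h
      exact h2 (by rw [← hf t ht, hc f]; simp [h])
    have := FQ.dedekind Finset.univ (fun τ => c f τ * (τ (κ / σ₁ κ) - κ / σ κ)) (fun y => by
      have e := hf2 y
      rw [hc f, hc f y, Finset.mul_sum, ← sub_eq_zero, ← Finset.sum_sub_distrib] at e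
      rw [← e]
      exact Finset.sum_congr rfl fun τ _ => by rw [map_mul]; ring) τ (Finset.mem_univ _)
    have e3 := sub_eq_zero.mp ((mul_eq_zero.mp this).resolve_left hτ)
    rw [map_div₀, div_eq_div_iff ((map_ne_zero τ).mpr k1) k2] at e3
    exact hne (hw τ σ₁ σ e3).symm
  rw [hc t, Finset.sum_eq_single σ₁ (fun σ _ hne => by rw [hone σ hne, zero_mul]) (by simp)] at e
  exact mul_ne_zero h1 ((map_ne_zero σ₁).mpr hx) e

theorem exists_kappa {Γ : Type*} [Group Γ] [Finite Γ] (ρ : Γ → F ≃+ F) (hF : Fintype.card F = 2 ^ n)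
    (hmul : ∀ g h x, ρ (g * h) x = ρ g (ρ h x))
    (hρ : ∀ g, ∃ (a : F) (φ : F ≃+* F), ∀ x, ρ g x = a * φ x) (htr : ∀ x ≠ 0, ∀ y ≠ 0, ∃ g, ρ g x = y) :
    ∃ (d : ℕ) (κ : F) (g₀ : Γ), d ∣ n ∧ κ ≠ 0 ∧ d * orderOf κ + 1 = 2 ^ n ∧ ∀ x, ρ g₀ x = κ * x := by
  classical
  choose a φ hφ using hρ
  have ha : ∀ g, a g ≠ 0 := fun g ha => one_ne_zero ((ρ g).map_eq_zero_iff.mp (by rw [hφ, ha, zero_mul]))
  have ha2 : ∀ g h, a (g * h) = a g * φ g (a h) := fun g h => by simpa [hφ] using hmul g h 1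
  let π : Γ →* (F ≃+* F) := MonoidHom.mk' φ fun g h => RingEquiv.ext fun x => mul_left_cancel₀ (ha (g * h)) (by
    rw [← hφ, hmul, hφ, hφ, map_mul, ha2, mul_assoc]; rfl)
  have hπ : ∀ g : π.ker, ∀ x, φ g x = x := fun g x => DFunLike.congr_fun (MonoidHom.mem_ker.mp g.2) x
  let α : π.ker →* Fˣ := MonoidHom.mk' (fun g => Units.mk0 (a g) (ha g)) fun g h => Units.ext (by
    simp only [Units.val_mk0, Units.val_mul, Subgroup.coe_mul]
    rw [ha2, hπ])
  letI : MulAction Γ F :=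
    { smul := fun g x => ρ g x
      one_smul := fun x => (ρ 1).injective (by change ρ 1 (ρ 1 x) = _; rw [← hmul, one_mul])
      mul_smul := hmul }
  have h1 : (MulAction.stabilizer Γ (1 : F)).index = Fintype.card F - 1 := by
    rw [MulAction.index_stabilizer, show MulAction.orbit Γ (1 : F) = {0}ᶜ from Set.ext fun y => ⟨by
      rintro ⟨g, rfl⟩ e
      exact one_ne_zero ((ρ g).map_eq_zero_iff.mp e), fun hy => htr 1 one_ne_zero y hy⟩, Set.ncard_compl,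
      Set.ncard_singleton, Nat.card_eq_fintype_card]
  have h2 : α.ker.map π.ker.subtype ≤ MulAction.stabilizer Γ (1 : F) := by
    rintro _ ⟨g, hg, rfl⟩
    change ρ g 1 = 1
    rw [hφ, map_one, mul_one]
    exact congrArg Units.val (MonoidHom.mem_ker.mp hg)
  have h3 := Subgroup.index_dvd_of_le h2
  rw [h1, Subgroup.index_map_subtype, Subgroup.index_ker, Subgroup.index_ker] at h3
  have : Finite (F ≃+* F) := DFunLike.finite _
  have h4 : Nat.card π.range ∣ n := by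
    rw [← card_ringHom_self (F := F) (n := n) Nat.prime_two (by rw [Nat.card_eq_fintype_card, hF]),
      ← Nat.card_eq_of_bijective (fun f : F ≃+* F => (f : F →+* F)) ⟨fun f g h => RingEquiv.ext fun x =>
        DFunLike.congr_fun h x, fun f => ⟨RingEquiv.ofBijective f
          ⟨f.injective, f.injective.surjective_of_finite (Equiv.refl F)⟩, rfl⟩⟩]
    exact Subgroup.card_subgroup_dvd_card _
  obtain ⟨⟨_, g₀, rfl⟩, hk⟩ := IsCyclic.exists_ofOrder_eq_natCard (α := α.range)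
  rw [← Subgroup.orderOf_coe, ← orderOf_units] at hk
  have h5 := α.range.index_mul_card
  rw [Nat.card_eq_fintype_card (α := Fˣ), Fintype.card_units] at h5
  refine ⟨α.range.index, a g₀, g₀, ?_, ha _, ?_, fun x => by rw [hφ, hπ]⟩
  · refine Nat.dvd_of_mul_dvd_mul_right (Nat.card_pos (α := α.range)) ?_
    rw [h5, mul_comm n]
    exact h3.trans (Nat.mul_dvd_mul_left _ h4)
  · rw [show orderOf (a g₀) = Nat.card α.range from hk, h5, ← hF]
    have := Fintype.card_pos (α := F)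
    omega

end Cfsg.Agent.SpcHg
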